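/-
RadicalRankFour: elementary abelian groups of order 16 with a nontrivial action of the alternating group of degree 5,
and equivariant quadratic maps between them.
-/
import Mathlib

set_option autoImplicit false

namespace CfsgLib.RadicalRankFour

/-- The alternating group of degree five. -/
abbrev A5 := alternatingGroup (Fin 5)

/-- Membership in the four-group fixing a point. -/
def InS (i : Fin 5) (σ : A5) : Prop := (σ : Equiv.Perm (Fin 5)) i = i ∧ σ * σ = 1

namespace A5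

set_option synthInstance.maxSize 3000

theorem trans (i j : Fin 5) : ∃ σ : A5, (σ : Equiv.Perm (Fin 5)) i = j := by
  revert i j; decide +kernel

theorem trans_two (i j k l : Fin 5) (hij : i ≠ j) (hkl : k ≠ l) :
    ∃ σ : A5, (σ : Equiv.Perm (Fin 5)) i = k ∧ (σ : Equiv.Perm (Fin 5)) j = l := by
  revert i j k l; decide +kernel

theorem pair_five (e : A5) (he : e * e = 1) (he1 : e ≠ 1) :
    ∃ k : A5, (e * (k * e * k⁻¹)) ^ 5 = 1 ∧ e * (k * e * k⁻¹) ≠ 1 := by
  revert e; decide +kernel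

theorem S_nontrivial (i : Fin 5) : ∃ s t : A5, (InS i s ∧ s ≠ 1) ∧ InS i t ∧ t ≠ 1 ∧ s ≠ t ∧
    s * t = t * s ∧ ∀ σ : A5, InS i σ → σ = 1 ∨ σ = s ∨ σ = t ∨ σ = s * t := by
  unfold InS; revert i; decide +kernel

theorem S_three (i : Fin 5) : ∃ θ : A5, (θ : Equiv.Perm (Fin 5)) i = i ∧ θ * θ * θ = 1 ∧ θ ≠ 1 ∧
    ∀ σ : A5, (σ : Equiv.Perm (Fin 5)) i = i →
      InS i σ ∨ InS i (σ * θ) ∨ InS i (σ * θ * θ) := by
  unfold InS; revert i; decide +kernel

theorem S_three_any : ∀ (i : Fin 5) (θ σ : A5), (θ : Equiv.Perm (Fin 5)) i = i → θ * θ * θ = 1 → θ ≠ 1 →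
    (σ : Equiv.Perm (Fin 5)) i = i → InS i σ ∨ InS i (σ * θ) ∨ InS i (σ * θ * θ) := by
  unfold InS; decide +kernel

theorem S_conj (σ : A5) (i : Fin 5) (s : A5) (hs : InS i s) :
    InS ((σ : Equiv.Perm (Fin 5)) i) (σ * s * σ⁻¹) := by
  refine ⟨?_, ?_⟩
  · simp [hs.1]
  · rw [show σ * s * σ⁻¹ * (σ * s * σ⁻¹) = σ * (s * s) * σ⁻¹ by group, hs.2]; group

theorem S_gen (i j : Fin 5) (hij : i ≠ j) :
    ∃ s t : A5, InS i s ∧ InS j t ∧ (s * t) ^ 5 = 1 ∧ s * t ≠ 1 := by
  unfold InS; revert i j; decide +kernel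

theorem pair_fixed (i j : Fin 5) (hij : i ≠ j) : ∀ k : Fin 5, (k ≠ i ∧ k ≠ j) →
    ∃ σ : A5, (σ : Equiv.Perm (Fin 5)) i = i ∧ (σ : Equiv.Perm (Fin 5)) j = j ∧ (σ : Equiv.Perm (Fin 5)) k ≠ k := by
  revert i j; decide +kernel

theorem pair_swap (i j : Fin 5) (hij : i ≠ j) : ∃ σ : A5, (σ : Equiv.Perm (Fin 5)) i = j ∧
    (σ : Equiv.Perm (Fin 5)) j = i := by
  revert i j; decide +kernel

theorem S_move (i j : Fin 5) (hij : j ≠ i) : ∃ s : A5, InS i s ∧ (s : Equiv.Perm (Fin 5)) j ≠ j := by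
  unfold InS; revert i j; decide +kernel

theorem S_pair (i k l : Fin 5) (hkl : k ≠ l) : ∃ s : A5, InS i s ∧
    (s : Equiv.Perm (Fin 5)) k ≠ l ∧ (s : Equiv.Perm (Fin 5)) k ≠ k ∨ InS i s ∧
    (s : Equiv.Perm (Fin 5)) l ≠ k ∧ (s : Equiv.Perm (Fin 5)) l ≠ l := by
  unfold InS; revert i k l; decide +kernel

end A5

variable {M : Type*} [CommGroup M]

/-- An elementary abelian group of order 16 with a faithful action. -/
structure Mod5 (ρ : A5 →* MulAut M) : Prop where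
  card : Nat.card M = 16
  exp : ∀ m : M, m * m = 1
  inj : Function.Injective ρ

/-- Fixed points of a set of elements. -/
def fixBy (ρ : A5 →* MulAut M) (P : A5 → Prop) : Subgroup M where
  carrier := {m | ∀ σ, P σ → ρ σ m = m}
  one_mem' := fun σ _ => map_one (ρ σ)
  mul_mem' := fun {a b} ha hb σ h => by rw [map_mul, ha σ h, hb σ h]
  inv_mem' := fun {a} ha σ h => by rw [map_inv, ha σ h]

theorem mem_fixBy {ρ : A5 →* MulAut M} {P : A5 → Prop} {m : M} :
    m ∈ fixBy ρ P ↔ ∀ σ, P σ → ρ σ m = m := Iff.rfl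

theorem rho_mul (ρ : A5 →* MulAut M) (σ τ : A5) (m : M) : ρ (σ * τ) m = ρ σ (ρ τ m) := by
  rw [map_mul]; rfl

theorem rho_one (ρ : A5 →* MulAut M) (m : M) : ρ 1 m = m := by rw [map_one]; rfl

theorem mem_fix_eq {ρ : A5 →* MulAut M} {e : A5} {m : M} : m ∈ fixBy ρ (· = e) ↔ ρ e m = m :=
  ⟨fun h => h e rfl, fun h σ hσ => by subst hσ; exact h⟩

/-- An action on a 2-group of order at most eight by the alternating group is trivial. -/
theorem small_action_trivial [Finite M] (ρ : A5 →* MulAut M) {n : ℕ} (hn : Nat.card M = 2 ^ n) (hn3 : n ≤ 3) :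
    ρ = 1 := by
  classical
  haveI : Fact (Nat.Prime 5) := ⟨by norm_num⟩
  rcases IsSimpleGroup.eq_bot_or_eq_top_of_normal ρ.ker inferInstance with h | h
  swap
  · exact MonoidHom.ext fun x => MonoidHom.mem_ker.1 (h ▸ Subgroup.mem_top x)
  exfalso
  obtain ⟨d, hd5, hd1⟩ : ∃ d : A5, d ^ 5 = 1 ∧ d ≠ 1 := by decide +kernel
  have hord : orderOf d = 5 := orderOf_eq_prime hd5 hd1
  letI : MulAction A5 M := MulAction.compHom M ρ
  have hCp : IsPGroup 5 (Subgroup.zpowers d) := IsPGroup.of_card (n := 1) (by rw [Nat.card_zpowers, hord]; rfl)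
  have hmod := hCp.card_modEq_card_fixedPoints M
  have hfix : Nat.card (MulAction.fixedPoints (Subgroup.zpowers d) M) = Nat.card (fixBy ρ (· = d)) := by
    refine Nat.card_congr (Equiv.subtypeEquivRight fun m => ?_)
    rw [mem_fix_eq]
    refine ⟨fun h' => h' ⟨d, Subgroup.mem_zpowers d⟩, fun h' c => ?_⟩
    obtain ⟨k, hk⟩ := c.2
    show (c : A5) • m = m
    rw [← hk]
    exact (Subgroup.zpowers_le (H := MulAction.stabilizer A5 m)).2 h' (Subgroup.zpow_mem_zpowers d k)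
  rw [hfix] at hmod
  have hdvd := Subgroup.card_subgroup_dvd_card (fixBy ρ (· = d))
  rw [hn] at hdvd hmod
  obtain ⟨j, hj, hje⟩ := (Nat.dvd_prime_pow Nat.prime_two).1 hdvd
  rw [hje] at hmod
  have hjn : j = n := by
    have : n = 0 ∨ n = 1 ∨ n = 2 ∨ n = 3 := by omega
    rcases this with rfl | rfl | rfl | rfl <;> interval_cases j <;> simp [Nat.ModEq] at hmod <;> rfl
  have htop : fixBy ρ (· = d) = ⊤ := Subgroup.eq_top_of_card_eq _ (by rw [hje, hn, hjn])
  have : ρ d = 1 := MulEquiv.ext fun m => mem_fix_eq.1 (htop ▸ Subgroup.mem_top m)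
  rw [← map_one ρ] at this
  exact hd1 ((MonoidHom.ker_eq_bot_iff ρ).1 h this)

/-- Orthogonal coordinates: five permuted elements of product one. -/
structure OrthData (ρ : A5 →* MulAut M) (v : Fin 5 → M) : Prop where
  perm : ∀ (σ : A5) (i : Fin 5), ρ σ (v i) = v ((σ : Equiv.Perm (Fin 5)) i)
  ne : ∀ i, v i ≠ 1
  inj : Function.Injective v
  prod : v 0 * v 1 * v 2 * v 3 * v 4 = 1
  cases : ∀ m : M, m = 1 ∨ (∃ i, m = v i) ∨ ∃ i j, i ≠ j ∧ m = v i * v j

namespace Mod5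

variable {ρ : A5 →* MulAut M} (hM : Mod5 ρ)
include hM

theorem finite : Finite M := Nat.finite_of_card_ne_zero (by rw [hM.card]; norm_num)

theorem inv_eq (m : M) : m⁻¹ = m := inv_eq_of_mul_eq_one_right (hM.exp m)

theorem five_fpf (d : A5) (hd5 : d ^ 5 = 1) (hd1 : d ≠ 1) (m : M) (hm : ρ d m = m) : m = 1 := by
  classical
  haveI := hM.finite
  haveI : Fact (Nat.Prime 5) := ⟨by norm_num⟩
  have hord : orderOf d = 5 := orderOf_eq_prime hd5 hd1
  letI : MulAction A5 M := MulAction.compHom M ρ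
  have hCp : IsPGroup 5 (Subgroup.zpowers d) := IsPGroup.of_card (n := 1) (by rw [Nat.card_zpowers, hord]; rfl)
  have hmod := hCp.card_modEq_card_fixedPoints M
  have hfix : Nat.card (MulAction.fixedPoints (Subgroup.zpowers d) M) = Nat.card (fixBy ρ (· = d)) := by
    refine Nat.card_congr (Equiv.subtypeEquivRight fun m => ?_)
    rw [mem_fix_eq]
    refine ⟨fun h' => h' ⟨d, Subgroup.mem_zpowers d⟩, fun h' c => ?_⟩
    obtain ⟨k, hk⟩ := c.2
    show (c : A5) • m = m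
    rw [← hk]
    exact (Subgroup.zpowers_le (H := MulAction.stabilizer A5 m)).2 h' (Subgroup.zpow_mem_zpowers d k)
  rw [hfix, hM.card] at hmod
  have hdvd := Subgroup.card_subgroup_dvd_card (fixBy ρ (· = d))
  rw [hM.card, show 16 = 2 ^ 4 by norm_num] at hdvd
  obtain ⟨j, hj, hje⟩ := (Nat.dvd_prime_pow Nat.prime_two).1 hdvd
  rw [hje] at hmod
  have hj0 : j = 0 := by
    have hj4 : j ≠ 4 := by
      rintro rfl
      have htop : fixBy ρ (· = d) = ⊤ := Subgroup.eq_top_of_card_eq _ (by rw [hje, hM.card]; norm_num)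
      have : ρ d = 1 := MulEquiv.ext fun m => mem_fix_eq.1 (htop ▸ Subgroup.mem_top m)
      rw [← map_one ρ] at this
      exact hd1 (hM.inj this)
    interval_cases j <;> simp [Nat.ModEq] at hmod <;> first | rfl | exact absurd rfl hj4
  have hmem : m ∈ fixBy ρ (· = d) := mem_fix_eq.2 hm
  rw [Subgroup.eq_bot_of_card_eq (fixBy ρ (· = d)) (by rw [hje, hj0, pow_zero]), Subgroup.mem_bot] at hmem
  exact hmem

theorem fixed_bot (m : M) (h : ∀ σ, ρ σ m = m) : m = 1 := by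
  obtain ⟨d, hd5, hd1⟩ : ∃ d : A5, d ^ 5 = 1 ∧ d ≠ 1 := by decide +kernel
  exact hM.five_fpf d hd5 hd1 m (h d)

/-- Fixed points of an involution: order four, equal to its commutators. -/
theorem inv_fix (e : A5) (he : e * e = 1) (he1 : e ≠ 1) :
    Nat.card (fixBy ρ (· = e)) = 4 ∧ ∀ m, ρ e m = m → ∃ n, m = ρ e n * n⁻¹ := by
  classical
  haveI := hM.finite
  let f : M →* M :=
    { toFun := fun n => ρ e n * n⁻¹
      map_one' := by simp
      map_mul' := fun a b => by simp only [map_mul, mul_inv]; ac_rfl }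
  have hker : f.ker = fixBy ρ (· = e) := by
    ext m; rw [MonoidHom.mem_ker, mem_fix_eq]; exact mul_inv_eq_one
  have hrange : f.range ≤ fixBy ρ (· = e) := by
    rintro _ ⟨n, rfl⟩
    rw [mem_fix_eq]
    show ρ e (ρ e n * n⁻¹) = ρ e n * n⁻¹
    rw [map_mul, ← rho_mul, he, rho_one, map_inv, hM.inv_eq, hM.inv_eq, mul_comm]
  have hprod : Nat.card f.ker * Nat.card f.range = 16 := by
    rw [← Subgroup.index_ker, Subgroup.card_mul_index, hM.card]
  obtain ⟨k, hk5, hk1⟩ := A5.pair_five e he he1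
  set e' := k * e * k⁻¹ with he'
  have hee : Nat.card (fixBy ρ (· = e)) * Nat.card (fixBy ρ (· = e')) ≤ 16 := by
    rw [← hM.card, ← Nat.card_prod]
    refine Nat.card_le_card_of_injective (fun p => (p.1 : M) * (p.2 : M)) ?_
    rintro ⟨⟨a, ha⟩, ⟨b, hb⟩⟩ ⟨⟨c, hc⟩, ⟨d, hd⟩⟩ h
    have h' : a * b = c * d := h
    have e1 : c⁻¹ * a = d * b⁻¹ := by
      rw [eq_mul_inv_iff_mul_eq, mul_assoc, h', inv_mul_cancel_left]
    have h1 : c⁻¹ * a = 1 := by
      refine hM.five_fpf _ hk5 hk1 _ ?_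
      rw [rho_mul, show ρ e' (c⁻¹ * a) = c⁻¹ * a by
        rw [e1]; exact mem_fix_eq.1 (mul_mem hd (inv_mem hb)), mem_fix_eq.1 (mul_mem (inv_mem hc) ha)]
    obtain rfl := inv_mul_eq_one.1 h1
    obtain rfl := mul_left_cancel h'
    rfl
  have hsame : Nat.card (fixBy ρ (· = e)) = Nat.card (fixBy ρ (· = e')) := by
    refine Nat.card_congr
      { toFun := fun m => ⟨ρ k m, mem_fix_eq.2 ?_⟩
        invFun := fun m => ⟨ρ k⁻¹ m, mem_fix_eq.2 ?_⟩
        left_inv := fun m => Subtype.ext (by show ρ k⁻¹ (ρ k m) = m; rw [← rho_mul, inv_mul_cancel, rho_one])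
        right_inv := fun m => Subtype.ext (by show ρ k (ρ k⁻¹ m) = m; rw [← rho_mul, mul_inv_cancel, rho_one]) }
    · rw [← rho_mul, show e' * k = k * e by rw [he']; group, rho_mul, mem_fix_eq.1 m.2]
    · rw [← rho_mul, show e * k⁻¹ = k⁻¹ * e' by rw [he']; group, rho_mul, mem_fix_eq.1 m.2]
  rw [← hsame] at hee
  have hle := Subgroup.card_le_of_le hrange
  rw [hker] at hprod
  have h4 : Nat.card (fixBy ρ (· = e)) = 4 := by nlinarith
  refine ⟨h4, fun m hm => ?_⟩
  rw [h4] at hprod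
  have heq : f.range = fixBy ρ (· = e) := Subgroup.eq_of_le_of_card_ge hrange (by omega)
  obtain ⟨n, hn⟩ := (heq.symm ▸ mem_fix_eq.2 hm : m ∈ f.range)
  exact ⟨n, hn.symm⟩

/-- The four-group fixing a point has a nontrivial fixed point. -/
theorem exists_fixS (i : Fin 5) : ∃ w : M, w ≠ 1 ∧ ∀ σ, InS i σ → ρ σ w = w := by
  classical
  haveI := hM.finite
  obtain ⟨s, t, ⟨hs, hs1⟩, ht, ht1, hne, hcomm, hall⟩ := A5.S_nontrivial i
  obtain ⟨h4, -⟩ := hM.inv_fix s hs.2 hs1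
  obtain ⟨⟨m, hm⟩, hm1⟩ : ∃ m : fixBy ρ (· = s), m ≠ 1 := by
    haveI : Nontrivial (fixBy ρ (· = s)) := Finite.one_lt_card_iff_nontrivial.1 (by rw [h4]; norm_num)
    exact exists_ne 1
  rw [mem_fix_eq] at hm
  have key : ∀ w, ρ s w = w → ρ t w = w → ∀ σ, InS i σ → ρ σ w = w := by
    intro w hws hwt σ hσ
    rcases hall σ hσ with rfl | rfl | rfl | rfl
    · exact rho_one ρ w
    · exact hws
    · exact hwt
    · rw [rho_mul, hwt, hws]
  by_cases htm : ρ t m = m
  · exact ⟨m, fun h => hm1 (Subtype.ext h), key m hm htm⟩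
  refine ⟨m * ρ t m, fun h => htm ?_, key _ ?_ ?_⟩
  · rw [eq_inv_of_mul_eq_one_right h, hM.inv_eq]
  · rw [map_mul, hm, ← rho_mul, hcomm, rho_mul, hm]
  · rw [map_mul, ← rho_mul, ht.2, rho_one, mul_comm]

/-- Either five permuted elements, or no point stabiliser fixes a point. -/
theorem dichotomy : (∃ v, OrthData ρ v) ∨
    ∀ (i : Fin 5) (m : M), (∀ σ : A5, (σ : Equiv.Perm (Fin 5)) i = i → ρ σ m = m) → m = 1 := by
  classical
  by_contra hcon
  rw [not_or] at hcon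
  obtain ⟨h1, h2⟩ := hcon
  push Not at h2
  obtain ⟨i₀, a, ha, ha1⟩ := h2
  apply h1
  haveI := hM.finite
  choose c hc using A5.trans i₀
  let v : Fin 5 → M := fun i => ρ (c i) a
  have hperm : ∀ (σ : A5) (i : Fin 5), ρ σ (v i) = v ((σ : Equiv.Perm (Fin 5)) i) := by
    intro σ i
    set j := (σ : Equiv.Perm (Fin 5)) i with hj
    have h := ha ((c j)⁻¹ * (σ * c i)) (by
      have hji : ((c j : A5) : Equiv.Perm (Fin 5)) i₀ = j := hc j
      simp only [Subgroup.coe_mul, Subgroup.coe_inv, Equiv.Perm.mul_apply]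
      rw [hc i, ← hj, Equiv.Perm.inv_eq_iff_eq, hji])
    show ρ σ (ρ (c i) a) = ρ (c j) a
    conv_rhs => rw [← h, ← rho_mul, mul_inv_cancel_left, rho_mul]
  have hne : ∀ i, v i ≠ 1 := fun i h => ha1 ((ρ (c i)).injective (h.trans (map_one _).symm))
  have hinj : Function.Injective v := by
    intro i j h
    by_contra hij
    have hall : ∀ k, v k = v i := by
      intro k
      rcases eq_or_ne k i with rfl | hki
      · rfl
      obtain ⟨σ, h1, h2⟩ := A5.trans_two i j i k hij (Ne.symm hki)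
      have h3 := congrArg (ρ σ) h
      rw [hperm, hperm, h1, h2] at h3
      exact h3.symm
    exact hne i (hM.fixed_bot _ fun σ => by rw [hperm, hall])
  have hprod : v 0 * v 1 * v 2 * v 3 * v 4 = 1 := by
    refine hM.fixed_bot _ fun σ => ?_
    have h5 : ∀ f : Fin 5 → M, f 0 * f 1 * f 2 * f 3 * f 4 = ∏ k, f k := fun f => (Fin.prod_univ_five f).symm
    simp only [map_mul, hperm]
    rw [h5 (fun k => v ((σ : Equiv.Perm (Fin 5)) k)), h5 v]
    exact Equiv.prod_comp (σ : Equiv.Perm (Fin 5)) v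
  have hrel : ∀ i j k l m : Fin 5, i ≠ j → i ≠ k → i ≠ l → i ≠ m → j ≠ k → j ≠ l → j ≠ m → k ≠ l → k ≠ m →
      l ≠ m → v i * v j * v k * v l * v m = 1 := by
    intro i j k l m h1 h2 h3 h4 h5 h6 h7 h8 h9 h10
    have hu : ({i, j, k, l, m} : Finset (Fin 5)) = Finset.univ := by
      refine Finset.eq_univ_of_card _ ?_
      simp [h1, h2, h3, h4, h5, h6, h7, h8, h9, h10]
    have hp : ∏ x ∈ ({i, j, k, l, m} : Finset (Fin 5)), v x = 1 := by
      rw [hu, Fin.prod_univ_five]; exact hprod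
    simpa [h1, h2, h3, h4, h5, h6, h7, h8, h9, h10, mul_assoc] using hp
  have hthree : ∀ i j k, i ≠ j → v i * v j ≠ v k := by
    intro i j k hij h
    rcases eq_or_ne k i with rfl | hki
    · exact hne j (mul_eq_left.1 h)
    rcases eq_or_ne k j with rfl | hkj
    · exact hne i (mul_eq_right.1 h)
    have key : ∀ i j k : Fin 5, ∃ l m, l ≠ m ∧ i ≠ l ∧ i ≠ m ∧ j ≠ l ∧ j ≠ m ∧ k ≠ l ∧ k ≠ m := by decide +kernel
    obtain ⟨l, m, hlm, a1, a2, a3, a4, a5, a6⟩ := key i j k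
    have := hrel i j k l m hij hki.symm a1 a2 hkj.symm a3 a4 a5 a6 hlm
    rw [h, hM.exp, one_mul] at this
    exact hlm (hinj ((eq_inv_of_mul_eq_one_left this).trans (hM.inv_eq _)))
  have htwo : ∀ i j k l, i ≠ j → k ≠ l → v i * v j = v k * v l → (i = k ∧ j = l) ∨ (i = l ∧ j = k) := by
    intro i j k l hij hkl h
    rcases eq_or_ne i k with rfl | h1
    · exact Or.inl ⟨rfl, hinj (mul_left_cancel h)⟩
    rcases eq_or_ne i l with rfl | h2
    · rw [mul_comm (v k)] at h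
      exact Or.inr ⟨rfl, hinj (mul_left_cancel h)⟩
    exfalso
    rcases eq_or_ne j k with rfl | h3
    · rw [mul_comm (v i)] at h
      exact h2 (hinj (mul_left_cancel h))
    rcases eq_or_ne j l with rfl | h4
    · exact h1 (hinj (mul_right_cancel h))
    have key : ∀ i j k l : Fin 5, ∃ m, i ≠ m ∧ j ≠ m ∧ k ≠ m ∧ l ≠ m := by decide +kernel
    obtain ⟨m, a1, a2, a3, a4⟩ := key i j k l
    have := hrel i j k l m hij h1 h2 a1 h3 h4 a2 hkl a3 a4
    rw [h, show v k * v l * v k * v l = v k * v l * (v k * v l) by ac_rfl, hM.exp, one_mul] at this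
    exact hne m this
  refine ⟨v, hperm, hne, hinj, hprod, ?_⟩
  -- counting
  let P := {p : Fin 5 × Fin 5 // p.1 < p.2}
  let f : Option (Fin 5 ⊕ P) → M := fun o => o.elim 1 (Sum.elim v fun p => v p.1.1 * v p.1.2)
  have hfinj : Function.Injective f := by
    rintro (_ | i | ⟨⟨i, j⟩, hij⟩) (_ | k | ⟨⟨k, l⟩, hkl⟩) h <;>
      simp only [f, Option.elim_none, Option.elim_some, Sum.elim_inl, Sum.elim_inr] at h
    · rfl
    · exact absurd h.symm (hne k)
    · exact absurd ((eq_inv_of_mul_eq_one_left h.symm).trans (hM.inv_eq _)) fun e => hkl.ne (hinj e)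
    · exact absurd h (hne i)
    · rw [hinj h]
    · exact absurd h.symm (hthree k l i hkl.ne)
    · exact absurd ((eq_inv_of_mul_eq_one_left h).trans (hM.inv_eq _)) fun e => hij.ne (hinj e)
    · exact absurd h (hthree i j k hij.ne)
    · rcases htwo i j k l hij.ne hkl.ne h with ⟨rfl, rfl⟩ | ⟨rfl, rfl⟩
      · rfl
      · exact absurd hij (not_lt.2 hkl.le)
  have hcard : Nat.card (Option (Fin 5 ⊕ P)) = Nat.card M := by
    rw [hM.card, Nat.card_eq_fintype_card]; rfl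
  haveI : Fintype M := Fintype.ofFinite M
  have hb : Function.Bijective f := by
    rw [Fintype.bijective_iff_injective_and_card]
    exact ⟨hfinj, by rw [← Nat.card_eq_fintype_card, hcard, Nat.card_eq_fintype_card]⟩
  intro m
  obtain ⟨o, rfl⟩ := hb.2 m
  rcases o with _ | i | ⟨⟨i, j⟩, hij⟩
  · exact Or.inl rfl
  · exact Or.inr (Or.inl ⟨i, rfl⟩)
  · exact Or.inr (Or.inr ⟨i, j, hij.ne, rfl⟩)

/-- Structure in the absence of fixed points of point stabilisers. -/
theorem nat_facts (hnat : ∀ (i : Fin 5) (m : M), (∀ σ : A5, (σ : Equiv.Perm (Fin 5)) i = i → ρ σ m = m) → m = 1)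
    (i : Fin 5) : Nat.card (fixBy ρ (InS i)) = 4 ∧ (∀ s, InS i s → ∀ m, ρ s m * m⁻¹ ∈ fixBy ρ (InS i)) ∧
      ∃ θ : A5, (θ : Equiv.Perm (Fin 5)) i = i ∧ θ * θ * θ = 1 ∧
        (∀ w ∈ fixBy ρ (InS i), ρ θ w ∈ fixBy ρ (InS i)) ∧
        (∀ w ∈ fixBy ρ (InS i), ρ θ w = w → w = 1) ∧
        ∀ w ∈ fixBy ρ (InS i), ∀ u ∈ fixBy ρ (InS i), w ≠ 1 → u = 1 ∨ u = w ∨ u = ρ θ w ∨ u = ρ θ (ρ θ w) := by
  classical
  haveI := hM.finite
  set W := fixBy ρ (InS i) with hW
  obtain ⟨θ, hθi, hθ3, hθ1, hθcov⟩ := A5.S_three i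
  have hθW : ∀ w ∈ W, ρ θ w ∈ W := by
    intro w hw σ hσ
    have hθ'i : ((θ⁻¹ : A5) : Equiv.Perm (Fin 5)) i = i := by
      rw [Subgroup.coe_inv, Equiv.Perm.inv_eq_iff_eq, hθi]
    have h := A5.S_conj θ⁻¹ i σ hσ
    rw [hθ'i] at h
    have := hw _ h
    rw [← rho_mul, show σ * θ = θ * (θ⁻¹ * σ * θ⁻¹⁻¹) by group, rho_mul, this]
  have hfpf : ∀ w ∈ W, ρ θ w = w → w = 1 := by
    intro w hw hθw
    refine hnat i w fun σ hσ => ?_
    rcases hθcov σ hσ with h | h | h
    · exact hw σ h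
    · have := hw _ h
      rw [rho_mul, hθw] at this
      exact this
    · have := hw _ h
      rw [rho_mul, hθw, rho_mul, hθw] at this
      exact this
  obtain ⟨w, hw1, hw⟩ := hM.exists_fixS i
  have hdist : ∀ u ∈ W, u ≠ 1 → ({1, u, ρ θ u, ρ θ (ρ θ u)} : Finset M).card = 4 := by
    intro u hu hu1
    have h1 : u ≠ ρ θ u := fun h => hu1 (hfpf u hu h.symm)
    have h2 : u ≠ ρ θ (ρ θ u) := fun h => h1 (by
      conv_rhs => rw [h, ← rho_mul, ← rho_mul, hθ3, rho_one])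
    have h3 : ρ θ u ≠ ρ θ (ρ θ u) := fun h => h1 ((ρ θ).injective h)
    have h4 : ρ θ u ≠ 1 := fun h => hu1 ((ρ θ).injective (h.trans (map_one _).symm))
    have h5 : ρ θ (ρ θ u) ≠ 1 := fun h => h4 ((ρ θ).injective (h.trans (map_one _).symm))
    simp [h1, h2, h3, hu1.symm, h4.symm, h5.symm]
  have hle : ∀ s, InS i s → s ≠ 1 → W ≤ fixBy ρ (· = s) := fun s hs _ m hm => mem_fix_eq.2 (hm s hs)
  obtain ⟨s, -, ⟨hs, hs1⟩, -⟩ := A5.S_nontrivial i
  have h4 : Nat.card W = 4 := by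
    refine le_antisymm ?_ ?_
    · rw [← (hM.inv_fix s hs.2 hs1).1]; exact Subgroup.card_le_of_le (hle s hs hs1)
    · rw [← hdist w hw hw1, ← Nat.card_eq_finsetCard]
      refine Nat.card_le_card_of_injective (fun x => (⟨(x : M), ?_⟩ : W)) ?_
      · have := x.2
        simp only [Finset.mem_insert, Finset.mem_singleton] at this
        rcases this with h | h | h | h <;> rw [h]
        · exact one_mem W
        · exact hw
        · exact hθW w hw
        · exact hθW _ (hθW w hw)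
      · intro a b h
        exact Subtype.ext (congrArg (fun x : W => (x : M)) h)
  refine ⟨h4, fun s hs m => ?_, θ, hθi, hθ3, hθW, hfpf, fun w hw u hu hw1 => ?_⟩
  · by_cases hs1 : s = 1
    · rw [hs1, rho_one, mul_inv_cancel]; exact one_mem W
    have heq : W = fixBy ρ (· = s) :=
      Subgroup.eq_of_le_of_card_ge (hle s hs hs1) (by rw [(hM.inv_fix s hs.2 hs1).1, h4])
    rw [heq, mem_fix_eq, map_mul, ← rho_mul, hs.2, rho_one, map_inv, hM.inv_eq, hM.inv_eq, mul_comm]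
  · by_contra hne
    have hsub : ((insert u {1, w, ρ θ w, ρ θ (ρ θ w)} : Finset M) : Set M) ⊆ W := by
      intro x hx
      simp only [Finset.coe_insert, Set.mem_insert_iff, Finset.coe_singleton, Set.mem_singleton_iff] at hx
      rcases hx with rfl | rfl | rfl | rfl | rfl
      · exact hu
      · exact one_mem W
      · exact hw
      · exact hθW w hw
      · exact hθW _ (hθW w hw)
    have h := Nat.card_mono (Set.toFinite _) hsub
    rw [Nat.card_coe_set_eq, Set.ncard_coe_finset, Finset.card_insert_of_notMem (by simpa using hne),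
      hdist w hw hw1] at h
    simp only [SetLike.coe_sort_coe] at h
    omega

/-- Point stabiliser fixed points in orthogonal coordinates. -/
theorem orth_fix {v : Fin 5 → M} (hv : OrthData ρ v) (i : Fin 5) {m : M}
    (h : ∀ σ, InS i σ → ρ σ m = m) : m = 1 ∨ m = v i := by
  rcases hv.cases m with rfl | ⟨j, rfl⟩ | ⟨k, l, hkl, rfl⟩
  · exact Or.inl rfl
  · right
    by_contra hne
    obtain ⟨s, hs, hsj⟩ := A5.S_move i j fun e => hne (e ▸ rfl)
    exact hsj (hv.inj ((hv.perm s j).symm.trans (h s hs)))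
  · exfalso
    obtain ⟨s, hcase⟩ := A5.S_pair i k l hkl
    have hs : InS i s := by rcases hcase with h | h <;> exact h.1
    have h' := h s hs
    rw [map_mul, hv.perm, hv.perm] at h'
    have hkl' : (s : Equiv.Perm (Fin 5)) k ≠ (s : Equiv.Perm (Fin 5)) l :=
      fun e => hkl ((s : Equiv.Perm (Fin 5)).injective e)
    have key : ∀ a b c d : Fin 5, a ≠ b → c ≠ d → v a * v b = v c * v d → (a = c ∧ b = d) ∨ (a = d ∧ b = c) := by
      intro a b c d hab hcd e
      rcases eq_or_ne a c with rfl | h1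
      · exact Or.inl ⟨rfl, hv.inj (mul_left_cancel e)⟩
      rcases eq_or_ne a d with rfl | h2
      · rw [mul_comm (v c)] at e
        exact Or.inr ⟨rfl, hv.inj (mul_left_cancel e)⟩
      exfalso
      rcases eq_or_ne b c with rfl | h3
      · rw [mul_comm (v a)] at e
        exact h2 (hv.inj (mul_left_cancel e))
      rcases eq_or_ne b d with rfl | h4
      · exact h1 (hv.inj (mul_right_cancel e))
      have kk : ∀ a b c d : Fin 5, ∃ m, a ≠ m ∧ b ≠ m ∧ c ≠ m ∧ d ≠ m := by decide +kernel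
      obtain ⟨m, a1, a2, a3, a4⟩ := kk a b c d
      have hu : ({a, b, c, d, m} : Finset (Fin 5)) = Finset.univ := by
        refine Finset.eq_univ_of_card _ ?_
        simp [hab, h1, h2, a1, h3, h4, a2, hcd, a3, a4]
      have hp : ∏ x ∈ ({a, b, c, d, m} : Finset (Fin 5)), v x = 1 := by
        rw [hu, Fin.prod_univ_five]; exact hv.prod
      simp [hab, h1, h2, a1, h3, h4, a2, hcd, a3, a4] at hp
      rw [show v a * (v b * (v c * (v d * v m))) = v a * v b * (v c * v d) * v m by ac_rfl, e, hM.exp,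
        one_mul] at hp
      exact hv.ne m hp
    rcases key _ _ _ _ hkl' hkl h' with ⟨e1, e2⟩ | ⟨e1, e2⟩
    · rcases hcase with h | h
      · exact h.2.2 e1
      · exact h.2.2 e2
    · rcases hcase with h | h
      · exact h.2.1 e1
      · exact h.2.1 e2

/-- Fixed points of a setwise pair stabiliser in orthogonal coordinates. -/
theorem orth_fix_pair {v : Fin 5 → M} (hv : OrthData ρ v) (i j : Fin 5) (hij : i ≠ j) {m : M}
    (h : ∀ σ : A5, ((σ : Equiv.Perm (Fin 5)) i = i ∧ (σ : Equiv.Perm (Fin 5)) j = j) ∨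
      ((σ : Equiv.Perm (Fin 5)) i = j ∧ (σ : Equiv.Perm (Fin 5)) j = i) → ρ σ m = m) :
    m = 1 ∨ m = v i * v j := by
  rcases hv.cases m with rfl | ⟨k, rfl⟩ | ⟨k, l, hkl, rfl⟩
  · exact Or.inl rfl
  · exfalso
    by_cases hk : k ≠ i ∧ k ≠ j
    · obtain ⟨σ, h1, h2, h3⟩ := A5.pair_fixed i j hij k hk
      exact h3 (hv.inj ((hv.perm σ k).symm.trans (h σ (Or.inl ⟨h1, h2⟩))))
    · obtain ⟨σ, h1, h2⟩ := A5.pair_swap i j hij
      have e := hv.inj ((hv.perm σ k).symm.trans (h σ (Or.inr ⟨h1, h2⟩)))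
      rcases not_and_or.1 hk with hk | hk <;> rw [not_not] at hk <;> subst hk
      · exact hij (e.symm.trans h1)
      · exact hij (h2.symm.trans e)
  · right
    have kk : ∀ i j k l : Fin 5, i ≠ j → k ≠ l → (k = i ∧ l = j) ∨ (k = j ∧ l = i) ∨
        ∃ σ : A5, ((σ : Equiv.Perm (Fin 5)) i = i ∧ (σ : Equiv.Perm (Fin 5)) j = j ∨
          (σ : Equiv.Perm (Fin 5)) i = j ∧ (σ : Equiv.Perm (Fin 5)) j = i) ∧
          ¬ ((σ : Equiv.Perm (Fin 5)) k = k ∧ (σ : Equiv.Perm (Fin 5)) l = l) ∧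
          ¬ ((σ : Equiv.Perm (Fin 5)) k = l ∧ (σ : Equiv.Perm (Fin 5)) l = k) := by decide +kernel
    rcases kk i j k l hij hkl with ⟨rfl, rfl⟩ | ⟨rfl, rfl⟩ | ⟨σ, hσ, hn1, hn2⟩
    · rfl
    · exact mul_comm _ _
    exfalso
    have h' := h σ hσ
    rw [map_mul, hv.perm, hv.perm] at h'
    have hkl' : (σ : Equiv.Perm (Fin 5)) k ≠ (σ : Equiv.Perm (Fin 5)) l :=
      fun e => hkl ((σ : Equiv.Perm (Fin 5)).injective e)
    rcases eq_or_ne ((σ : Equiv.Perm (Fin 5)) k) k with e1 | h1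
    · rw [e1] at h'
      exact hn1 ⟨e1, hv.inj (mul_left_cancel h')⟩
    rcases eq_or_ne ((σ : Equiv.Perm (Fin 5)) k) l with e2 | h2
    · rw [e2, mul_comm (v k)] at h'
      exact hn2 ⟨e2, hv.inj (mul_left_cancel h')⟩
    rcases eq_or_ne ((σ : Equiv.Perm (Fin 5)) l) k with e3 | h3
    · rw [e3, mul_comm _ (v k)] at h'
      exact h2 (hv.inj (mul_left_cancel h'))
    rcases eq_or_ne ((σ : Equiv.Perm (Fin 5)) l) l with e4 | h4
    · rw [e4] at h'
      exact h1 (hv.inj (mul_right_cancel h'))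
    generalize (σ : Equiv.Perm (Fin 5)) k = a at h' h1 h2 hkl'
    generalize (σ : Equiv.Perm (Fin 5)) l = b at h' h3 h4 hkl'
    have k4 : ∀ a b c d : Fin 5, ∃ m, a ≠ m ∧ b ≠ m ∧ c ≠ m ∧ d ≠ m := by decide +kernel
    obtain ⟨m, a1, a2, a3, a4⟩ := k4 a b k l
    have hu : ({a, b, k, l, m} : Finset (Fin 5)) = Finset.univ := by
      refine Finset.eq_univ_of_card _ ?_
      simp [hkl', h1, h2, a1, h3, h4, a2, hkl, a3, a4]
    have hp : ∏ x ∈ ({a, b, k, l, m} : Finset (Fin 5)), v x = 1 := by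
      rw [hu, Fin.prod_univ_five]; exact hv.prod
    simp [hkl', h1, h2, a1, h3, h4, a2, hkl, a3, a4] at hp
    rw [show v a * (v b * (v k * (v l * v m))) = v a * v b * (v k * v l) * v m by ac_rfl, h', hM.exp,
      one_mul] at hp
    exact hv.ne m hp

end Mod5

end CfsgLib.RadicalRankFour
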