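/-
RadicalRankFour: equivariant quadratic maps between modules of the alternating group of degree five.
-/
import Mathlib
import Cfsg.Agent.Lib.RadicalRankFour.A5Module

set_option autoImplicit false

namespace CfsgLib.RadicalRankFour

variable {M : Type*} [CommGroup M] {ρ : A5 →* MulAut M}

/-- An anisotropic equivariant quadratic map between faithful modules of order 16 is multiplicative. -/
theorem quad_multiplicative (hM : Mod5 ρ) {N : Type*} [CommGroup N] {ρ' : A5 →* MulAut N} (hN : Mod5 ρ')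
    (q : M → N) (hq : ∀ σ m, q (ρ σ m) = ρ' σ (q m)) (h0 : ∀ m, q m = 1 ↔ m = 1)
    (B : M → M → N) (hqB : ∀ a b, q (a * b) = q a * q b * B a b) (hsymm : ∀ a b, B a b = B b a)
    (hB : ∀ a b c, B a (b * c) = B a b * B a c)
    (hrank : ∀ (W : Subgroup M) (N₀ : Subgroup N), (∀ w ∈ W, q w ∈ N₀) → ¬ 2 * Nat.card N₀ ≤ Nat.card W) :
    ∀ a b, B a b = 1 := by
  classical
  haveI := hM.finite
  haveI := hN.finite
  have hBσ : ∀ σ a b, B (ρ σ a) (ρ σ b) = ρ' σ (B a b) := by
    intro σ a b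
    have h := congrArg (ρ' σ) (hqB a b)
    rw [← hq, map_mul, map_mul, map_mul, ← hq, ← hq, hqB] at h
    exact mul_left_cancel h
  have hB1 : ∀ a, B a 1 = 1 := fun a => by
    have h := hB a 1 1
    rw [one_mul] at h
    exact left_eq_mul.1 h
  have hBself : ∀ a, B a a = 1 := fun a => by
    have h := hqB a a
    rw [hM.exp, (h0 1).2 rfl, hN.exp, one_mul] at h
    exact h.symm
  rcases hM.dichotomy with ⟨v, hv⟩ | hnat
  · -- orthogonal
    rcases hN.dichotomy with ⟨u, hu⟩ | hnat'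
    swap
    · exfalso
      have hfix : q (v 0) = 1 := hnat' 0 _ fun σ hσ => by rw [← hq, hv.perm, hσ]
      exact hv.ne 0 ((h0 _).1 hfix)
    have hqv : ∀ i, q (v i) = u i := fun i =>
      (hN.orth_fix hu i fun σ hσ => by rw [← hq, hv.perm, hσ.1]).resolve_left fun h => hv.ne i ((h0 _).1 h)
    have hBv : ∀ i j, B (v i) (v j) = 1 := by
      intro i j
      rcases eq_or_ne i j with rfl | hij
      · exact hBself _
      have hne : v i * v j ≠ 1 := fun h =>
        hij (hv.inj ((eq_inv_of_mul_eq_one_left h).trans (hM.inv_eq _)))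
      have hqq : q (v i * v j) = u i * u j := by
        refine (hN.orth_fix_pair hu i j hij fun σ hσ => ?_).resolve_left fun h => hne ((h0 _).1 h)
        rw [← hq, map_mul, hv.perm, hv.perm]
        rcases hσ with ⟨h1, h2⟩ | ⟨h1, h2⟩ <;> rw [h1, h2]
        rw [mul_comm]
      have := hqB (v i) (v j)
      rw [hqq, hqv, hqv] at this
      exact left_eq_mul.1 this
    intro a b
    have h1 : ∀ i b, B (v i) b = 1 := by
      intro i b
      rcases hv.cases b with rfl | ⟨k, rfl⟩ | ⟨k, l, -, rfl⟩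
      · exact hB1 _
      · exact hBv i k
      · rw [hB, hBv, hBv, one_mul]
    rcases hv.cases a with rfl | ⟨k, rfl⟩ | ⟨k, l, -, rfl⟩
    · rw [hsymm]; exact hB1 _
    · exact h1 k b
    · rw [hsymm, hB, hsymm b, hsymm b, h1, h1, one_mul]
  -- natural
  have hN' : ∀ (i : Fin 5) (m : N), (∀ σ : A5, (σ : Equiv.Perm (Fin 5)) i = i → ρ' σ m = m) → m = 1 := by
    rcases hN.dichotomy with ⟨u, hu⟩ | h
    swap
    · exact h
    exfalso
    refine hrank (fixBy ρ (InS 0)) (fixBy ρ' (InS 0)) (fun w hw σ hσ => by rw [← hq, hw σ hσ]) ?_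
    rw [(hM.nat_facts hnat 0).1]
    have hle : Nat.card (fixBy ρ' (InS 0)) ≤ Nat.card (({1, u 0} : Finset N) : Set N) :=
      Nat.card_mono (Finset.finite_toSet _) fun m hm => by
        rcases hN.orth_fix hu 0 hm with rfl | rfl <;> simp
    have h2 : ({1, u 0} : Finset N).card ≤ 2 := Finset.card_le_two
    rw [Nat.card_coe_set_eq, Set.ncard_coe_finset] at hle
    omega
  have hWW : ∀ i, ∀ a ∈ fixBy ρ (InS i), ∀ b ∈ fixBy ρ (InS i), B a b = 1 := by
    intro i
    obtain ⟨-, -, θ, hθi, hθ3, hθW, hfpf, hlist⟩ := hM.nat_facts hnat i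
    obtain ⟨-, -, θ', -⟩ := hN.nat_facts hN' i
    have hpair : ∀ w ∈ fixBy ρ (InS i), B w (ρ θ w) = 1 := by
      intro w hw
      rcases eq_or_ne w 1 with rfl | hw1
      · rw [hsymm]; exact hB1 _
      have h3 : w * ρ θ w * ρ θ (ρ θ w) = 1 := by
        refine hfpf _ (mul_mem (mul_mem hw (hθW w hw)) (hθW _ (hθW w hw))) ?_
        rw [map_mul, map_mul, ← rho_mul ρ θ θ (ρ θ w), ← rho_mul ρ (θ * θ) θ w, hθ3, rho_one]
        ac_rfl
      have h4 : ρ θ (ρ θ w) = w * ρ θ w := by rw [eq_inv_of_mul_eq_one_right h3, hM.inv_eq]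
      have hfixθ : ρ' θ (B w (ρ θ w)) = B w (ρ θ w) := by
        rw [← hBσ, h4, hB, hBself, mul_one, hsymm]
      refine hN' i _ fun σ hσ => ?_
      have hS : ∀ τ, InS i τ → ρ' τ (B w (ρ θ w)) = B w (ρ θ w) := fun τ hτ => by
        rw [← hBσ, hw τ hτ, (hθW w hw) τ hτ]
      by_cases hτ : InS i σ
      · exact hS σ hτ
      have hθne : θ ≠ 1 := fun e => hw1 (hfpf w hw (by rw [e, rho_one]))
      rcases A5.S_three_any i θ σ hθi hθ3 hθne hσ with h | h | h
      · exact absurd h hτ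
      · have := hS _ h
        rw [rho_mul, hfixθ] at this
        exact this
      · have := hS _ h
        rw [rho_mul, hfixθ, rho_mul, hfixθ] at this
        exact this
    intro a ha b hb
    rcases eq_or_ne a 1 with rfl | ha1
    · rw [hsymm]; exact hB1 _
    rcases hlist a ha b hb ha1 with rfl | rfl | rfl | rfl
    · exact hB1 _
    · exact hBself _
    · exact hpair a ha
    · have h := hpair _ (hθW _ (hθW a ha))
      rw [← rho_mul ρ θ θ (ρ θ a), ← rho_mul ρ (θ * θ) θ a, hθ3, rho_one, hsymm] at h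
      exact h
  have hBWV : ∀ i, ∀ w ∈ fixBy ρ (InS i), ∀ m, B w m ∈ fixBy ρ' (InS i) := by
    intro i w hw m s hs
    have h2 := (hM.nat_facts hnat i).2.1 s hs m
    rw [← hBσ, hw s hs, show ρ s m = m * (ρ s m * m⁻¹) by rw [mul_comm, inv_mul_cancel_right],
      hB, hWW i w hw _ h2, mul_one]
  obtain ⟨a, b, hab⟩ : ∃ a b : Fin 5, a ≠ b := ⟨0, 1, by decide⟩
  obtain ⟨s, t, hs, ht, h5, h51⟩ := A5.S_gen a b hab
  have hcross : ∀ w ∈ fixBy ρ (InS a), ∀ w' ∈ fixBy ρ (InS b), B w w' = 1 := by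
    intro w hw w' hw'
    refine hN.five_fpf _ h5 h51 _ ?_
    have h1 := hBWV a w hw w' s hs
    have h2 := hBWV b w' hw' w t ht
    rw [hsymm] at h2
    rw [rho_mul, h2, h1]
  have hdec : ∀ m : M, ∃ w ∈ fixBy ρ (InS a), ∃ w' ∈ fixBy ρ (InS b), m = w * w' := by
    intro m
    let f : fixBy ρ (InS a) × fixBy ρ (InS b) → M := fun p => (p.1 : M) * p.2
    have hinj : Function.Injective f := by
      rintro ⟨⟨x, hx⟩, ⟨y, hy⟩⟩ ⟨⟨x', hx'⟩, ⟨y', hy'⟩⟩ h
      have h' : x * y = x' * y' := h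
      have e1 : x'⁻¹ * x = y' * y⁻¹ := by
        rw [eq_mul_inv_iff_mul_eq, mul_assoc, h', inv_mul_cancel_left]
      have h1 : x'⁻¹ * x = 1 := by
        refine hM.five_fpf _ h5 h51 _ ?_
        rw [rho_mul, show ρ t (x'⁻¹ * x) = x'⁻¹ * x by rw [e1]; exact mul_mem hy' (inv_mem hy) t ht,
          (mul_mem (inv_mem hx') hx) s hs]
      obtain rfl := inv_mul_eq_one.1 h1
      obtain rfl := mul_left_cancel h'
      rfl
    haveI : Fintype M := Fintype.ofFinite M
    have hbij : Function.Bijective f := by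
      haveI : Fintype (fixBy ρ (InS a) × fixBy ρ (InS b)) := Fintype.ofFinite _
      rw [Fintype.bijective_iff_injective_and_card]
      refine ⟨hinj, ?_⟩
      rw [← Nat.card_eq_fintype_card, ← Nat.card_eq_fintype_card, Nat.card_prod, (hM.nat_facts hnat a).1,
        (hM.nat_facts hnat b).1, hM.card]
    obtain ⟨p, hp⟩ := hbij.2 m
    exact ⟨p.1, p.1.2, p.2, p.2.2, hp.symm⟩
  intro x y
  obtain ⟨w₁, hw₁, w₁', hw₁', rfl⟩ := hdec x
  obtain ⟨w₂, hw₂, w₂', hw₂', rfl⟩ := hdec y
  rw [hsymm, hB, hsymm _ w₁, hsymm _ w₁', hB, hB, hWW a w₁ hw₁ w₂ hw₂, hcross w₁ hw₁ w₂' hw₂',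
    hsymm w₁' w₂, hcross w₂ hw₂ w₁' hw₁', hWW b w₁' hw₁' w₂' hw₂']
  simp

/-- An invariant quadratic form which does not vanish is of minus type in orthogonal coordinates. -/
theorem quad_trivial (hM : Mod5 ρ) (q : M → ZMod 2) (hq : ∀ σ m, q (ρ σ m) = q m) (B : M → M → ZMod 2)
    (hqB : ∀ a b, q (a * b) = q a + q b + B a b) (hsymm : ∀ a b, B a b = B b a)
    (hB : ∀ a b c, B a (b * c) = B a b + B a c) (hne : ∃ m, q m ≠ 0) :
    ∃ v, OrthData ρ v ∧ (∀ i, q (v i) = 0) ∧ ∀ i j, i ≠ j → q (v i * v j) = 1 := by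
  classical
  haveI := hM.finite
  have hB1 : ∀ a, B a 1 = 0 := fun a => by
    have h := hB a 1 1
    rw [one_mul] at h
    exact left_eq_add.1 h
  have hq1 : q 1 = 0 := by
    have h := hqB 1 1
    rw [one_mul, hB1, add_zero] at h
    exact left_eq_add.1 h
  have h2 : ∀ x : ZMod 2, x + x = 0 := by decide
  have hBσ : ∀ σ a b, B (ρ σ a) (ρ σ b) = B a b := by
    intro σ a b
    have h := hq σ (a * b)
    rw [map_mul, hqB, hqB, hq, hq] at h
    exact add_left_cancel h
  rcases hM.dichotomy with ⟨v, hv⟩ | hnat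
  · refine ⟨v, hv, ?_⟩
    have hc : ∀ i, q (v i) = q (v 0) := fun i => by
      obtain ⟨σ, hσ⟩ := A5.trans 0 i
      rw [← hσ, ← hv.perm, hq]
    have heta : ∀ i j, i ≠ j → B (v i) (v j) = B (v 0) (v 1) := fun i j hij => by
      obtain ⟨σ, h1, h2⟩ := A5.trans_two 0 1 i j (by decide) hij
      rw [← h1, ← h2, ← hv.perm, ← hv.perm, hBσ]
    have hv4 : v 4 = v 0 * (v 1 * (v 2 * v 3)) := by
      rw [eq_inv_of_mul_eq_one_right hv.prod, hM.inv_eq]; ac_rfl
    have hc0 : q (v 0) = 0 := by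
      have h := hc 4
      rw [hv4, hqB, hqB, hqB, hB, hB, hB, hc 1, hc 2, hc 3, heta 2 3 (by decide), heta 1 2 (by decide),
        heta 1 3 (by decide), heta 0 2 (by decide), heta 0 3 (by decide)] at h
      revert h
      generalize q (v 0) = c
      generalize B (v 0) (v 1) = e
      revert c e
      decide
    refine ⟨fun i => (hc i).trans hc0, fun i j hij => ?_⟩
    rw [hqB, hc i, hc j, hc0, zero_add, zero_add, heta i j hij]
    by_contra hη
    have hη0 : B (v 0) (v 1) = 0 := by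
      revert hη; generalize B (v 0) (v 1) = e; revert e; decide
    obtain ⟨m, hm⟩ := hne
    refine hm ?_
    rcases hv.cases m with rfl | ⟨k, rfl⟩ | ⟨k, l, hkl, rfl⟩
    · exact hq1
    · exact (hc k).trans hc0
    · rw [hqB, hc k, hc l, heta k l hkl, hc0, hη0, add_zero, add_zero]
  exfalso
  -- the fixed four-groups are totally singular
  have hsing : ∀ i, ∀ w ∈ fixBy ρ (InS i), q w = 0 := by
    intro i w hw
    obtain ⟨-, himg, θ, -, hθ3, hθW, hfpf, hlist⟩ := hM.nat_facts hnat i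
    by_contra hwq
    have hw1 : w ≠ 1 := fun h => hwq (by rw [h, hq1])
    have hq1' : q w = 1 := by revert hwq; generalize q w = e; revert e; decide
    have hval : ∀ u ∈ fixBy ρ (InS i), u ≠ 1 → q u = 1 ∧ B u (ρ θ u) = 1 := by
      intro u hu hu1
      have hqu : ∀ x ∈ fixBy ρ (InS i), x ≠ 1 → q x = 1 := by
        intro x hx hx1
        rcases hlist w hw x hx hw1 with rfl | rfl | rfl | rfl
        · exact absurd rfl hx1
        · exact hq1'
        · rw [hq, hq1']
        · rw [hq, hq, hq1']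
      refine ⟨hqu u hu hu1, ?_⟩
      have h := hqB u (ρ θ u)
      have hne1 : u * ρ θ u ≠ 1 := fun h => hu1 (hfpf u hu (by
        rw [eq_inv_of_mul_eq_one_right h, hM.inv_eq]))
      rw [hqu _ (mul_mem hu (hθW u hu)) hne1, hq, hqu u hu hu1] at h
      revert h; generalize B u (ρ θ u) = e; revert e; decide
    obtain ⟨s, -, ⟨hs, hs1⟩, -⟩ := A5.S_nontrivial i
    obtain ⟨m, hm⟩ : ∃ m, ρ s m ≠ m := by
      by_contra hall
      push Not at hall
      exact hs1 (hM.inj (by rw [map_one]; exact MulEquiv.ext hall))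
    have hd := himg s hs m
    have hd1 : ρ s m * m⁻¹ ≠ 1 := fun h => hm (mul_inv_eq_one.1 h)
    have hu := hθW _ hd
    have h := hBσ s m (ρ θ (ρ s m * m⁻¹))
    rw [hu s hs, show ρ s m = m * (ρ s m * m⁻¹) by rw [mul_comm, inv_mul_cancel_right], hsymm, hB,
      hsymm _ m] at h
    rw [show m * (ρ s m * m⁻¹) * m⁻¹ = ρ s m * m⁻¹ by rw [mul_comm m, mul_inv_cancel_right]] at h
    rw [hsymm _ (ρ s m * m⁻¹), (hval _ hd hd1).2] at h
    revert h; generalize B m (ρ θ (ρ s m * m⁻¹)) = e; revert e; decide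
  -- they cover the module
  haveI : Fintype M := Fintype.ofFinite M
  let Wf : Fin 5 → Finset M := fun i => Finset.univ.filter fun m => m ∈ fixBy ρ (InS i) ∧ m ≠ 1
  have hWf : ∀ i, (Wf i).card = 3 := by
    intro i
    have h4 := (hM.nat_facts hnat i).1
    have he : Wf i = (Finset.univ.filter fun m => m ∈ fixBy ρ (InS i)).erase 1 := by
      ext m; simp [Wf, and_comm]
    rw [he, Finset.card_erase_of_mem (by simp [one_mem]), ← Fintype.card_subtype, ← Nat.card_eq_fintype_card]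
    exact congrArg (· - 1) h4
  have hdisj : ((Finset.univ : Finset (Fin 5)) : Set (Fin 5)).PairwiseDisjoint Wf := by
    intro i _ j _ hij
    rw [Function.onFun, Finset.disjoint_left]
    intro m hi hj
    simp only [Wf, Finset.mem_filter, Finset.mem_univ, true_and] at hi hj
    obtain ⟨s, t, hs, ht, h5, h51⟩ := A5.S_gen i j hij
    exact hi.2 (hM.five_fpf _ h5 h51 m (by rw [rho_mul, hj.1 t ht, hi.1 s hs]))
  have hU : Finset.univ.biUnion Wf = (Finset.univ : Finset M).erase 1 := by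
    refine Finset.eq_of_subset_of_card_le ?_ ?_
    · intro m hm
      simp only [Finset.mem_biUnion, Wf, Finset.mem_filter] at hm
      obtain ⟨i, -, -, -, hm1⟩ := hm
      simp [hm1]
    · rw [Finset.card_biUnion hdisj, Finset.card_erase_of_mem (Finset.mem_univ _), Finset.card_univ,
        ← Nat.card_eq_fintype_card, hM.card]
      simp [hWf]
  obtain ⟨m, hm⟩ := hne
  have hmem : m ∈ Finset.univ.biUnion Wf := by
    rw [hU]; simpa using fun h : m = 1 => hm (h ▸ hq1)
  simp only [Finset.mem_biUnion, Wf, Finset.mem_filter] at hmem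
  obtain ⟨i, -, -, hmi, -⟩ := hmem
  exact hm (hsing i m hmi)

end CfsgLib.RadicalRankFour
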