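/-
RadicalRankFour: elementary abelian sections of order 32 from an action of a four-group.
-/
import Mathlib
import Cfsg.Prelude.Def_CaseTheorems

set_option autoImplicit false

namespace CfsgLib.RadicalRankFour

open scoped commutatorElement

variable {G : Type*} [Group G]

/-- A subgroup generated by elements with squares and commutators in `N`, at least 32 times as big
as `N`, contradicts sectional rank four. -/
theorem section_false [Finite G] (hr : Cfsg.SectionalPRankLE 2 4 G) (T : Set G) (N : Subgroup G)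
    (hnorm : ∀ t ∈ T, ∀ n ∈ N, t * n * t⁻¹ ∈ N)
    (hsq : ∀ t ∈ T, t * t ∈ N) (hcm : ∀ s ∈ T, ∀ t ∈ T, s * t * s⁻¹ * t⁻¹ ∈ N)
    (hbig : 32 * Nat.card N ≤ Nat.card ↥(Subgroup.closure T ⊔ N)) : False := by
  classical
  set H := Subgroup.closure T ⊔ N with hH
  have hTn : ∀ t ∈ T, t ∈ Subgroup.normalizer (N : Set G) := by
    intro t ht
    rw [Subgroup.mem_normalizer_iff]
    intro n
    refine ⟨fun hn => hnorm t ht n hn, fun hn => ?_⟩
    have h1 := hnorm t ht _ hn
    have h2 := hsq t ht
    have : n = (t * t)⁻¹ * (t * (t * n * t⁻¹) * t⁻¹) * (t * t) := by group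
    rw [this]
    exact mul_mem (mul_mem (inv_mem h2) h1) h2
  have hHn : H ≤ Subgroup.normalizer (N : Set G) :=
    sup_le ((Subgroup.closure_le _).2 hTn) Subgroup.le_normalizer
  have hNH : N ≤ H := le_sup_right
  haveI : (N.subgroupOf H).Normal := Subgroup.normal_subgroupOf_iff_le_normalizer hNH |>.2 hHn
  set π := QuotientGroup.mk' (N.subgroupOf H) with hπ
  have hTH : ∀ t ∈ T, t ∈ H := fun t ht => Subgroup.mem_sup_left (Subgroup.subset_closure ht)
  let T' : Set (↥H ⧸ N.subgroupOf H) := π '' {x | (x : G) ∈ T}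
  have hker : ∀ x : H, π x = 1 ↔ (x : G) ∈ N := fun x => (QuotientGroup.eq_one_iff x)
  have hgen : Subgroup.closure T' = ⊤ := by
    rw [eq_top_iff]
    rintro q -
    obtain ⟨⟨x, hx⟩, rfl⟩ := QuotientGroup.mk'_surjective _ q
    have : x ∈ (((Subgroup.closure T').comap π).map H.subtype) := by
      revert hx
      suffices H ≤ ((Subgroup.closure T').comap π).map H.subtype from fun hx => this hx
      refine sup_le ((Subgroup.closure_le _).2 fun t ht =>
        ⟨⟨t, hTH t ht⟩, Subgroup.subset_closure ⟨⟨t, hTH t ht⟩, ht, rfl⟩, rfl⟩) fun n hn =>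
        ⟨⟨n, hNH hn⟩, ?_, rfl⟩
      show π ⟨n, hNH hn⟩ ∈ Subgroup.closure T'
      rw [(hker _).2 hn]
      exact one_mem _
    obtain ⟨⟨y, hy⟩, hy', e⟩ := this
    obtain rfl : y = x := e
    exact hy'
  have hcomm : ∀ a b : ↥H ⧸ N.subgroupOf H, Commute a b := by
    have h1 : ∀ s ∈ T', ∀ t ∈ T', Commute s t := by
      rintro _ ⟨s, hs, rfl⟩ _ ⟨t, ht, rfl⟩
      rw [commute_iff_eq, ← mul_inv_eq_one, ← map_mul, ← map_mul, ← map_inv, ← map_mul, hker]
      have := hcm _ hs _ ht
      simpa [mul_assoc] using this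
    have h2 : ∀ s ∈ T', ∀ b, Commute s b := fun s hs b => by
      have hb : b ∈ Subgroup.closure T' := hgen ▸ Subgroup.mem_top b
      induction hb using Subgroup.closure_induction with
      | mem t ht => exact h1 s hs t ht
      | one => exact Commute.one_right _
      | mul x y _ _ hx hy => exact hx.mul_right hy
      | inv x _ hx => exact hx.inv_right
    intro a b
    have ha : a ∈ Subgroup.closure T' := hgen ▸ Subgroup.mem_top a
    induction ha using Subgroup.closure_induction with
    | mem t ht => exact h2 t ht b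
    | one => exact Commute.one_left _
    | mul x y _ _ hx hy => exact hx.mul_left hy
    | inv x _ hx => exact hx.inv_left
  have hexp : ∀ a : ↥H ⧸ N.subgroupOf H, a ^ 2 = 1 := by
    intro a
    have ha : a ∈ Subgroup.closure T' := hgen ▸ Subgroup.mem_top a
    induction ha using Subgroup.closure_induction with
    | mem t ht =>
      obtain ⟨t, ht, rfl⟩ := ht
      rw [pow_two, ← map_mul, hker]
      exact hsq _ ht
    | one => exact one_pow _
    | mul x y _ _ hx hy => rw [(hcomm x y).mul_pow, hx, hy, one_mul]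
    | inv x _ hx => rw [inv_pow, hx, inv_one]
  have := hr H (N.subgroupOf H) ⊤ ⟨⟨fun a b => Subtype.ext (hcomm a b).eq⟩⟩ fun a _ => hexp a
  rw [Subgroup.card_top] at this
  have h3 := Subgroup.card_eq_card_quotient_mul_card_subgroup (N.subgroupOf H)
  rw [Nat.card_congr (Subgroup.subgroupOfEquivOfLe hNH).toEquiv] at h3
  have hpos : 0 < Nat.card N := Nat.card_pos
  rw [h3] at hbig
  nlinarith

/-- Enough pairwise incongruent elements make the closure big. -/
theorem card_closure_ge [Finite G] {ι : Type*} [Finite ι] (H N : Subgroup G) (hNH : N ≤ H) (f : ι → G)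
    (hf : ∀ i, f i ∈ H) (hinj : ∀ i j, (f i)⁻¹ * f j ∈ N → i = j) :
    Nat.card ι * Nat.card N ≤ Nat.card H := by
  let φ : ι × N → H := fun p => ⟨f p.1 * p.2, mul_mem (hf _) (hNH p.2.2)⟩
  have hφ : Function.Injective φ := by
    rintro ⟨i, n⟩ ⟨j, m⟩ e
    have e' : f i * (n : G) = f j * m := congrArg Subtype.val e
    have : (f i)⁻¹ * f j = (n : G) * (m : G)⁻¹ := by
      rw [eq_mul_inv_iff_mul_eq, mul_assoc, ← e', inv_mul_cancel_left]
    obtain rfl := hinj i j (this ▸ mul_mem n.2 (inv_mem m.2))
    exact congrArg _ (Subtype.ext (mul_left_cancel e'))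
  have := Nat.card_le_card_of_injective φ hφ
  rwa [Nat.card_prod] at this

end CfsgLib.RadicalRankFour
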