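/-
RadicalRankFour: the two basic rank five sections below an abelian normal subgroup of exponent four.
-/
import Mathlib
import Cfsg.Agent.Lib.RadicalRankFour.Section

set_option autoImplicit false

namespace CfsgLib.RadicalRankFour

variable {G : Type*} [Group G] [Finite G]

/-- An involution mod `A` whose fixed points on `A` mod involutions are commutators. -/
theorem false_of_free (hr : Cfsg.SectionalPRankLE 2 4 G) (A : Subgroup G)
    (hAc : ∀ a ∈ A, ∀ b ∈ A, a * b = b * a) (hA4 : ∀ a ∈ A, (a * a) * (a * a) = 1)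
    (hsurj : ∀ f ∈ A, f * f = 1 → ∃ a ∈ A, a * a = f)
    (hcard : Nat.card {a : A // a * a = 1} = 16)
    (g : G) (hgA : ∀ a ∈ A, g * a * g⁻¹ ∈ A) (hg2 : g * g ∈ A) (hg : g ∉ A)
    (hfree : ∀ d ∈ A, g * (d * d) * g⁻¹ = d * d →
      ∃ a ∈ A, g * (a * a) * g⁻¹ * (a * a)⁻¹ = d * d) : False := by
  classical
  letI : CommGroup A := { (inferInstance : Group A) with
    mul_comm := fun a b => Subtype.ext (hAc _ a.2 _ b.2) }
  let γ : A →* A :=
    { toFun := fun a => ⟨g * a * g⁻¹, hgA _ a.2⟩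
      map_one' := Subtype.ext (by simp)
      map_mul' := fun a b => Subtype.ext (by simp) }
  let P : A := ⟨g * g, hg2⟩
  have hγγ : ∀ a, γ (γ a) = a := fun a => Subtype.ext (by
    show g * (g * (a : G) * g⁻¹) * g⁻¹ = a
    rw [show g * (g * (a : G) * g⁻¹) * g⁻¹ = g * g * a * (g * g)⁻¹ by group, hAc _ hg2 _ a.2,
      mul_inv_cancel_right])
  have hγP : γ P = P := Subtype.ext (by show g * (g * g) * g⁻¹ = g * g; group)
  let sq : A →* A := powMonoidHom 2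
  have hsq : ∀ a : A, sq a = a * a := fun a => pow_two a
  let F : Subgroup A := sq.ker
  have hF : Nat.card F = 16 := by
    rw [← hcard]
    exact Nat.card_congr (Equiv.subtypeEquivRight fun a => by
      rw [MonoidHom.mem_ker, hsq])
  -- a better lift
  have hgen : ∀ d : A, γ (d * d) = d * d → ∃ a : A, γ (a * a) * (a * a)⁻¹ = d * d := by
    intro d hd
    obtain ⟨a, ha, e⟩ := hfree d d.2 (congrArg Subtype.val hd)
    exact ⟨⟨a, ha⟩, Subtype.ext e⟩
  obtain ⟨a₀, ha₀⟩ := hgen P (by rw [map_mul, hγP])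
  let g' : G := g * a₀
  let P' : A := γ a₀ * P * a₀
  have hgg' : g' * g' = (P' : G) := by
    show g * (a₀ : G) * (g * a₀) = g * a₀ * g⁻¹ * (g * g) * a₀
    group
  have hP'2 : P' * P' = 1 := by
    have e : P' * P' = γ (a₀ * a₀) * (P * P) * (a₀ * a₀) := by
      simp only [P', map_mul]; ac_rfl
    rw [e, ← ha₀]
    have h4 : (a₀ * a₀) * (a₀ * a₀) = (1 : A) := Subtype.ext (hA4 _ a₀.2)
    have h4' : γ (a₀ * a₀) * γ (a₀ * a₀) = 1 := by rw [← map_mul, h4, map_one]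
    rw [show γ (a₀ * a₀) * (γ (a₀ * a₀) * (a₀ * a₀)⁻¹) * (a₀ * a₀) =
      γ (a₀ * a₀) * γ (a₀ * a₀) * ((a₀ * a₀)⁻¹ * (a₀ * a₀)) by ac_rfl, h4', inv_mul_cancel, one_mul]
  have hg'conj : ∀ a : A, g' * (a : G) * g'⁻¹ = (γ a : G) := fun a => by
    show g * (a₀ : G) * a * (g * a₀)⁻¹ = g * a * g⁻¹
    rw [mul_assoc g, hAc _ a₀.2 _ a.2]; group
  -- the subgroup of fixed points modulo involutions
  let D : Subgroup A := ((γ.comp sq).eqLocus sq)
  have hDmem : ∀ a, a ∈ D ↔ γ (a * a) = a * a := fun a => by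
    show γ (sq a) = sq a ↔ _
    rw [hsq]
  have hFD : F ≤ D := fun a ha => by
    rw [MonoidHom.mem_ker, hsq] at ha
    rw [hDmem, ha, map_one]
  have hxD : ∀ a : A, γ a * a⁻¹ ∈ D := fun a => by
    have h4 : ∀ b : A, b * b = (b * b)⁻¹ := fun b =>
      eq_inv_of_mul_eq_one_left (Subtype.ext (hA4 _ b.2))
    have hx : γ (γ a * a⁻¹) = (γ a * a⁻¹)⁻¹ := by rw [map_mul, map_inv, hγγ, mul_inv_rev, inv_inv]
    rw [hDmem, map_mul, hx, ← mul_inv_rev]
    exact (h4 _).symm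
  let Nd : Subgroup A := D.map sq
  have hNd : Nat.card Nd * 16 = Nat.card D := by
    have h1 := Subgroup.card_eq_card_quotient_mul_card_subgroup (F.subgroupOf D)
    rw [Nat.card_congr (Subgroup.subgroupOfEquivOfLe hFD).toEquiv, hF] at h1
    have e : (sq.comp D.subtype).ker = F.subgroupOf D := rfl
    have h2 := Nat.card_congr (QuotientGroup.quotientKerEquivRange (sq.comp D.subtype)).toEquiv
    rw [e] at h2
    have h3 : (sq.comp D.subtype).range = Nd := by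
      rw [MonoidHom.range_comp, Subgroup.range_subtype]
    rw [h1, h2, h3]
  let N : Subgroup G := Nd.map A.subtype
  have hNmem : ∀ {x : A}, x ∈ D → (((x * x : A)) : G) ∈ N := fun {x} hx =>
    ⟨x * x, ⟨x, hx, hsq x⟩, rfl⟩
  have hN1 : ∀ {x : G} (hx : x ∈ A), (⟨x, hx⟩ : A) ∈ Nd → x ∈ N := fun {x} hx h => ⟨_, h, rfl⟩
  let T : Set G := {x | ∃ hx : x ∈ A, (⟨x, hx⟩ : A) ∈ F} ∪ Set.range (fun a : A => ((γ a * a⁻¹ : A) : G))
    ∪ {g'}
  have hTA : ∀ x ∈ T, x = g' ∨ ∃ hx : x ∈ A, ((⟨x, hx⟩ : A) ∈ F ∨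
      ∃ a : A, γ a * a⁻¹ = ⟨x, hx⟩) := by
    rintro x ((⟨hx, h⟩ | ⟨a, rfl⟩) | rfl)
    · exact Or.inr ⟨hx, Or.inl h⟩
    · exact Or.inr ⟨(γ a * a⁻¹ : A).2, Or.inr ⟨a, rfl⟩⟩
    · exact Or.inl rfl
  have hAsq : ∀ (x : G) (hx : x ∈ A), ((⟨x, hx⟩ : A) ∈ F ∨ ∃ a : A, γ a * a⁻¹ = ⟨x, hx⟩) →
      x * x ∈ N ∧ γ ⟨x, hx⟩ * (⟨x, hx⟩ : A)⁻¹ ∈ Nd := by
    rintro x hx (h | ⟨a, ha⟩)
    · rw [MonoidHom.mem_ker, hsq] at h
      refine ⟨by rw [show x * x = 1 from congrArg Subtype.val h]; exact one_mem _, ?_⟩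
      obtain ⟨v, hv, e⟩ := hsurj x hx (congrArg Subtype.val h)
      refine ⟨γ ⟨v, hv⟩ * (⟨v, hv⟩ : A)⁻¹, hxD _, ?_⟩
      rw [hsq, show (⟨x, hx⟩ : A) = ⟨v, hv⟩ * ⟨v, hv⟩ from Subtype.ext e.symm, map_mul, mul_inv_rev]
      ac_rfl
    · have hD := hxD a
      refine ⟨?_, ?_⟩
      · have := hNmem hD
        rwa [ha] at this
      · rw [← ha, map_mul, map_inv, hγγ]
        refine ⟨a * (γ a)⁻¹, by simpa using inv_mem hD, ?_⟩
        rw [hsq, mul_inv_rev, inv_inv]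
  have hγN : ∀ n : A, n ∈ Nd → γ n ∈ Nd := by
    rintro _ ⟨d, hd, rfl⟩
    refine ⟨γ d, ?_, by rw [hsq, hsq, map_mul]⟩
    have h := (hDmem d).1 hd
    show γ d ∈ D
    rw [hDmem, ← map_mul, h, h]
  refine section_false hr T N ?_ ?_ ?_ ?_
  · rintro t ht _ ⟨n, hn, rfl⟩
    rcases hTA t ht with rfl | ⟨hx, -⟩
    · exact ⟨γ n, hγN n hn, (hg'conj n).symm⟩
    · refine ⟨n, hn, ?_⟩
      show (n : G) = t * n * t⁻¹
      rw [hAc _ hx _ n.2, mul_inv_cancel_right]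
  · intro t ht
    rcases hTA t ht with rfl | ⟨hx, h⟩
    · rw [hgg']
      obtain ⟨p, hp, e⟩ := hsurj P' P'.2 (congrArg Subtype.val hP'2)
      have ep : P' = ⟨p, hp⟩ * ⟨p, hp⟩ := Subtype.ext e.symm
      have hpD : (⟨p, hp⟩ : A) ∈ D := by
        rw [hDmem, ← ep]
        refine Subtype.ext ?_
        show ((γ P' : A) : G) = P'
        rw [← hg'conj P', ← hgg']
        group
      rw [ep]
      exact hNmem hpD
    · exact (hAsq t hx h).1
  · intro s hs t ht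
    rcases hTA s hs with rfl | ⟨hx, h⟩ <;> rcases hTA t ht with rfl | ⟨hy, h'⟩
    · simp
    · have := hN1 (x := g' * t * g'⁻¹ * t⁻¹) (by
        rw [show g' * t * g'⁻¹ = (γ ⟨t, hy⟩ : G) from hg'conj ⟨t, hy⟩]
        exact mul_mem (γ _).2 (inv_mem hy))
      refine this ?_
      convert (hAsq t hy h').2 using 1
      exact Subtype.ext (congrArg (· * t⁻¹) (hg'conj ⟨t, hy⟩))
    · have h1 := (hAsq s hx h).2
      have : s * g' * s⁻¹ * g'⁻¹ = (((γ ⟨s, hx⟩ * (⟨s, hx⟩ : A)⁻¹)⁻¹ : A) : G) := by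
        rw [Subgroup.coe_inv, Subgroup.coe_mul, Subgroup.coe_inv]
        rw [← hg'conj ⟨s, hx⟩]; group
      rw [this]
      exact ⟨_, inv_mem h1, rfl⟩
    · rw [hAc _ hx _ hy, mul_inv_cancel_right, mul_inv_cancel]
      exact one_mem _
  · have hD : ∀ d : A, d ∈ D → (d : G) ∈ Subgroup.closure T ⊔ N := by
      intro d hd
      obtain ⟨a, ha⟩ := hgen d ((hDmem d).1 hd)
      have h1 : (γ a * a⁻¹)⁻¹ * d ∈ F := by
        rw [MonoidHom.mem_ker, hsq, show (γ a * a⁻¹)⁻¹ * d * ((γ a * a⁻¹)⁻¹ * d) =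
          (γ a * a⁻¹ * (γ a * a⁻¹))⁻¹ * (d * d) by simp only [mul_inv_rev]; ac_rfl, ← ha, map_mul,
          show γ a * a⁻¹ * (γ a * a⁻¹) = γ a * γ a * (a * a)⁻¹ by simp only [mul_inv_rev]; ac_rfl,
          inv_mul_cancel]
      have h2 : ((γ a * a⁻¹ : A) : G) * (((γ a * a⁻¹)⁻¹ * d : A) : G) = d := by
        rw [← Subgroup.coe_mul, mul_inv_cancel_left]
      rw [← h2]
      refine Subgroup.mem_sup_left (mul_mem (Subgroup.subset_closure (Or.inl (Or.inr ⟨a, rfl⟩)))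
        (Subgroup.subset_closure (Or.inl (Or.inl ⟨_, h1⟩))))
    have hcN : Nat.card N = Nat.card Nd := Subgroup.card_map_of_injective A.subtype_injective
    let DG : Subgroup G := D.map A.subtype
    have hcD : Nat.card DG = Nat.card D := Subgroup.card_map_of_injective A.subtype_injective
    have h2 : Nat.card Bool * Nat.card DG ≤ Nat.card ↥(Subgroup.closure T ⊔ N) := by
      refine card_closure_ge _ DG (by rintro _ ⟨d, hd, rfl⟩; exact hD d hd)
        (fun b => if b then g' else 1) (fun b => ?_) fun i j hij => ?_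
      · cases b
        · simp
        · exact Subgroup.mem_sup_left (Subgroup.subset_closure (Or.inr rfl))
      · have hgA' : g' ∉ A := fun h => hg ((Subgroup.mul_mem_cancel_right A a₀.2).1 h)
        have hle : DG ≤ A := Subgroup.map_subtype_le D
        cases i <;> cases j <;> simp at hij ⊢ <;> exact hgA' (hle hij)
    rw [show Nat.card Bool = 2 by simp, hcD] at h2
    rw [hcN]
    omega

end CfsgLib.RadicalRankFour
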