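/-
RadicalRankFour: three conjugate elements of product one acting on an abelian normal subgroup.
-/
import Mathlib
import Cfsg.Agent.Lib.RadicalRankFour.Section

set_option autoImplicit false

namespace CfsgLib.RadicalRankFour

variable {G : Type*} [Group G]

/-- An element `g` whose three conjugates under `θ` of order three multiply to one, with square in the
abelian normal subgroup `A`. -/
structure Triple (A : Subgroup G) (θ g : G) : Prop where
  comm : ∀ a ∈ A, ∀ b ∈ A, a * b = b * a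
  cube : θ * θ * θ = 1
  prod : g * (θ * g * θ⁻¹) * (θ * θ * g * (θ * θ)⁻¹) = 1
  sq_mem : g * g ∈ A

namespace Triple

variable {A : Subgroup G} [A.Normal] {θ g : G}

/-- The standard way to produce a triple. -/
theorem mk' (hc : ∀ a ∈ A, ∀ b ∈ A, a * b = b * a) (hθ : θ * θ * θ = 1) (g₀ : G)
    (hg : g₀⁻¹ * θ * g₀ * θ⁻¹ * (g₀⁻¹ * θ * g₀ * θ⁻¹) ∈ A) :
    Triple A θ (g₀⁻¹ * θ * g₀ * θ⁻¹) := by
  refine ⟨hc, hθ, ?_, hg⟩
  calc _ = g₀⁻¹ * (θ * θ * θ) * g₀ * (θ * θ * θ)⁻¹ := by group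
    _ = 1 := by rw [hθ]; group

/-- A toggled triple. -/
theorem toggle (hT : Triple A θ g) {a : G} (ha : a ∈ A) :
    Triple A θ (a⁻¹ * g * (θ * a * θ⁻¹)) := by
  refine ⟨hT.comm, hT.cube, ?_, ?_⟩
  · have hi : θ * θ * θ = 1 := hT.cube
    calc _ = a⁻¹ * (g * (θ * g * θ⁻¹) * (θ * θ * g * (θ * θ)⁻¹)) *
          (θ * θ * θ * a * (θ * θ * θ)⁻¹) := by group
      _ = 1 := by rw [hT.prod, hi]; group
  · have e : a⁻¹ * g * (θ * a * θ⁻¹) * (a⁻¹ * g * (θ * a * θ⁻¹)) =
        a⁻¹ * (g * (θ * a * θ⁻¹ * a⁻¹) * g⁻¹) * (g * g) * (θ * a * θ⁻¹) := by group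
    have hA : A.Normal := inferInstance
    have ht := hA.conj_mem a ha θ
    rw [e]
    exact mul_mem (mul_mem (mul_mem (inv_mem ha) (hA.conj_mem _ (mul_mem ht (inv_mem ha)) g)) hT.sq_mem) ht

/-- Conjugation on `A`. -/
noncomputable def act (A : Subgroup G) [A.Normal] (x : G) : A ≃* A := MulAut.conjNormal x

theorem coe_act (x : G) (a : A) : ((act A x a : A) : G) = x * a * x⁻¹ := MulAut.conjNormal_apply x a

theorem act_mul (x y : G) (a : A) : act A (x * y) a = act A x (act A y a) := by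
  show MulAut.conjNormal (x * y) a = _
  rw [map_mul]; rfl

theorem act_one (a : A) : act A (1 : G) a = a := by
  show MulAut.conjNormal (1 : G) a = _
  rw [map_one]; rfl

theorem act_self (hT : Triple A θ g) {x : G} (hx : x ∈ A) (a : A) : act A x a = a :=
  Subtype.ext (by rw [coe_act, hT.comm _ hx _ a.2, mul_inv_cancel_right])

theorem act_theta3 (hT : Triple A θ g) (a : A) : act A θ (act A θ (act A θ a)) = a := by
  rw [← act_mul, ← act_mul, hT.cube, act_one]

theorem act_gg (hT : Triple A θ g) (a : A) : act A g (act A g a) = a := by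
  rw [← act_mul, hT.act_self hT.sq_mem]

/-- The action of the second conjugate. -/
theorem act_h (hT : Triple A θ g) (a : A) :
    act A (θ * g * θ⁻¹) a = act A θ (act A g (act A θ (act A θ a))) := by
  rw [show θ⁻¹ = θ * θ from inv_eq_of_mul_eq_one_right (by rw [← mul_assoc, hT.cube]),
    act_mul, act_mul, act_mul]

/-- The action of the third conjugate. -/
theorem act_k (hT : Triple A θ g) (a : A) :
    act A (θ * θ * g * (θ * θ)⁻¹) a = act A θ (act A θ (act A g (act A θ a))) := by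
  rw [show (θ * θ)⁻¹ = θ from inv_eq_of_mul_eq_one_left (by rw [← mul_assoc, hT.cube]),
    act_mul, act_mul, act_mul]

theorem act_ghk (hT : Triple A θ g) (a : A) : act A g (act A (θ * g * θ⁻¹) (act A θ (act A θ (act A g (act A θ a))))) = a := by
  rw [← hT.act_k, ← act_mul, ← act_mul, hT.prod, act_one]

variable (hT : Triple A θ g)
include hT

/-- `g²`. -/
def P : A := ⟨g * g, hT.sq_mem⟩

/-- The product of the squares of the three conjugates. -/
noncomputable def S : A := hT.P * act A θ hT.P * act A θ (act A θ hT.P)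

theorem act_g_P : act A g hT.P = hT.P :=
  Subtype.ext (by rw [coe_act]; show g * (g * g) * g⁻¹ = g * g; group)

theorem act_theta_S : act A θ hT.S = hT.S := by
  rw [S, map_mul, map_mul, hT.act_theta3]
  letI : CommGroup A := { (inferInstance : Group A) with
    mul_comm := fun a b => Subtype.ext (hT.comm _ a.2 _ b.2) }
  exact (mul_comm _ _).trans (mul_assoc _ _ _).symm

theorem comm_mem : θ * g * θ⁻¹ * g * (θ * g * θ⁻¹)⁻¹ * g⁻¹ ∈ A := by
  set h := θ * g * θ⁻¹ with hh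
  set k := θ * θ * g * (θ * θ)⁻¹ with hk
  have hA : A.Normal := inferInstance
  have hP := hT.sq_mem
  have hQ : h * h ∈ A := by
    rw [show h * h = θ * (g * g) * θ⁻¹ by rw [hh]; group]; exact hA.conj_mem _ hP θ
  have hR : k * k ∈ A := by
    rw [show k * k = θ * θ * (g * g) * (θ * θ)⁻¹ by rw [hk]; group]; exact hA.conj_mem _ hP _
  have hgh : g * h = k⁻¹ := eq_inv_of_mul_eq_one_left hT.prod
  have : h * g * h⁻¹ * g⁻¹ = g⁻¹ * ((k * k)⁻¹ * (h * h)⁻¹ * (g * g)⁻¹) * g := by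
    rw [show (k * k)⁻¹ = k⁻¹ * k⁻¹ by group, ← hgh]; group
  rw [this]
  exact hA.conj_mem' _ (mul_mem (mul_mem (inv_mem hR) (inv_mem hQ)) (inv_mem hP)) g

/-- The commutator of the first two conjugates. -/
def z : A := ⟨θ * g * θ⁻¹ * g * (θ * g * θ⁻¹)⁻¹ * g⁻¹, hT.comm_mem⟩

theorem act_g_z : act A g hT.z = hT.S⁻¹ := by
  apply Subtype.ext
  rw [coe_act]
  show g * (θ * g * θ⁻¹ * g * (θ * g * θ⁻¹)⁻¹ * g⁻¹) * g⁻¹ = _
  rw [S, Subgroup.coe_inv, Subgroup.coe_mul, Subgroup.coe_mul, coe_act, coe_act, coe_act]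
  show _ = (g * g * (θ * (g * g) * θ⁻¹) * (θ * (θ * (g * g) * θ⁻¹) * θ⁻¹))⁻¹
  set h := θ * g * θ⁻¹ with hh
  set k := θ * θ * g * (θ * θ)⁻¹ with hk
  have hgh : g * h = k⁻¹ := eq_inv_of_mul_eq_one_left hT.prod
  have hA : A.Normal := inferInstance
  rw [show θ * (g * g) * θ⁻¹ = h * h by rw [hh]; group,
    show θ * (h * h) * θ⁻¹ = k * k by rw [hh, hk]; group,
    mul_inv_rev (g * g * (h * h)) (k * k), mul_inv_rev (g * g) (h * h),
    show (k * k)⁻¹ = k⁻¹ * k⁻¹ by group, ← hgh]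
  group

theorem act_h_P : act A (θ * g * θ⁻¹) hT.P = hT.z * act A g hT.z * hT.P := by
  apply Subtype.ext
  rw [coe_act, Subgroup.coe_mul, Subgroup.coe_mul, coe_act]
  show θ * g * θ⁻¹ * (g * g) * (θ * g * θ⁻¹)⁻¹ = θ * g * θ⁻¹ * g * (θ * g * θ⁻¹)⁻¹ * g⁻¹ *
    (g * (θ * g * θ⁻¹ * g * (θ * g * θ⁻¹)⁻¹ * g⁻¹) * g⁻¹) * (g * g)
  group

theorem h_sq : θ * g * θ⁻¹ * (θ * g * θ⁻¹) = (act A θ hT.P : G) := by
  rw [coe_act]; show _ = θ * (g * g) * θ⁻¹; group

end Triple

end CfsgLib.RadicalRankFour
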