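/-
RadicalRankFour: a rank five section in a group of exponent four over a natural module of order eight.
-/
import Mathlib
import Cfsg.Agent.Lib.RadicalRankFour.Theta

set_option autoImplicit false

namespace CfsgLib.RadicalRankFour

/-- Coordinates on the natural module of order eight. -/
abbrev V3 := ZMod 2 × ZMod 2 × ZMod 2

/-- The element of order three on coordinates. -/
def Tt (x : V3) : V3 := (x.1, x.2.2, x.2.1 + x.2.2)

/-- The involution on coordinates. -/
def Tg (x : V3) : V3 := (x.1 + x.2.2, x.2.1, x.2.2)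

/-- The conjugate involution on coordinates. -/
def Th (x : V3) : V3 := Tt (Tg (Tt (Tt x)))

/-- A coordinate fixed vector. -/
abbrev vC : V3 := (1, 0, 0)

variable {G : Type*} [Group G] {A : Subgroup G} [A.Normal] {θ g : G}

open Triple in
/-- Data: the squares of `A` form a natural module, and involutions fixed by `g` are squares. -/
structure FiveData (A : Subgroup G) [A.Normal] (θ g : G) (φ : V3 → A) : Prop where
  mul : ∀ x y, φ (x + y) = φ x * φ y
  inj : Function.Injective φ
  sq : ∀ a : A, ∃ x, a * a = φ x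
  surj : ∀ x, ∃ a : A, a * a = φ x
  theta : ∀ x, act A θ (φ x) = φ (Tt x)
  gee : ∀ x, act A g (φ x) = φ (Tg x)
  fixg : ∀ a : A, a * a = 1 → act A g a = a → ∃ x, a = φ x

namespace FiveData

open Triple

variable {φ : V3 → A} (hD : FiveData A θ g φ) (hT : Triple A θ g)
include hD

theorem one : φ 0 = 1 := by
  have := hD.mul 0 0
  rw [add_zero] at this
  exact left_eq_mul.1 this

theorem mul_self (x : V3) : φ x * φ x = 1 := by
  rw [← hD.mul, show x + x = 0 by revert x; decide, hD.one]

theorem inv (x : V3) : (φ x)⁻¹ = φ x := inv_eq_of_mul_eq_one_right (hD.mul_self x)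

include hT

theorem h_apply (x : V3) : act A (θ * g * θ⁻¹) (φ x) = φ (Th x) := by
  rw [hT.act_h, hD.theta, hD.theta, hD.gee, hD.theta]; rfl

/-- A square which is fixed by the element of order three. -/
theorem theta_fixed {x : V3} (h : act A θ (φ x) = φ x) : x = 0 ∨ x = vC := by
  rw [hD.theta] at h
  have := hD.inj h
  revert this; clear h; revert x; decide

/-- The element of order four fixed by the triple. -/
theorem exists_c : ∃ c : A, c * c = φ vC ∧ act A θ c = c ∧ act A g c = c := by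
  letI : CommGroup A := { (inferInstance : Group A) with
    mul_comm := fun a b => Subtype.ext (hT.comm _ a.2 _ b.2) }
  -- the key constraint
  have key : ∀ y : A, act A θ y = y → ∀ d : A, act A g y = d * y → d * d = 1 → act A g d = d →
      d = 1 ∨ d = φ (1, 1, 0) := by
    intro y hy d hd hd2 hdg
    obtain ⟨x, rfl⟩ := hD.fixg d hd2 hdg
    have hx : Tg x = x := hD.inj (by rw [← hD.gee, hdg])
    have h := hT.act_ghk y
    have e1 : act A θ (act A θ (act A g (act A θ y))) = φ (Tt (Tt x)) * y := by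
      rw [hy, hd, map_mul, hy, map_mul, hy, hD.theta, hD.theta]
    have e2 : act A (θ * g * θ⁻¹) (φ (Tt (Tt x)) * y) = φ (Th (Tt (Tt x))) * (φ (Tt x) * y) := by
      rw [map_mul, hD.h_apply hT, hT.act_h y, hy, hy, hd, map_mul, hy, hD.theta]
    rw [e1, e2, map_mul, map_mul, hd, hD.gee, hD.gee, ← mul_assoc, ← mul_assoc, ← hD.mul, ← hD.mul,
      mul_eq_right] at h
    have h' : Tg (Th (Tt (Tt x))) + Tg (Tt x) + x = 0 := hD.inj (h.trans hD.one.symm)
    have : x = 0 ∨ x = (1, 1, 0) := by
      revert h' hx; clear hd hd2 hdg e1 e2 h; revert x; decide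
    rcases this with rfl | rfl
    · exact Or.inl hD.one
    · exact Or.inr rfl
  obtain ⟨c₀, hc₀⟩ := hD.surj vC
  have hC : act A θ (φ vC) = φ vC := hD.theta vC
  let c := c₀ * act A θ c₀ * act A θ (act A θ c₀)
  have hcθ : act A θ c = c := by
    simp only [c, map_mul, hT.act_theta3]; ac_rfl
  have hcc : c * c = φ vC := by
    have e : c * c = (c₀ * c₀) * act A θ (c₀ * c₀) * act A θ (act A θ (c₀ * c₀)) := by
      simp only [c, map_mul]; ac_rfl
    rw [e, hc₀, hC, hC, hD.mul_self, one_mul]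
  have hdd : ∀ y : A, y * y = φ vC → act A θ y = y → (act A g y * y⁻¹) * (act A g y * y⁻¹) = 1 ∧
      act A g (act A g y * y⁻¹) = act A g y * y⁻¹ := by
    intro y hy _
    have h1 : (act A g y * y⁻¹) * (act A g y * y⁻¹) = 1 := by
      rw [show (act A g y * y⁻¹) * (act A g y * y⁻¹) = act A g (y * y) * (y * y)⁻¹ by
        rw [map_mul, mul_inv_rev]; ac_rfl, hy, hD.gee, show Tg vC = vC from rfl, mul_inv_cancel]
    refine ⟨h1, ?_⟩
    rw [map_mul, map_inv, hT.act_gg, show y * (act A g y)⁻¹ = (act A g y * y⁻¹)⁻¹ by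
      rw [mul_inv_rev, inv_inv], inv_eq_of_mul_eq_one_right h1]
  obtain ⟨h1, h2⟩ := hdd c hcc hcθ
  rcases key c hcθ _ (by rw [inv_mul_cancel_right]) h1 h2 with h | h
  · exact ⟨c, hcc, hcθ, mul_inv_eq_one.1 h⟩
  -- repair `c` by an involution fixed by the element of order three
  obtain ⟨w, hw⟩ := hD.surj (0, 0, 1)
  set v := act A g w * w⁻¹ with hv
  have hvv : v * v = φ vC := by
    rw [hv, show act A g w * w⁻¹ * (act A g w * w⁻¹) = act A g (w * w) * (w * w)⁻¹ by
      rw [map_mul, mul_inv_rev]; ac_rfl, hw, hD.gee, hD.inv, ← hD.mul]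
    rfl
  have hgv : act A g v = v⁻¹ := by
    rw [hv, map_mul, map_inv, hT.act_gg, mul_inv_rev, inv_inv]
  clear_value v
  set x := v⁻¹ * c with hx
  have hxx : x * x = 1 := by
    rw [hx, show v⁻¹ * c * (v⁻¹ * c) = (v * v)⁻¹ * (c * c) by rw [mul_inv_rev]; ac_rfl, hvv, hcc,
      inv_mul_cancel]
  have hgx : act A g x = φ (0, 1, 0) * x := by
    rw [hx, map_mul, map_inv, hgv, inv_inv, mul_inv_eq_iff_eq_mul.1 h,
      show φ (0, 1, 0) * (v⁻¹ * c) = (φ vC * φ (1, 1, 0)) * (v⁻¹ * c) by rw [← hD.mul]; rfl,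
      ← hvv]
    rw [show v * v * φ (1, 1, 0) * (v⁻¹ * c) = v * (φ (1, 1, 0) * c) * (v * v⁻¹) by ac_rfl,
      mul_inv_cancel, mul_one]
  have hxZ : ∀ y, x ≠ φ y := by
    intro y hy
    rw [hy, hD.gee, ← hD.mul] at hgx
    have := hD.inj hgx
    revert this; clear hgx hy; revert y; decide
  -- the image of `x` under the element of order three
  have hfix : ∀ y : A, y * y = 1 → ∃ u : V3, act A g y * y = φ u ∧ Tg u = u := by
    intro y hy
    have hg2 : act A g (act A g y * y) = act A g y * y := by rw [map_mul, hT.act_gg, mul_comm]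
    obtain ⟨u, hu⟩ := hD.fixg (act A g y * y) (by
      rw [show act A g y * y * (act A g y * y) = act A g (y * y) * (y * y) by
        rw [map_mul]; ac_rfl, hy, map_one, one_mul]) hg2
    exact ⟨u, hu, hD.inj (by rw [← hD.gee, ← hu, hg2])⟩
  have htx : act A θ x * act A θ x = 1 := by rw [← map_mul, hxx, map_one]
  obtain ⟨u, hu, hu'⟩ := hfix _ htx
  obtain ⟨y, hy⟩ : ∃ y, act A θ x = x * φ y := by
    have hxu : act A g x * x = φ (0, 1, 0) := by rw [hgx, mul_assoc, hxx, mul_one]
    have h4 : ∃ l : V3, u + (0, 1, 0) = Tg l + l ∨ u = Tg l + l := by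
      revert hu'; clear hu; revert u; decide
    obtain ⟨l, hl⟩ := h4
    rcases hl with hl | hl
    · obtain ⟨r, hr⟩ := hD.fixg (x * act A θ x * φ l) (by
        rw [show x * act A θ x * φ l * (x * act A θ x * φ l) =
          (x * x) * (act A θ x * act A θ x) * (φ l * φ l) by ac_rfl, hxx, htx, hD.mul_self]; simp) (by
        have e : act A g (x * act A θ x * φ l) * (x * act A θ x * φ l) = 1 := by
          rw [map_mul, map_mul, show act A g x * act A g (act A θ x) * act A g (φ l) * (x * act A θ x * φ l)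
            = (act A g x * x) * (act A g (act A θ x) * act A θ x) * (act A g (φ l) * φ l) by ac_rfl,
            hxu, hu, hD.gee, ← hD.mul, ← hD.mul, ← hD.mul, ← hl,
            show ((0, 1, 0) : V3) + u + (u + (0, 1, 0)) = 0 by clear hu hu' hl; revert u; decide, hD.one]
        rw [eq_inv_of_mul_eq_one_left e]
        refine inv_eq_of_mul_eq_one_right ?_
        rw [show x * act A θ x * φ l * (x * act A θ x * φ l) =
          (x * x) * (act A θ x * act A θ x) * (φ l * φ l) by ac_rfl, hxx, htx, hD.mul_self]; simp)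
      refine ⟨r + l, ?_⟩
      rw [hD.mul, ← hr, show x * (x * act A θ x * φ l * φ l) = (x * x) * act A θ x * (φ l * φ l) by ac_rfl,
        hxx, hD.mul_self, one_mul, mul_one]
    · exfalso
      obtain ⟨r, hr⟩ := hD.fixg (act A θ x * φ l) (by
        rw [show act A θ x * φ l * (act A θ x * φ l) = (act A θ x * act A θ x) * (φ l * φ l) by ac_rfl,
          htx, hD.mul_self, one_mul]) (by
        have e : act A g (act A θ x * φ l) * (act A θ x * φ l) = 1 := by
          rw [map_mul, show act A g (act A θ x) * act A g (φ l) * (act A θ x * φ l) =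
            (act A g (act A θ x) * act A θ x) * (act A g (φ l) * φ l) by ac_rfl, hu, hD.gee, ← hD.mul,
            ← hD.mul, ← hl, show u + u = 0 by clear hu hu' hl; revert u; decide, hD.one]
        rw [eq_inv_of_mul_eq_one_left e]
        refine inv_eq_of_mul_eq_one_right ?_
        rw [show act A θ x * φ l * (act A θ x * φ l) = (act A θ x * act A θ x) * (φ l * φ l) by ac_rfl,
          htx, hD.mul_self, one_mul])
      have : act A θ x = φ (r + l) := by
        rw [hD.mul, ← hr, mul_assoc, hD.mul_self, mul_one]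
      exact hxZ (Tt (Tt (r + l))) (by rw [← hD.theta, ← hD.theta, ← this, hT.act_theta3])
  set τ₀ := x * act A θ x * act A θ (act A θ x) with hτ₀
  have hτθ : act A θ τ₀ = τ₀ := by simp only [hτ₀, map_mul, hT.act_theta3]; ac_rfl
  have hτ1 : τ₀ = x * φ (Tt y) := by
    rw [hτ₀, hy, map_mul, hy, hD.theta, show x * (x * φ y) * (x * φ y * φ (Tt y)) =
      (x * x) * (φ y * φ y) * (x * φ (Tt y)) by ac_rfl, hxx, hD.mul_self, one_mul, one_mul]
  have hτ2 : τ₀ * τ₀ = 1 := by
    rw [hτ1, show x * φ (Tt y) * (x * φ (Tt y)) = x * x * (φ (Tt y) * φ (Tt y)) by ac_rfl, hxx,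
      hD.mul_self, one_mul]
  set d0 : V3 := (0, 1, 0) + (Tg (Tt y) + Tt y) with hd0
  have hgτ : act A g τ₀ = φ d0 * τ₀ := by
    rw [hτ1, map_mul, hgx, hD.gee, hd0, hD.mul, hD.mul]
    rw [show φ (0, 1, 0) * (φ (Tg (Tt y)) * φ (Tt y)) * (x * φ (Tt y)) =
      φ (0, 1, 0) * x * φ (Tg (Tt y)) * (φ (Tt y) * φ (Tt y)) by ac_rfl, hD.mul_self, mul_one]
  have hd0fix : Tg d0 = d0 ∧ d0 ≠ 0 := by rw [hd0]; clear hd0 hgτ hτ1 hy; revert y; decide
  rcases key τ₀ hτθ (φ d0) hgτ (hD.mul_self _) (by rw [hD.gee, hd0fix.1]) with h' | h'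
  · exact absurd (hD.inj (h'.trans hD.one.symm)) hd0fix.2
  refine ⟨c * τ₀, ?_, by rw [map_mul, hcθ, hτθ], ?_⟩
  · rw [show c * τ₀ * (c * τ₀) = c * c * (τ₀ * τ₀) by ac_rfl, hτ2, hcc, mul_one]
  · rw [map_mul, mul_inv_eq_iff_eq_mul.1 h, hgτ, h', show φ (1, 1, 0) * c * (φ (1, 1, 0) * τ₀) =
      φ (1, 1, 0) * φ (1, 1, 0) * (c * τ₀) by ac_rfl, hD.mul_self, one_mul]

variable [Finite G]

/-- The case in which `g²` is an involution or trivial. -/
theorem false_aux (hr : Cfsg.SectionalPRankLE 2 4 G) (hP2 : hT.P * hT.P = 1) : False := by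
  classical
  letI : CommGroup A := { (inferInstance : Group A) with
    mul_comm := fun a b => Subtype.ext (hT.comm _ a.2 _ b.2) }
  obtain ⟨p, hp⟩ := hD.fixg hT.P hP2 hT.act_g_P
  have hS : hT.S = φ (p + Tt p + Tt (Tt p)) := by
    rw [Triple.S, hp, hD.theta, hD.theta, hD.mul, hD.mul]
  have hs : p + Tt p + Tt (Tt p) = 0 ∨ p + Tt p + Tt (Tt p) = vC :=
    hD.theta_fixed hT (by rw [← hS, hT.act_theta_S])
  have hgs : act A g hT.S = hT.S := by
    rw [hS, hD.gee]
    rcases hs with e | e <;> rw [e] <;> rfl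
  have hz : hT.z = hT.S := by
    have := congrArg (act A g) hT.act_g_z
    rwa [hT.act_gg, map_inv, hgs, hS, hD.inv, ← hS] at this
  have hhP : act A (θ * g * θ⁻¹) hT.P = hT.P := by
    rw [hT.act_h_P, hT.act_g_z, hz, mul_inv_cancel, one_mul]
  have hp' : p = 0 ∨ p = vC := by
    rw [hp, hD.h_apply hT] at hhP
    have h1 := hD.inj hhP
    have h2 : Tg p = p := hD.inj (by rw [← hD.gee, ← hp, hT.act_g_P])
    revert h1 h2; clear hs hS hp hhP; revert p; decide
  have hpt : act A θ hT.P = hT.P := by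
    rw [hp, hD.theta]; rcases hp' with rfl | rfl <;> rfl
  obtain ⟨c, hcc, hcθ, hcg⟩ := hD.exists_c hT
  have hch : act A (θ * g * θ⁻¹) c = c := by rw [hT.act_h, hcθ, hcθ, hcg, hcθ]
  set h := θ * g * θ⁻¹ with hh
  let φG : V3 → G := fun x => (φ x : G)
  let N : Subgroup G :=
    { carrier := {φG 0, φG vC}
      one_mem' := Or.inl (by simp [φG, hD.one])
      mul_mem' := by
        rintro _ _ (rfl | rfl) (rfl | rfl) <;>
          simp [φG, hD.one, ← Subgroup.coe_mul, hD.mul_self]
      inv_mem' := by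
        rintro _ (rfl | rfl) <;> simp [φG, hD.one, ← Subgroup.coe_inv, hD.inv] }
  have hNmem : ∀ {x : V3}, x = 0 ∨ x = vC → φG x ∈ N := by
    rintro x (rfl | rfl)
    · exact Or.inl rfl
    · exact Or.inr rfl
  have hconj : ∀ (x : G) (a : A), x * a * x⁻¹ = (act A x a : G) := fun x a => (coe_act x a).symm
  have hcom : ∀ (x : G) (a : A), (a : G) * x * (a : G)⁻¹ * x⁻¹ = ((a * (act A x a)⁻¹ : A) : G) := by
    intro x a; rw [Subgroup.coe_mul, Subgroup.coe_inv, coe_act]; group
  have hcom' : ∀ (x : G) (a : A), x * a * x⁻¹ * (a : G)⁻¹ = ((act A x a * a⁻¹ : A) : G) := by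
    intro x a; rw [Subgroup.coe_mul, Subgroup.coe_inv, coe_act]
  let T : Set G := Set.range φG ∪ {(c : G), g, h}
  refine section_false hr T N ?_ ?_ ?_ ?_
  · rintro t ((⟨x, rfl⟩) | rfl | rfl | rfl) n hn
    all_goals
      obtain ⟨e, he, rfl⟩ : ∃ e, (e = 0 ∨ e = vC) ∧ φG e = n := by
        rcases hn with rfl | rfl
        exacts [⟨0, Or.inl rfl, rfl⟩, ⟨vC, Or.inr rfl, rfl⟩]
      simp only [φG]
      rw [hconj]
    · rw [hT.act_self (φ x).2]; exact hNmem he
    · rw [hT.act_self c.2]; exact hNmem he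
    · rw [hD.gee]; apply hNmem; rcases he with rfl | rfl <;> decide
    · rw [hD.h_apply hT]; apply hNmem; rcases he with rfl | rfl <;> decide
  · rintro t ((⟨x, rfl⟩) | rfl | rfl | rfl)
    · simp only [φG]; rw [← Subgroup.coe_mul, hD.mul_self]; exact one_mem _
    · rw [← Subgroup.coe_mul, hcc]; exact hNmem (Or.inr rfl)
    · show (hT.P : G) ∈ N; rw [hp]; exact hNmem hp'
    · rw [hh, hT.h_sq, hpt, hp]; exact hNmem hp'
  · have hAA : ∀ a b : A, (a : G) * b * (a : G)⁻¹ * (b : G)⁻¹ ∈ N := fun a b => by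
      rw [hT.comm _ a.2 _ b.2, mul_inv_cancel_right, mul_inv_cancel]; exact one_mem _
    have hzN : (hT.z : G) ∈ N := by rw [hz, hS]; exact hNmem hs
    have hφg : ∀ x, x + Tg x = 0 ∨ x + Tg x = vC := by decide
    have hφh : ∀ x, x + Th x = 0 ∨ x + Th x = vC := by decide
    rintro s ((⟨x, rfl⟩) | rfl | rfl | rfl) t ((⟨y, rfl⟩) | rfl | rfl | rfl)
    · exact hAA _ _
    · exact hAA _ _
    · simp only [φG]; rw [hcom, hD.gee, hD.inv, ← hD.mul]; exact hNmem (hφg x)
    · simp only [φG]; rw [hcom, hD.h_apply hT, hD.inv, ← hD.mul]; exact hNmem (hφh x)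
    · exact hAA _ _
    · exact hAA _ _
    · rw [hcom, hcg, mul_inv_cancel]; exact one_mem _
    · rw [hcom, hch, mul_inv_cancel]; exact one_mem _
    · simp only [φG]; rw [hcom', hD.gee, hD.inv, ← hD.mul, add_comm]; exact hNmem (hφg y)
    · rw [hcom', hcg, mul_inv_cancel]; exact one_mem _
    · simp
    · have := inv_mem hzN
      rw [show ∀ a b : G, a * b * a⁻¹ * b⁻¹ = (b * a * b⁻¹ * a⁻¹)⁻¹ by intros; group]
      exact this
    · simp only [φG]; rw [hcom', hD.h_apply hT, hD.inv, ← hD.mul, add_comm]; exact hNmem (hφh y)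
    · rw [hcom', hch, mul_inv_cancel]; exact one_mem _
    · exact hzN
    · simp
  · have hN : Nat.card N ≤ 2 := by
      show Nat.card ({φG 0, φG vC} : Set G) ≤ 2
      rw [Nat.card_coe_set_eq]
      exact (Set.ncard_insert_le _ _).trans (by simp)
    let Φ : Subgroup G :=
      { carrier := Set.range φG
        one_mem' := ⟨0, by simp [φG, hD.one]⟩
        mul_mem' := by rintro _ _ ⟨a, rfl⟩ ⟨b, rfl⟩; exact ⟨a + b, by simp [φG, hD.mul]⟩
        inv_mem' := by rintro _ ⟨a, rfl⟩; exact ⟨a, by simp [φG, ← Subgroup.coe_inv, hD.inv]⟩ }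
    have hΦ : Nat.card Φ = 8 := by
      show Nat.card (Set.range φG) = 8
      rw [Nat.card_range_of_injective (fun a b e => hD.inj (Subtype.ext e))]
      simp [V3]
    let f : Bool × Bool × Bool → G := fun b =>
      (if b.1 then (c : G) else 1) * ((if b.2.1 then g else 1) * (if b.2.2 then h else 1))
    let F : Bool → Bool → V3 → V3 := fun b₂ b₃ x =>
      (if b₂ then Tg else id) ((if b₃ then Th else id) x)
    have hF : ∀ a b a' b', (∀ x, F a b x = F a' b' x) → a = a' ∧ b = b' := by decide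
    have hfx : ∀ b x, act A (f b) (φ x) = φ (F b.2.1 b.2.2 x) := by
      rintro ⟨b₁, b₂, b₃⟩ x
      cases b₁ <;> cases b₂ <;> cases b₃ <;>
        simp [f, F, act_mul, act_one, hD.gee, hD.h_apply hT, hT.act_self c.2, hh]
    have hmc : ∀ b₂ b₃ : Bool, act A ((if b₂ then g else 1) * (if b₃ then h else 1)) c = c := by
      intro b₂ b₃; cases b₂ <;> cases b₃ <;> simp [act_mul, act_one, hcg, hch]
    have h2 := card_closure_ge (Subgroup.closure T ⊔ N) Φ
      (fun _ hn => Subgroup.mem_sup_left (Subgroup.subset_closure (Or.inl hn))) f (fun b => by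
        refine Subgroup.mem_sup_left (mul_mem ?_ (mul_mem ?_ ?_))
        all_goals split_ifs
        all_goals first
          | exact one_mem _
          | exact Subgroup.subset_closure (Or.inr (by simp))) (by
        rintro i j ⟨w, hw⟩
        have hj : f j = f i * φG w := by rw [hw]; group
        have heq : ∀ x, F i.2.1 i.2.2 x = F j.2.1 j.2.2 x := fun x => hD.inj (by
          rw [← hfx, ← hfx, hj, act_mul (f i) (φG w), hT.act_self (φ w).2])
        obtain ⟨e2, e3⟩ := hF _ _ _ _ heq
        obtain ⟨i1, i2, i3⟩ := i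
        obtain ⟨j1, j2, j3⟩ := j
        obtain rfl : i2 = j2 := e2
        obtain rfl : i3 = j3 := e3
        have hne : ∀ u, (c : G) ≠ φG u := fun u e => by
          have : φ vC = 1 := by rw [← hcc, show c = φ u from Subtype.ext e, hD.mul_self]
          exact absurd (hD.inj (this.trans hD.one.symm)) (by decide)
        have hm := congrArg Subtype.val (hmc i2 i3)
        rw [coe_act] at hm
        set m := (if i2 then g else 1) * (if i3 then h else 1) with hm'
        have hm2 : m⁻¹ * (c : G) * m = c := by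
          conv_lhs => rw [← hm]
          group
        cases i1 <;> cases j1
        · rfl
        · exfalso
          have : (c : G) = φG w := by
            rw [← hm2, hw]; simp only [f, Bool.false_eq_true, if_false, if_true]
            rw [← hm']; group
          exact hne _ this
        · exfalso
          have : (c : G)⁻¹ = φG w := by
            rw [hw]; simp only [f, Bool.false_eq_true, if_false, if_true]
            rw [← hm', show ((c : G))⁻¹ = (m⁻¹ * (c : G) * m)⁻¹ by rw [hm2]]; group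
          exact hne w (inv_inj.1 (this.trans (by simp [φG, ← Subgroup.coe_inv, hD.inv])))
        · rfl)
    rw [hΦ] at h2
    rw [show Nat.card (Bool × Bool × Bool) = 8 by simp] at h2
    omega

end FiveData

open Triple in
/-- A group of exponent four over a natural module of order eight gives a rank five section. -/
theorem false_of_five [Finite G] (hr : Cfsg.SectionalPRankLE 2 4 G) {φ : V3 → A}
    (hT : Triple A θ g) (hD : FiveData A θ g φ) : False := by
  letI : CommGroup A := { (inferInstance : Group A) with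
    mul_comm := fun a b => Subtype.ext (hT.comm _ a.2 _ b.2) }
  obtain ⟨x, hx⟩ := hD.sq hT.P
  have hzz : act A g (φ x) = φ x := by rw [← hx, map_mul, hT.act_g_P]
  obtain ⟨s, hs⟩ := hD.sq hT.S
  have hs' : s = 0 ∨ s = vC := hD.theta_fixed hT (by rw [← hs, map_mul, hT.act_theta_S])
  have hgs : act A g (φ s) = φ s := by
    rw [hD.gee]; rcases hs' with rfl | rfl <;> rfl
  have hz : hT.z * hT.z = φ s := by
    have := congrArg (act A g) hT.act_g_z
    rw [hT.act_gg, map_inv] at this
    rw [this, ← mul_inv_rev, ← map_mul, hs, hgs, hD.inv]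
  have hh : act A (θ * g * θ⁻¹) (φ x) = φ x := by
    rw [← hx, map_mul, hT.act_h_P,
      show hT.z * act A g hT.z * hT.P * (hT.z * act A g hT.z * hT.P) =
        (hT.z * hT.z) * act A g (hT.z * hT.z) * (hT.P * hT.P) by rw [map_mul]; ac_rfl,
      hz, hgs, hD.mul_self, one_mul]
  have hx' : x = 0 ∨ x = vC := by
    rw [hD.h_apply hT] at hh
    rw [hD.gee] at hzz
    have h1 := hD.inj hh
    have h2 := hD.inj hzz
    revert h1 h2; clear hx hh hzz; revert x; decide
  rcases hx' with rfl | rfl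
  · exact hD.false_aux hT hr (hx.trans hD.one)
  -- toggle the lift
  obtain ⟨a, ha⟩ := hD.surj (0, 1, 1)
  set g' := (a : G)⁻¹ * g * (θ * a * θ⁻¹) with hg'
  have hT' : Triple A θ g' := hT.toggle a.2
  have hga : ∀ b : A, act A g' b = act A g b := fun b => by
    rw [hg', show θ * (a : G) * θ⁻¹ = (act A θ a : G) from (coe_act _ _).symm,
      show (a : G)⁻¹ = ((a⁻¹ : A) : G) from rfl, act_mul, act_mul, hT.act_self (act A θ a).2,
      hT.act_self (a⁻¹).2]
  have hD' : FiveData A θ g' φ := ⟨hD.mul, hD.inj, hD.sq, hD.surj, hD.theta,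
    fun y => by rw [hga, hD.gee], fun b h1 h2 => hD.fixg b h1 (by rwa [← hga])⟩
  refine hD'.false_aux hT' hr ?_
  have e : hT'.P = act A g (act A θ a) * hT.P * act A θ a * (a⁻¹ * act A g a⁻¹) := by
    apply Subtype.ext
    have h0 : hT'.P = a⁻¹ * act A g (act A θ a * a⁻¹) * hT.P * act A θ a := by
      apply Subtype.ext
      simp only [Subgroup.coe_mul, coe_act, Subgroup.coe_inv]
      show g' * g' = _
      rw [hg']
      show _ = (a : G)⁻¹ * (g * (θ * a * θ⁻¹ * (a : G)⁻¹) * g⁻¹) * (g * g) * (θ * a * θ⁻¹)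
      group
    rw [h0, map_mul]
    exact congrArg Subtype.val (by ac_rfl)
  rw [e, show act A g (act A θ a) * hT.P * act A θ a * (a⁻¹ * act A g a⁻¹) *
      (act A g (act A θ a) * hT.P * act A θ a * (a⁻¹ * act A g a⁻¹)) =
      act A g (act A θ (a * a)) * (hT.P * hT.P) * act A θ (a * a) * ((a * a)⁻¹ * act A g (a * a)⁻¹) by
    simp only [map_mul, map_inv, mul_inv]; ac_rfl, hx, ha, hD.theta, hD.gee, hD.inv, hD.gee,
    ← hD.mul, ← hD.mul, ← hD.mul, ← hD.mul]
  exact hD.one

end CfsgLib.RadicalRankFour
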