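/-
RadicalRankFour: a rank five section over an abelian group of exponent eight.
-/
import Mathlib
import Cfsg.Agent.Lib.RadicalRankFour.Five

set_option autoImplicit false

namespace CfsgLib.RadicalRankFour

variable {G : Type*} [Group G] {A : Subgroup G} [A.Normal] {θ g : G}

open Triple in
/-- Data: `A` modulo the cyclic group generated by `f` is natural on the elements of exponent four. -/
structure EightData (A : Subgroup G) [A.Normal] (θ g : G) (f : A) (ψ : A → V3) : Prop where
  four : f * f * (f * f) = 1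
  ne : f * f ≠ 1
  fix_theta : act A θ f = f
  fix_g : act A g f = f
  sq : ∀ a : A, a * a ∈ Subgroup.zpowers f
  add : ∀ a b : A, a * a * (a * a) = 1 → b * b * (b * b) = 1 → ψ (a * b) = ψ a + ψ b
  ker : ∀ a : A, a * a * (a * a) = 1 → ψ a = 0 → a ∈ Subgroup.zpowers f
  psi_f : ψ f = 0
  surj : ∀ x, ∃ a : A, a * a = 1 ∧ ψ a = x
  theta : ∀ a : A, a * a * (a * a) = 1 → ψ (act A θ a) = Tt (ψ a)
  gee : ∀ a : A, a * a * (a * a) = 1 → ψ (act A g a) = Tg (ψ a)

open Triple in
/-- An abelian group of exponent eight over a natural module gives a rank five section. -/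
theorem false_of_eight [Finite G] (hr : Cfsg.SectionalPRankLE 2 4 G) (hT : Triple A θ g) {f : A}
    {ψ : A → V3} (hD : EightData A θ g f ψ) : False := by
  classical
  letI : CommGroup A := { (inferInstance : Group A) with
    mul_comm := fun a b => Subtype.ext (hT.comm _ a.2 _ b.2) }
  have hzf : ∀ a, a ∈ Subgroup.zpowers f → act A θ a = a ∧ act A g a = a := by
    rintro a ⟨n, rfl⟩
    simp [map_zpow, hD.fix_theta, hD.fix_g]
  have hz2 : ∀ a, a ∈ Subgroup.zpowers f → a * a * (a * a) = 1 := by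
    rintro a ⟨n, rfl⟩
    show f ^ n * f ^ n * (f ^ n * f ^ n) = 1
    rw [← mul_zpow, ← mul_zpow, hD.four, one_zpow]
  have hzker : ∀ a, a ∈ Subgroup.zpowers f → a * a = 1 → a = 1 ∨ a = f * f := by
    rintro a ha haa
    obtain ⟨n, rfl⟩ := ha
    have h4 : f ^ (4:ℤ) = 1 := by
      rw [show (4:ℤ) = 1 + 1 + (1 + 1) by norm_num, zpow_add, zpow_add, zpow_one]; exact hD.four
    have e : f ^ n = f ^ (n % 4) := by
      conv_lhs => rw [← Int.emod_add_mul_ediv n 4, zpow_add, zpow_mul, h4, one_zpow, mul_one]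
    simp only at haa ⊢
    rw [e] at haa ⊢
    have : n % 4 = 0 ∨ n % 4 = 1 ∨ n % 4 = 2 ∨ n % 4 = 3 := by omega
    rcases this with h | h | h | h <;> rw [h] at haa ⊢
    · exact Or.inl (zpow_zero f)
    · rw [zpow_one] at haa; exact absurd haa hD.ne
    · right; rw [show (2:ℤ) = 1 + 1 by norm_num, zpow_add, zpow_one]
    · rw [← zpow_add, show (3:ℤ) + 3 = 4 + (1 + 1) by norm_num, zpow_add, h4, one_mul, zpow_add,
        zpow_one] at haa
      exact absurd haa hD.ne
  have h4act : ∀ (x : G) (a : A), a * a * (a * a) = 1 →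
      act A x a * act A x a * (act A x a * act A x a) = 1 := by
    intro x a ha; rw [← map_mul, ← map_mul, ha, map_one]
  have h4mul : ∀ a b : A, a * a * (a * a) = 1 → b * b * (b * b) = 1 →
      a * b * (a * b) * (a * b * (a * b)) = 1 := by
    intro a b ha hb
    rw [show a * b * (a * b) * (a * b * (a * b)) = (a * a * (a * a)) * (b * b * (b * b)) by ac_rfl,
      ha, hb, one_mul]
  have h4inv : ∀ a : A, a * a * (a * a) = 1 → a⁻¹ * a⁻¹ * (a⁻¹ * a⁻¹) = 1 := by
    intro a ha; rw [← mul_inv, ← mul_inv, ha, inv_one]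
  have h4sq : ∀ a : A, a * a = 1 → a * a * (a * a) = 1 := fun a ha => by rw [ha, one_mul]
  have hψ1 : ψ 1 = 0 := by
    have := hD.add 1 1 (by simp) (by simp)
    rwa [one_mul, left_eq_add] at this
  have hψinv : ∀ a : A, a * a * (a * a) = 1 → ψ a⁻¹ = ψ a := by
    intro a ha
    have := hD.add a a⁻¹ ha (h4inv a ha)
    rw [mul_inv_cancel, hψ1] at this
    have h2 : ∀ u v : V3, 0 = u + v → v = u := by decide
    exact h2 _ _ this
  -- `g²` has order at most four
  have hP4 : hT.P * hT.P * (hT.P * hT.P) = 1 := by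
    have hq := hzf _ (hD.sq hT.P)
    have hzz := hzf _ (hD.sq hT.z)
    have hS2 : hT.S * hT.S = (hT.P * hT.P) * (hT.P * hT.P) * (hT.P * hT.P) := by
      rw [Triple.S, show hT.P * act A θ hT.P * act A θ (act A θ hT.P) *
        (hT.P * act A θ hT.P * act A θ (act A θ hT.P)) =
        (hT.P * hT.P) * act A θ (hT.P * hT.P) * act A θ (act A θ (hT.P * hT.P)) by
        simp only [map_mul]; ac_rfl, hq.1, hq.1]
    have hz : hT.z * hT.z = (hT.S * hT.S)⁻¹ := by
      rw [← hzz.2, map_mul, hT.act_g_z, mul_inv]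
    have h : (hT.z * hT.z) * (hT.z * hT.z) = 1 := by
      have e := congrArg (fun a => a * a) hT.act_h_P
      have hη : act A (θ * g * θ⁻¹) (hT.P * hT.P) = hT.P * hT.P := by
        rw [hT.act_h, hq.1, hq.1, hq.2, hq.1]
      rw [← map_mul, hη, show hT.z * act A g hT.z * hT.P * (hT.z * act A g hT.z * hT.P) =
        (hT.z * hT.z) * act A g (hT.z * hT.z) * (hT.P * hT.P) by simp only [map_mul]; ac_rfl, hzz.2,
        right_eq_mul] at e
      exact e
    rw [hz, ← mul_inv, inv_eq_one, hS2] at h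
    obtain ⟨q, hq'⟩ : ∃ q, q = hT.P * hT.P := ⟨_, rfl⟩
    rw [← hq'] at h ⊢
    have hq4 : q * q * (q * q) = 1 := hz2 _ (hq' ▸ hD.sq hT.P)
    calc q * q = q * q * (q * q * (q * q)) := by rw [hq4, mul_one]
      _ = q * q * q * (q * q * q) := by ac_rfl
      _ = 1 := h
  -- the coordinates of the lift
  have hτP4 : ∀ x : G, act A x hT.P * act A x hT.P * (act A x hT.P * act A x hT.P) = 1 :=
    fun x => h4act x _ hP4
  have hS4 : hT.S * hT.S * (hT.S * hT.S) = 1 :=
    h4mul _ _ (h4mul _ _ hP4 (hτP4 θ)) (h4act θ _ (hτP4 θ))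
  have hz4 : hT.z * hT.z * (hT.z * hT.z) = 1 := by
    have := h4act g _ (h4inv _ hS4)
    rwa [← hT.act_g_z, hT.act_gg] at this
  have hψP : ψ hT.P = 0 ∨ ψ hT.P = vC := by
    have hS : Tt (ψ hT.S) = ψ hT.S := by rw [← hD.theta _ hS4, hT.act_theta_S]
    have hgS : Tg (ψ hT.S) = ψ hT.S := by
      revert hS; generalize ψ hT.S = u; revert u; decide
    have hz : ψ hT.z = ψ hT.S := by
      rw [← hT.act_gg hT.z, hD.gee _ (h4act g _ hz4), hT.act_g_z, hψinv _ hS4, hgS]
    have h1 : Th (ψ hT.P) = ψ hT.P := by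
      have e : ψ (act A (θ * g * θ⁻¹) hT.P) = Th (ψ hT.P) := by
        rw [hT.act_h, hD.theta _ (h4act g _ (h4act θ _ (hτP4 θ))), hD.gee _ (h4act θ _ (hτP4 θ)),
          hD.theta _ (hτP4 θ), hD.theta _ hP4]
        rfl
      rw [← e, hT.act_h_P, hD.add _ _ (h4mul _ _ hz4 (h4act g _ hz4)) hP4,
        hD.add _ _ hz4 (h4act g _ hz4), hT.act_g_z, hψinv _ hS4, hz,
        show ψ hT.S + ψ hT.S = 0 by generalize ψ hT.S = u; revert u; decide, zero_add]
    have h2 : Tg (ψ hT.P) = ψ hT.P := by rw [← hD.gee _ hP4, hT.act_g_P]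
    revert h1 h2; generalize ψ hT.P = u; revert u; decide
  -- the fixed involution
  have hf4 : f * f * (f * f) = 1 := hD.four
  have hff : f * f ∈ Subgroup.zpowers f := hD.sq f
  have hψff : ψ (f * f) = 0 := by rw [hD.add _ _ hf4 hf4, hD.psi_f, add_zero]
  have hker2 : ∀ a : A, a * a = 1 → ψ a = 0 → a = 1 ∨ a = f * f := fun a ha h =>
    hzker _ (hD.ker a (h4sq a ha) h) ha
  have hdiff : ∀ a b : A, a * a = 1 → b * b = 1 → ψ a = ψ b → a = b ∨ a = b * (f * f) := by
    intro a b ha hb h
    have hab : a * b * (a * b) = 1 := by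
      rw [show a * b * (a * b) = (a * a) * (b * b) by ac_rfl, ha, hb, one_mul]
    rcases hker2 _ hab (by
      rw [hD.add _ _ (h4sq _ ha) (h4sq _ hb), h]; generalize ψ b = u; revert u; decide) with e | e
    · exact Or.inl ((eq_inv_of_mul_eq_one_left e).trans (inv_eq_of_mul_eq_one_right hb))
    · right; rw [← e, show b * (a * b) = a * (b * b) by ac_rfl, hb, mul_one]
  obtain ⟨c, hc, hψc, hcθ⟩ : ∃ c : A, c * c = 1 ∧ ψ c = vC ∧ act A θ c = c := by
    obtain ⟨c, hc, hψc⟩ := hD.surj vC
    refine ⟨c, hc, hψc, ?_⟩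
    rcases hdiff (act A θ c) c (by rw [← map_mul, hc, map_one]) hc
      (by rw [hD.theta _ (h4sq _ hc), hψc]; rfl) with e | e
    · exact e
    · exfalso
      have h := hT.act_theta3 c
      rw [e, map_mul, e, map_mul, map_mul, e, (hzf _ hff).1, (hzf _ hff).1,
        show c * (f * f) * (f * f) * (f * f) = c * (f * f) * ((f * f) * (f * f)) by ac_rfl, hf4,
        mul_one, mul_eq_left] at h
      exact hD.ne h
  have hcg : act A g c = c := by
    rcases hdiff (act A g c) c (by rw [← map_mul, hc, map_one]) hc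
      (by rw [hD.gee _ (h4sq _ hc), hψc]; rfl) with e | e
    · exact e
    · exfalso
      have h := hT.act_ghk c
      have hθf := (hzf _ hff).1
      have hgf := (hzf _ hff).2
      have h1 : act A θ (act A θ (act A g (act A θ c))) = c * (f * f) := by
        rw [hcθ, e, map_mul, hcθ, hθf, map_mul, hcθ, hθf]
      have h2 : act A (θ * g * θ⁻¹) (c * (f * f)) = c := by
        rw [hT.act_h, map_mul, hcθ, hθf, map_mul, hcθ, hθf, map_mul, e, hgf, mul_assoc, hf4, mul_one,
          hcθ]
      rw [h1, h2, e, mul_eq_left] at h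
      exact hD.ne h
  have hPfix : act A θ hT.P = hT.P ∧ act A g hT.P = hT.P := by
    refine ⟨?_, hT.act_g_P⟩
    rcases hψP with h | h
    · exact (hzf _ (hD.ker _ hP4 h)).1
    · have := (hzf _ (hD.ker _ (h4mul _ _ hP4 (h4sq _ hc)) (by
        rw [hD.add _ _ hP4 (h4sq _ hc), h, hψc]; decide))).1
      rwa [map_mul, hcθ, mul_left_inj] at this
  have hS : hT.S = hT.P * hT.P * hT.P := by rw [Triple.S, hPfix.1, hPfix.1]
  have hzS : hT.z = hT.S⁻¹ := by
    rw [← hT.act_gg hT.z, hT.act_g_z, map_inv, hS, map_mul, map_mul, hPfix.2]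
  have hP2 : hT.P * hT.P = 1 := by
    have h := hT.act_h_P
    rw [hT.act_h, hPfix.1, hPfix.1, hPfix.2, hPfix.1, hT.act_g_z, hzS, right_eq_mul, ← mul_inv,
      inv_eq_one, hS] at h
    calc hT.P * hT.P = hT.P * hT.P * (hT.P * hT.P * (hT.P * hT.P)) := by rw [hP4, mul_one]
      _ = hT.P * hT.P * hT.P * (hT.P * hT.P * hT.P) := by ac_rfl
      _ = 1 := h
  have hzP : hT.z = hT.P := by
    rw [hzS, hS, hP2, one_mul]; exact inv_eq_of_mul_eq_one_right hP2
  -- the section
  set h := θ * g * θ⁻¹ with hh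
  have hηf : act A h f = f := by rw [hT.act_h, hD.fix_theta, hD.fix_theta, hD.fix_g, hD.fix_theta]
  let Ω : Subgroup A :=
    { carrier := {a | a * a = 1}
      one_mem' := one_mul 1
      mul_mem' := fun {a b} (ha : a * a = 1) (hb : b * b = 1) => by
        show a * b * (a * b) = 1
        rw [show a * b * (a * b) = (a * a) * (b * b) by ac_rfl, ha, hb, one_mul]
      inv_mem' := fun {a} (ha : a * a = 1) => by
        show a⁻¹ * a⁻¹ = 1; rw [← mul_inv, ha, inv_one] }
  let N₀ : Subgroup A :=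
    { carrier := {a | a * a = 1 ∧ (ψ a = 0 ∨ ψ a = vC)}
      one_mem' := ⟨one_mul 1, Or.inl hψ1⟩
      mul_mem' := fun {a b} ha hb => ⟨Ω.mul_mem ha.1 hb.1, by
        rw [hD.add _ _ (h4sq _ ha.1) (h4sq _ hb.1)]
        rcases ha.2 with e | e <;> rcases hb.2 with e' | e' <;> rw [e, e'] <;> decide⟩
      inv_mem' := fun {a} ha => ⟨Ω.inv_mem ha.1, by rw [hψinv _ (h4sq _ ha.1)]; exact ha.2⟩ }
  let N : Subgroup G := N₀.map A.subtype
  have hN : ∀ {a : A}, a * a = 1 → (ψ a = 0 ∨ ψ a = vC) → (a : G) ∈ N :=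
    fun {a} h1 h2 => ⟨a, ⟨h1, h2⟩, rfl⟩
  let ΩG : Subgroup G := Ω.map A.subtype
  have hψh : ∀ a : A, a * a = 1 → ψ (act A h a) = Th (ψ a) := fun a ha => by
    rw [hT.act_h, hD.theta _ (h4act g _ (h4act θ _ (h4act θ _ (h4sq _ ha)))),
      hD.gee _ (h4act θ _ (h4act θ _ (h4sq _ ha))), hD.theta _ (h4act θ _ (h4sq _ ha)),
      hD.theta _ (h4sq _ ha)]
    rfl
  have hφg : ∀ x, x + Tg x = 0 ∨ x + Tg x = vC := by decide
  have hφh : ∀ x, x + Th x = 0 ∨ x + Th x = vC := by decide
  have hcom : ∀ (x : G) (a : A), x * a * x⁻¹ * (a : G)⁻¹ = ((act A x a * a⁻¹ : A) : G) := by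
    intro x a; rw [Subgroup.coe_mul, Subgroup.coe_inv, coe_act]
  have hmain : ∀ x, (x = g ∨ x = h) → ∀ a : A, (a * a = 1 ∨ a = f) →
      x * (a : G) * x⁻¹ * (a : G)⁻¹ ∈ N := by
    intro x hx a ha
    rw [hcom]
    rcases ha with ha | rfl
    · refine hN (Ω.mul_mem (by show _ = 1; rw [← map_mul, ha, map_one]) (Ω.inv_mem ha)) ?_
      rw [hD.add _ _ (h4act x _ (h4sq _ ha)) (h4inv _ (h4sq _ ha)), hψinv _ (h4sq _ ha)]
      rcases hx with rfl | rfl
      · rw [hD.gee _ (h4sq _ ha), add_comm]; exact hφg _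
      · rw [hψh a ha, add_comm]; exact hφh _
    · have : act A x a = a := by rcases hx with rfl | rfl <;> [exact hD.fix_g; exact hηf]
      rw [this, mul_inv_cancel]; exact one_mem _
  let T : Set G := (ΩG : Set G) ∪ {(f : G), g, h}
  have hTcases : ∀ t ∈ T, (∃ a : A, (a * a = 1 ∨ a = f) ∧ (a : G) = t) ∨ (t = g ∨ t = h) := by
    rintro t ((⟨a, ha, rfl⟩) | rfl | rfl | rfl)
    exacts [Or.inl ⟨a, Or.inl ha, rfl⟩, Or.inl ⟨f, Or.inr rfl, rfl⟩, Or.inr (Or.inl rfl),
      Or.inr (Or.inr rfl)]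
  refine section_false hr T N ?_ ?_ ?_ ?_
  · rintro t ht n ⟨a, ⟨ha, ha'⟩, rfl⟩
    show t * (a : G) * t⁻¹ ∈ N
    rcases hTcases t ht with ⟨b, -, rfl⟩ | hx
    · rw [hT.comm _ b.2 _ a.2, mul_inv_cancel_right]; exact hN ha ha'
    · have := mul_mem (hmain t hx a (Or.inl ha)) (hN ha ha')
      rwa [inv_mul_cancel_right] at this
  · intro t ht
    rcases hTcases t ht with ⟨b, hb, rfl⟩ | rfl | rfl
    · rw [← Subgroup.coe_mul]
      rcases hb with hb | rfl
      · rw [hb]; exact one_mem _
      · exact hN (hD.four) (Or.inl hψff)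
    · exact hN (a := hT.P) hP2 hψP
    · rw [hh, hT.h_sq, hPfix.1]; exact hN hP2 hψP
  · intro s hs t ht
    rcases hTcases s hs with ⟨a, ha, rfl⟩ | hsx <;> rcases hTcases t ht with ⟨b, hb, rfl⟩ | htx
    · rw [hT.comm _ a.2 _ b.2, mul_inv_cancel_right, mul_inv_cancel]; exact one_mem _
    · rw [show ∀ a b : G, a * b * a⁻¹ * b⁻¹ = (b * a * b⁻¹ * a⁻¹)⁻¹ by intros; group]
      exact inv_mem (hmain t htx a ha)
    · exact hmain s hsx b hb
    · have hz : (hT.z : G) ∈ N := by rw [hzP]; exact hN hP2 hψP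
      rcases hsx with rfl | rfl <;> rcases htx with rfl | rfl
      · simp
      · rw [show ∀ a b : G, a * b * a⁻¹ * b⁻¹ = (b * a * b⁻¹ * a⁻¹)⁻¹ by intros; group]
        exact inv_mem hz
      · exact hz
      · simp
  · have hN4 : Nat.card N ≤ 4 := by
      rw [Subgroup.card_map_of_injective A.subtype_injective]
      calc Nat.card N₀ ≤ Nat.card (({1, f * f, c, c * (f * f)} : Finset A) : Set A) :=
            Nat.card_mono (Finset.finite_toSet _) fun a ha => by
              obtain ⟨h1, h2 | h2⟩ := ha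
              · rcases hker2 a h1 h2 with e | e <;> simp [e]
              · rcases hdiff a c h1 hc (h2.trans hψc.symm) with e | e <;> simp [e]
        _ ≤ 4 := by simpa using Finset.card_le_four
    have hΩ : 16 ≤ Nat.card ΩG := by
      rw [Subgroup.card_map_of_injective A.subtype_injective]
      choose s hs1 hs2 using hD.surj
      let e : Bool × V3 → Ω := fun p => ⟨s p.2 * (if p.1 then f * f else 1),
        Ω.mul_mem (hs1 _) (by cases p.1 <;> [exact one_mul 1; exact hD.four])⟩
      have he : Function.Injective e := by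
        rintro ⟨b, x⟩ ⟨b', x'⟩ h
        have h' := congrArg Subtype.val h
        simp only [e] at h'
        have hx : x = x' := by
          have := congrArg ψ h'
          rwa [hD.add _ _ (h4sq _ (hs1 _)) (by cases b <;> simp [h4sq _ hf4]),
            hD.add _ _ (h4sq _ (hs1 _)) (by cases b' <;> simp [h4sq _ hf4]),
            show ψ (if b = true then f * f else 1) = 0 by cases b <;> simp [hψ1, hψff],
            show ψ (if b' = true then f * f else 1) = 0 by cases b' <;> simp [hψ1, hψff],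
            add_zero, add_zero, hs2, hs2] at this
        subst hx
        rw [mul_right_inj] at h'
        cases b <;> cases b' <;> simp [hD.ne, Ne.symm hD.ne] at h' ⊢
      simpa using Nat.card_le_card_of_injective e he
    let f₁ : Bool × Bool × Bool → G := fun b =>
      (if b.1 then (f : G) else 1) * ((if b.2.1 then g else 1) * (if b.2.2 then h else 1))
    let F : Bool → Bool → V3 → V3 := fun b₂ b₃ x =>
      (if b₂ then Tg else id) ((if b₃ then Th else id) x)
    have hF : ∀ a b a' b', (∀ x, F a b x = F a' b' x) → a = a' ∧ b = b' := by decide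
    have hfx : ∀ b, ∀ a : A, a * a = 1 → ψ (act A (f₁ b) a) = F b.2.1 b.2.2 (ψ a) := by
      rintro ⟨b₁, b₂, b₃⟩ a ha
      have hha : act A h a * act A h a = 1 := by rw [← map_mul, ha, map_one]
      cases b₁ <;> cases b₂ <;> cases b₃ <;>
        simp [f₁, F, act_mul, act_one, hD.gee _ (h4sq _ ha), hψh a ha, hD.gee _ (h4sq _ hha),
          hT.act_self f.2]
    have hmf : ∀ b₂ b₃ : Bool, act A ((if b₂ then g else 1) * (if b₃ then h else 1)) f = f := by
      intro b₂ b₃; cases b₂ <;> cases b₃ <;> simp [act_mul, act_one, hD.fix_g, hηf]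
    have h2 := card_closure_ge (Subgroup.closure T ⊔ N) ΩG
      (fun _ hn => Subgroup.mem_sup_left (Subgroup.subset_closure (Or.inl hn))) f₁ (fun b => by
        refine Subgroup.mem_sup_left (mul_mem ?_ (mul_mem ?_ ?_))
        all_goals split_ifs
        all_goals first
          | exact one_mem _
          | exact Subgroup.subset_closure (Or.inr (by simp))) (by
        rintro i j ⟨w, hw, hw'⟩
        have hw' : (w : G) = (f₁ i)⁻¹ * f₁ j := hw'
        have hj : f₁ j = f₁ i * (w : G) := by rw [hw']; group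
        have heq : ∀ x, F i.2.1 i.2.2 x = F j.2.1 j.2.2 x := fun x => by
          obtain ⟨a, ha, rfl⟩ := hD.surj x
          rw [← hfx i a ha, ← hfx j a ha, hj, act_mul (f₁ i) (w : G), hT.act_self w.2]
        obtain ⟨e2, e3⟩ := hF _ _ _ _ heq
        obtain ⟨i1, i2, i3⟩ := i
        obtain ⟨j1, j2, j3⟩ := j
        obtain rfl : i2 = j2 := e2
        obtain rfl : i3 = j3 := e3
        have hm := congrArg Subtype.val (hmf i2 i3)
        rw [coe_act] at hm
        set m := (if i2 then g else 1) * (if i3 then h else 1) with hm'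
        have hm2 : m⁻¹ * (f : G) * m = f := by
          conv_lhs => rw [← hm]
          group
        have hne : ∀ u : A, u * u = 1 → (f : G) ≠ u := fun u hu e => by
          exact hD.ne (by rw [show f = u from Subtype.ext e]; exact hu)
        cases i1 <;> cases j1
        · rfl
        · exfalso
          have : (f : G) = w := by
            rw [← hm2, hw']; simp only [f₁, Bool.false_eq_true, if_false, if_true]
            rw [← hm']; group
          exact hne w hw this
        · exfalso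
          have : (f : G)⁻¹ = w := by
            rw [hw']; simp only [f₁, Bool.false_eq_true, if_false, if_true]
            rw [← hm', show ((f : G))⁻¹ = (m⁻¹ * (f : G) * m)⁻¹ by rw [hm2]]; group
          exact hne w⁻¹ (Ω.inv_mem hw) (by rw [Subgroup.coe_inv, ← this, inv_inv])
        · rfl)
    rw [show Nat.card (Bool × Bool × Bool) = 8 by simp] at h2
    omega

end CfsgLib.RadicalRankFour
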