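/-
RadicalRankFour: coordinates on a normal section of order eight acted on by a simple group of order 168.
-/
import Mathlib
import Cfsg.Agent.Lib.RadicalRankFour.Eight

set_option autoImplicit false

namespace CfsgLib.RadicalRankFour

/-- The additive map with given images of the basis. -/
def lin3 (a b c : V3) (v : V3) : V3 := v.1 • a + v.2.1 • b + v.2.2 • c

theorem lin3_add (a b c v w : V3) : lin3 a b c (v + w) = lin3 a b c v + lin3 a b c w := by
  simp only [lin3, Prod.fst_add, Prod.snd_add, add_smul]; abel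

theorem V3_add_self (v : V3) : v + v = 0 := by revert v; decide

theorem lin3_of_additive (e : V3 → V3) (he : ∀ v w, e (v + w) = e v + e w) :
    e = lin3 (e (1, 0, 0)) (e (0, 1, 0)) (e (0, 0, 1)) := by
  have h0 : e 0 = 0 := by
    have := he 0 0
    rw [add_zero, V3_add_self] at this
    exact this
  have hv : ∀ v : V3, v = 0 ∨ v = (1, 0, 0) ∨ v = (0, 1, 0) ∨ v = (0, 0, 1) ∨ v = (1, 0, 0) + (0, 1, 0) ∨
      v = (1, 0, 0) + (0, 0, 1) ∨ v = (0, 1, 0) + (0, 0, 1) ∨
      v = (1, 0, 0) + (0, 1, 0) + (0, 0, 1) := by decide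
  funext v
  rcases hv v with rfl | rfl | rfl | rfl | rfl | rfl | rfl | rfl
  all_goals first
    | simp [lin3, h0]; done
    | (rw [he]; simp [lin3]; done)
    | (rw [he, he]; simp [lin3])

/-- The preimage used to write `Tg` as a commutator with `Tt`. -/
def Tw : V3 → V3 := lin3 (1, 0, 0) (1, 1, 0) (0, 0, 1)

/-- Independence of three vectors. -/
def Indep3 (a b c : V3) : Prop := ∀ v, lin3 a b c v = 0 → v = 0

instance (a b c : V3) : Decidable (Indep3 a b c) := by unfold Indep3; infer_instance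

theorem lin3_injective {a b c : V3} (h : Indep3 a b c) : Function.Injective (lin3 a b c) := by
  intro v w e
  have : lin3 a b c (v + w) = 0 := by rw [lin3_add, e, V3_add_self]
  have h2 : ∀ v w : V3, v + w = 0 → v = w := by decide
  exact h2 _ _ (h _ this)

variable {G : Type*} [Group G]

/-- Coordinates on the section `R/N`, with every automorphism induced from the group. -/
structure Coord (R N : Subgroup G) (ν : G → V3) : Prop where
  le : N ≤ R
  mul : ∀ r ∈ R, ∀ s ∈ R, ν (r * s) = ν r + ν s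
  ker : ∀ r ∈ R, ν r = 0 ↔ r ∈ N
  surj : ∀ v, ∃ r ∈ R, ν r = v
  full : ∀ e : V3 → V3, Function.Injective e → (∀ v w, e (v + w) = e v + e w) →
    ∃ x : G, ∀ r ∈ R, ν (x * r * x⁻¹) = e (ν r)

namespace Coord

variable {R N : Subgroup G} {ν : G → V3} (hC : Coord R N ν)
include hC

theorem one : ν 1 = 0 := (hC.ker 1 (one_mem _)).2 (one_mem _)

theorem inv {r : G} (hr : r ∈ R) : ν r⁻¹ = ν r := by
  have := hC.mul r hr r⁻¹ (inv_mem hr)
  rw [mul_inv_cancel, hC.one] at this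
  have h2 : ∀ u v : V3, 0 = u + v → v = u := by decide
  exact h2 _ _ this

theorem eq_iff {r s : G} (hr : r ∈ R) (hs : s ∈ R) : ν r = ν s ↔ r⁻¹ * s ∈ N := by
  rw [← hC.ker _ (mul_mem (inv_mem hr) hs), hC.mul _ (inv_mem hr) _ hs, hC.inv hr]
  generalize ν r = u
  generalize ν s = v
  revert u v; decide

theorem sq_mem {r : G} (hr : r ∈ R) : r * r ∈ N := by
  rw [← hC.ker _ (mul_mem hr hr), hC.mul _ hr _ hr]; exact V3_add_self _

theorem comm_mem {r s : G} (hr : r ∈ R) (hs : s ∈ R) : r * s * r⁻¹ * s⁻¹ ∈ N := by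
  rw [← hC.ker _ (mul_mem (mul_mem (mul_mem hr hs) (inv_mem hr)) (inv_mem hs)),
    hC.mul _ (mul_mem (mul_mem hr hs) (inv_mem hr)) _ (inv_mem hs),
    hC.mul _ (mul_mem hr hs) _ (inv_mem hr), hC.mul _ hr _ hs, hC.inv hr, hC.inv hs]
  generalize ν r = u
  generalize ν s = v
  revert u v; decide

/-- Every element induces an additive bijection. -/
theorem exists_act [R.Normal] [N.Normal] (x : G) :
    ∃ e : V3 → V3, Function.Injective e ∧ (∀ v w, e (v + w) = e v + e w) ∧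
      ∀ r ∈ R, ν (x * r * x⁻¹) = e (ν r) := by
  have hR : R.Normal := inferInstance
  have hN : N.Normal := inferInstance
  choose s hs hs' using hC.surj
  have hwd : ∀ r ∈ R, ν (x * r * x⁻¹) = ν (x * s (ν r) * x⁻¹) := by
    intro r hr
    rw [hC.eq_iff (hR.conj_mem _ hr x) (hR.conj_mem _ (hs _) x),
      show (x * r * x⁻¹)⁻¹ * (x * s (ν r) * x⁻¹) = x * (r⁻¹ * s (ν r)) * x⁻¹ by group]
    exact hN.conj_mem _ ((hC.eq_iff hr (hs _)).1 (hs' _).symm) x
  refine ⟨fun v => ν (x * s v * x⁻¹), ?_, fun v w => ?_, hwd⟩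
  · intro v w h
    simp only at h
    rw [hC.eq_iff (hR.conj_mem _ (hs _) x) (hR.conj_mem _ (hs _) x),
      show (x * s v * x⁻¹)⁻¹ * (x * s w * x⁻¹) = x * ((s v)⁻¹ * s w) * x⁻¹ by group] at h
    have h' := hN.conj_mem' _ h x
    rw [show x⁻¹ * (x * ((s v)⁻¹ * s w) * x⁻¹) * x = (s v)⁻¹ * s w by group,
      ← hC.eq_iff (hs _) (hs _), hs', hs'] at h'
    exact h'
  · simp only
    rw [← hC.mul _ (hR.conj_mem _ (hs v) x) _ (hR.conj_mem _ (hs w) x),
      show x * s v * x⁻¹ * (x * s w * x⁻¹) = x * (s v * s w) * x⁻¹ by group,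
      hwd _ (mul_mem (hs v) (hs w)), hC.mul _ (hs v) _ (hs w), hs', hs']

/-- Realisation of a map given by a basis. -/
theorem realize {a b c : V3} (h : Indep3 a b c) :
    ∃ x : G, ∀ r ∈ R, ν (x * r * x⁻¹) = lin3 a b c (ν r) :=
  hC.full _ (lin3_injective h) (lin3_add a b c)

/-- An element sending the first two basis vectors to an independent pair. -/
theorem trans_two {a b : V3} (ha : a ≠ 0) (hb : b ≠ 0) (hab : a ≠ b) :
    ∃ (x : G) (e : V3 → V3), (∀ r ∈ R, ν (x * r * x⁻¹) = e (ν r)) ∧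
      (∀ v w, e (v + w) = e v + e w) ∧ e (1, 0, 0) = a ∧ e (0, 1, 0) = b := by
  have key : ∀ a b : V3, a ≠ 0 → b ≠ 0 → a ≠ b → ∃ c, Indep3 a b c := by decide
  obtain ⟨c, h⟩ := key a b ha hb hab
  obtain ⟨x, hx⟩ := hC.realize h
  exact ⟨x, _, hx, lin3_add a b c, by simp [lin3], by simp [lin3]⟩

/-- The same with an arbitrary starting pair. -/
theorem trans_pair {a b a' b' : V3} (ha : a ≠ 0) (hb : b ≠ 0) (hab : a ≠ b) (ha' : a' ≠ 0)
    (hb' : b' ≠ 0) (hab' : a' ≠ b') [R.Normal] [N.Normal] :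
    ∃ (x : G) (e : V3 → V3), (∀ r ∈ R, ν (x * r * x⁻¹) = e (ν r)) ∧ e a = a' ∧ e b = b' := by
  have hR : R.Normal := inferInstance
  obtain ⟨x, e, hx, -, hxa, hxb⟩ := hC.trans_two ha hb hab
  obtain ⟨y, f, hy, -, hya, hyb⟩ := hC.trans_two ha' hb' hab'
  obtain ⟨k, -, -, hk⟩ := hC.exists_act x⁻¹
  obtain ⟨s, hs, hse⟩ := hC.surj (1, 0, 0)
  obtain ⟨u, hu, hue⟩ := hC.surj (0, 1, 0)
  have h1 : ∀ r ∈ R, ν (x⁻¹ * (x * r * x⁻¹) * x⁻¹⁻¹) = ν r := fun r _ => by group
  refine ⟨y * x⁻¹, fun v => f (k v), fun r hr => ?_, ?_, ?_⟩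
  · rw [show y * x⁻¹ * r * (y * x⁻¹)⁻¹ = y * (x⁻¹ * r * x⁻¹⁻¹) * y⁻¹ by group,
      hy _ (hR.conj_mem _ hr _), hk r hr]
  · have := h1 s hs
    rw [hk _ (hR.conj_mem _ hs _), hx s hs, hse, hxa] at this
    show f (k a) = a'
    rw [this]; exact hya
  · have := h1 u hu
    rw [hk _ (hR.conj_mem _ hu _), hx u hu, hue, hxb] at this
    show f (k b) = b'
    rw [this]; exact hyb

/-- An element sending a nonzero vector to another one. -/
theorem trans_one [R.Normal] [N.Normal] {a b : V3} (ha : a ≠ 0) (hb : b ≠ 0) :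
    ∃ (x : G) (e : V3 → V3), (∀ r ∈ R, ν (x * r * x⁻¹) = e (ν r)) ∧ e a = b := by
  have key : ∀ a : V3, ∃ a', a' ≠ 0 ∧ a ≠ a' := by decide
  obtain ⟨a', h1, h2⟩ := key a
  obtain ⟨b', h3, h4⟩ := key b
  obtain ⟨x, e, hx, he, -⟩ := hC.trans_pair ha h1 h2 hb h3 h4
  exact ⟨x, e, hx, he⟩

omit hC in
/-- Two maps inducing the same map on the section. -/
theorem act_unique (hC : Coord R N ν) {x : G} {e f : V3 → V3}
    (he : ∀ r ∈ R, ν (x * r * x⁻¹) = e (ν r)) (hf : ∀ r ∈ R, ν (x * r * x⁻¹) = f (ν r)) : e = f := by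
  funext v
  obtain ⟨r, hr, rfl⟩ := hC.surj v
  rw [← he r hr, hf r hr]

theorem full_comp [R.Normal] {x y : G} {e f : V3 → V3}
    (he : ∀ r ∈ R, ν (x * r * x⁻¹) = e (ν r)) (hf : ∀ r ∈ R, ν (y * r * y⁻¹) = f (ν r)) :
    ∀ r ∈ R, ν (x * y * r * (x * y)⁻¹) = e (f (ν r)) := by
  intro r hr
  have hR : R.Normal := inferInstance
  rw [show x * y * r * (x * y)⁻¹ = x * (y * r * y⁻¹) * x⁻¹ by group, he _ (hR.conj_mem _ hr _), hf r hr]

end Coord

/-- An invariant additive map of the natural module into the trivial module vanishes. -/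
theorem hom_trivial {R N : Subgroup G} [R.Normal] [N.Normal] {ν : G → V3} (hC : Coord R N ν) (f : V3 → ZMod 2)
    (hadd : ∀ v w, f (v + w) = f v + f w)
    (hinv : ∀ (x : G) (e : V3 → V3), (∀ r ∈ R, ν (x * r * x⁻¹) = e (ν r)) → ∀ v, f (e v) = f v) :
    ∀ v, f v = 0 := by
  intro v
  have h0 : f 0 = 0 := by
    have := hadd 0 0
    rw [add_zero] at this
    exact left_eq_add.1 this
  rcases eq_or_ne v 0 with rfl | hv
  · exact h0
  have hc : ∀ w : V3, w ≠ 0 → f w = f (1, 0, 0) := by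
    intro w hw
    obtain ⟨x, e, hx, he⟩ := hC.trans_one (a := (1, 0, 0)) (by decide) hw
    rw [← he]; exact hinv x e hx _
  have := hadd (1, 0, 0) (0, 1, 0)
  rw [hc _ (by decide), hc (0, 1, 0) (by decide)] at this
  rw [hc v hv]
  exact left_eq_add.1 this

/-- The group of additive permutations of the coordinates has at most 168 elements. -/
theorem card_additive_le :
    Nat.card {e : Equiv.Perm V3 // ∀ v w, e (v + w) = e v + e w} ≤ 168 := by
  classical
  let S := {p : V3 × V3 × V3 // Indep3 p.1 p.2.1 p.2.2}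
  have hS : Nat.card S = 168 := by
    rw [Nat.card_eq_fintype_card]; decide +kernel
  rw [← hS]
  refine Nat.card_le_card_of_injective (fun e => (⟨(e.1 (1, 0, 0), e.1 (0, 1, 0), e.1 (0, 0, 1)), ?_⟩ : S)) ?_
  · intro v hv
    have h := congrFun (lin3_of_additive _ e.2) v
    simp only at h hv
    rw [hv] at h
    have h0 : e.1 0 = 0 := by
      have := e.2 0 0
      rw [add_zero, V3_add_self] at this
      exact this
    exact e.1.injective (h.trans h0.symm)
  · intro e f h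
    replace h := congrArg Subtype.val h
    simp only [Prod.mk.injEq] at h
    refine Subtype.ext (Equiv.ext fun v => ?_)
    rw [lin3_of_additive _ e.2, lin3_of_additive _ f.2, h.1, h.2.1, h.2.2]

variable [Finite G] {L : Type*} [Group L]

/-- Coordinates on a section of order eight with nontrivial action. -/
theorem coord_of_section [IsSimpleGroup L] (hL : Nat.card L = 168) (π : G →* L)
    (hπ : Function.Surjective π) (R N : Subgroup G) [R.Normal] [N.Normal] (hle : N ≤ R)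
    (hcard : Nat.card R = 8 * Nat.card N) (hsq : ∀ r ∈ R, r * r ∈ N)
    (hQ : ∀ x ∈ π.ker, ∀ r ∈ R, x * r * x⁻¹ * r⁻¹ ∈ N)
    (hne : ∃ x : G, ∃ r ∈ R, x * r * x⁻¹ * r⁻¹ ∉ N) : ∃ ν : G → V3, Coord R N ν := by
  classical
  have hR : R.Normal := inferInstance
  let W := ↥R ⧸ N.subgroupOf R
  let mk : ↥R →* W := QuotientGroup.mk' _
  have hmk : ∀ r : ↥R, mk r = 1 ↔ (r : G) ∈ N := fun r => QuotientGroup.eq_one_iff r
  have hexp : ∀ w : W, w * w = 1 := by
    intro w
    obtain ⟨r, rfl⟩ := QuotientGroup.mk'_surjective _ w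
    rw [← map_mul]; exact (hmk _).2 (hsq _ r.2)
  have hcomm : ∀ a b : W, a * b = b * a := fun a b => by
    have := hexp (a * b)
    calc a * b = (a * b)⁻¹ := eq_inv_of_mul_eq_one_left this
      _ = b⁻¹ * a⁻¹ := mul_inv_rev _ _
      _ = b * a := by rw [inv_eq_of_mul_eq_one_right (hexp a), inv_eq_of_mul_eq_one_right (hexp b)]
  letI : CommGroup W := { (inferInstance : Group W) with mul_comm := hcomm }
  letI : Module (ZMod 2) (Additive W) := AddCommGroup.zmodModule (fun w => by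
    rw [two_nsmul]; exact congrArg Additive.ofMul (hexp (Additive.toMul w)))
  have hW : Nat.card W = 8 := by
    have h1 := Subgroup.card_eq_card_quotient_mul_card_subgroup (N.subgroupOf R)
    rw [Nat.card_congr (Subgroup.subgroupOfEquivOfLe hle).toEquiv, hcard] at h1
    exact (Nat.mul_right_cancel Nat.card_pos h1).symm
  haveI : Fintype W := Fintype.ofFinite _
  haveI : Module.Finite (ZMod 2) (Additive W) := Module.Finite.of_finite
  have hfr : Module.finrank (ZMod 2) (Additive W) = Module.finrank (ZMod 2) V3 := by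
    have h1 : Nat.card (Additive W) = Nat.card (ZMod 2) ^ Module.finrank (ZMod 2) (Additive W) :=
      Module.natCard_eq_pow_finrank
    rw [show Nat.card (Additive W) = 8 from hW, Nat.card_zmod] at h1
    have h2 : Module.finrank (ZMod 2) V3 = 3 := by simp [V3]
    rw [h2]
    exact Nat.pow_right_injective (le_refl 2) (h1.symm.trans (by norm_num : (8:ℕ) = 2 ^ 3))
  let ε : Additive W ≃ₗ[ZMod 2] V3 := LinearEquiv.ofFinrankEq _ _ hfr
  let μ : W → V3 := fun w => ε (Additive.ofMul w)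
  have μmul : ∀ a b, μ (a * b) = μ a + μ b := fun a b => map_add ε (Additive.ofMul a) (Additive.ofMul b)
  have μinj : Function.Injective μ := fun a b h => Additive.ofMul.injective (ε.injective h)
  let ν : G → V3 := fun g => if h : g ∈ R then μ (mk ⟨g, h⟩) else 0
  have hν : ∀ {g} (h : g ∈ R), ν g = μ (mk ⟨g, h⟩) := fun {g} h => dif_pos h
  have hsurj : ∀ v, ∃ r ∈ R, ν r = v := fun v => by
    obtain ⟨r, hr⟩ := QuotientGroup.mk'_surjective _ (Additive.toMul (ε.symm v))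
    exact ⟨r, r.2, by rw [hν r.2]; show μ (mk r) = v; rw [show mk r = _ from hr]; exact ε.apply_symm_apply v⟩
  have hmul : ∀ r ∈ R, ∀ s ∈ R, ν (r * s) = ν r + ν s := fun r hr s hs => by
    rw [hν (mul_mem hr hs), hν hr, hν hs, ← μmul, ← map_mul]; rfl
  have μone : μ 1 = 0 := map_zero ε
  have hker : ∀ r ∈ R, ν r = 0 ↔ r ∈ N := fun r hr => by
    rw [hν hr, ← μone, μinj.eq_iff, hmk]
  -- the permutation representation
  let c : G →* MulAut W :=
    { toFun := fun x => QuotientGroup.congr _ _ (MulAut.conjNormal (H := R) x) (by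
        ext y
        rw [Subgroup.mem_map, Subgroup.mem_subgroupOf]
        constructor
        · rintro ⟨z, hz, rfl⟩
          rw [Subgroup.mem_subgroupOf] at hz
          show ((MulAut.conjNormal x z : R) : G) ∈ N
          rw [MulAut.conjNormal_apply]
          exact Subgroup.Normal.conj_mem inferInstance _ hz x
        · intro hy
          refine ⟨(MulAut.conjNormal (H := R) x).symm y, ?_, MulEquiv.apply_symm_apply _ _⟩
          rw [Subgroup.mem_subgroupOf, MulAut.conjNormal_symm_apply]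
          exact Subgroup.Normal.conj_mem' inferInstance _ hy x)
      map_one' := MulEquiv.ext fun w => by
        induction w using QuotientGroup.induction_on with
        | _ a => show QuotientGroup.mk (MulAut.conjNormal (1 : G) a) = _; rw [map_one]; rfl
      map_mul' := fun x y => MulEquiv.ext fun w => by
        induction w using QuotientGroup.induction_on with
        | _ a => show QuotientGroup.mk (MulAut.conjNormal (x * y) a) = _; rw [map_mul]; rfl }
  have hc : ∀ (x : G) {r : G} (hr : r ∈ R), c x (mk ⟨r, hr⟩) = mk ⟨x * r * x⁻¹, hR.conj_mem r hr x⟩ :=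
    fun x r hr => congrArg QuotientGroup.mk (Subtype.ext (MulAut.conjNormal_apply x ⟨r, hr⟩))
  have hker' : π.ker ≤ c.ker := fun x hx => by
    rw [MonoidHom.mem_ker]
    refine MulEquiv.ext fun w => ?_
    obtain ⟨⟨r, hr⟩, rfl⟩ := QuotientGroup.mk'_surjective _ w
    show c x (mk ⟨r, hr⟩) = mk ⟨r, hr⟩
    rw [hc, ← mul_inv_eq_one, ← map_inv, ← map_mul, hmk]
    exact hQ x hx r hr
  let ρ : L →* MulAut W := MonoidHom.liftOfSurjective π hπ ⟨c, hker'⟩
  have hρ : ∀ x, ρ (π x) = c x := fun x =>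
    MonoidHom.liftOfRightInverse_comp_apply π _ (Function.rightInverse_surjInv hπ) ⟨c, hker'⟩ x
  have hinj : Function.Injective ρ := by
    rw [← MonoidHom.ker_eq_bot_iff]
    rcases IsSimpleGroup.eq_bot_or_eq_top_of_normal ρ.ker inferInstance with h | h
    · exact h
    · exfalso
      obtain ⟨x, r, hr, hxr⟩ := hne
      apply hxr
      have h1 : c x = 1 := by rw [← hρ]; exact MonoidHom.mem_ker.1 (h ▸ Subgroup.mem_top _)
      have h2 := congrArg (fun φ : MulAut W => φ (mk ⟨r, hr⟩)) h1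
      simp only [MulAut.one_apply] at h2
      rw [hc, ← mul_inv_eq_one, ← map_inv, ← map_mul, hmk] at h2
      exact h2
  -- additive permutations of `V3`
  let toP : MulAut W → {e : Equiv.Perm V3 // ∀ v w, e (v + w) = e v + e w} := fun φ =>
    ⟨(ε.symm.toEquiv.trans (Additive.toMul.trans (φ.toEquiv.trans Additive.ofMul))).trans ε.toEquiv,
      fun v w => by
        show ε (Additive.ofMul (φ (Additive.toMul (ε.symm (v + w))))) = _
        rw [map_add, toMul_add, map_mul, ofMul_mul, map_add]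
        rfl⟩
  have toPinj : Function.Injective toP := fun φ φ' h => by
    refine MulEquiv.ext fun w => ?_
    have := congrArg (fun e : {e : Equiv.Perm V3 // ∀ v w, e (v + w) = e v + e w} =>
      e.1 (ε (Additive.ofMul w))) h
    simpa [toP] using this
  have hsurjP : Function.Surjective (toP ∘ ρ) := by
    refine Function.Surjective.of_comp (g := id) ?_
    have hb := (toPinj.comp hinj).bijective_of_nat_card_le (by rw [hL]; exact card_additive_le)
    exact hb.2
  refine ⟨ν, hle, hmul, hker, hsurj, fun e he hadd => ?_⟩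
  obtain ⟨l, hl⟩ := hsurjP ⟨Equiv.ofBijective e (Finite.injective_iff_bijective.1 he), hadd⟩
  obtain ⟨x, rfl⟩ := hπ l
  refine ⟨x, fun r hr => ?_⟩
  have := congrArg (fun E : {e : Equiv.Perm V3 // ∀ v w, e (v + w) = e v + e w} => E.1 (ν r)) hl
  simp only [Function.comp, hρ, Equiv.ofBijective_apply] at this
  rw [← this, hν hr, hν (hR.conj_mem r hr x)]
  show μ _ = ε (Additive.ofMul (c x (Additive.toMul (ε.symm (ε (Additive.ofMul _))))))
  rw [LinearEquiv.symm_apply_apply, toMul_ofMul, hc x hr]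

/-- A lift of order dividing three of an element of order dividing three. -/
theorem lift_cube (Q : Subgroup G) (hQ : IsPGroup 2 Q) (x : G) (hx : x * x * x ∈ Q) :
    ∃ θ : G, θ * θ * θ = 1 ∧ ∃ q ∈ Q, θ = x * q := by
  obtain ⟨k, hk⟩ := hQ ⟨x * x * x, hx⟩
  have hk' : (x * x * x) ^ (2 ^ k) = 1 := congrArg Subtype.val hk
  refine ⟨x ^ (4 ^ k), ?_, ?_⟩
  · rw [← pow_add, ← pow_add, show 4 ^ k + 4 ^ k + 4 ^ k = 3 * (2 ^ k * 2 ^ k) by
      rw [← Nat.mul_pow]; ring, pow_mul, pow_mul, show x ^ 3 = x * x * x by rw [pow_three, mul_assoc],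
      hk', one_pow]
  · obtain ⟨m, hm⟩ : ∃ m, 4 ^ k = 3 * m + 1 := ⟨4 ^ k / 3, by
      have : 4 ^ k % 3 = 1 := by rw [Nat.pow_mod]; simp
      omega⟩
    refine ⟨(x * x * x) ^ m, pow_mem hx m, ?_⟩
    rw [hm, pow_succ', pow_mul, pow_three, mul_assoc]

/-- An element of order three and a commutator inducing the standard matrices. -/
theorem Coord.exists_theta_g {R N : Subgroup G} {ν : G → V3} [R.Normal] [N.Normal] (hC : Coord R N ν)
    (π : G →* L) (hQp : IsPGroup 2 π.ker) (hQ : ∀ x ∈ π.ker, ∀ r ∈ R, x * r * x⁻¹ * r⁻¹ ∈ N)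
    (hfaith : ∀ x, (∀ r ∈ R, x * r * x⁻¹ * r⁻¹ ∈ N) → x ∈ π.ker) :
    ∃ θ g₀ : G, θ * θ * θ = 1 ∧ (∀ r ∈ R, ν (θ * r * θ⁻¹) = Tt (ν r)) ∧
      (∀ r ∈ R, ν ((g₀⁻¹ * θ * g₀ * θ⁻¹) * r * (g₀⁻¹ * θ * g₀ * θ⁻¹)⁻¹) = Tg (ν r)) ∧
      g₀⁻¹ * θ * g₀ * θ⁻¹ * (g₀⁻¹ * θ * g₀ * θ⁻¹) ∈ π.ker := by
  have hR : R.Normal := inferInstance
  obtain ⟨x, hx⟩ := hC.realize (a := (1, 0, 0)) (b := (0, 0, 1)) (c := (0, 1, 1)) (by decide)
  have hl : lin3 (1, 0, 0) (0, 0, 1) (0, 1, 1) = Tt := by funext v; revert v; decide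
  rw [hl] at hx
  have htriv : ∀ y, (∀ r ∈ R, ν (y * r * y⁻¹) = ν r) → y ∈ π.ker := fun y hy => hfaith y fun r hr => by
    rw [← hC.ker _ (mul_mem (hR.conj_mem r hr y) (inv_mem hr)),
      hC.mul _ (hR.conj_mem r hr y) _ (inv_mem hr), hy r hr, hC.inv hr]
    exact V3_add_self _
  have hxx : ∀ r ∈ R, ν (x * x * r * (x * x)⁻¹) = (fun v => Tt (Tt v)) (ν r) := hC.full_comp hx hx
  obtain ⟨θ, hθ, q, hq, hθq⟩ := lift_cube π.ker hQp x (htriv _ fun r hr => by
    rw [hC.full_comp (e := fun v => Tt (Tt v)) (f := Tt) hxx hx r hr]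
    generalize ν r = u; revert u; decide)
  have hθ' : ∀ r ∈ R, ν (θ * r * θ⁻¹) = Tt (ν r) := by
    intro r hr
    have hq' : ∀ r ∈ R, ν (q * r * q⁻¹) = id (ν r) := fun r hr => by
      rw [id_eq, eq_comm, hC.eq_iff hr (hR.conj_mem r hr q)]
      have h := Subgroup.Normal.conj_mem' (inferInstance : N.Normal) _ (hQ q hq r hr) r
      rwa [show r⁻¹ * (q * r * q⁻¹ * r⁻¹) * r = r⁻¹ * (q * r * q⁻¹) by group] at h
    rw [hθq, hC.full_comp hx hq' r hr, id_eq]
  obtain ⟨g₀, hg₀⟩ := hC.realize (a := (1, 0, 0)) (b := (1, 1, 0)) (c := (0, 0, 1)) (by decide)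
  obtain ⟨k, -, -, hk⟩ := hC.exists_act g₀⁻¹
  obtain ⟨m, -, -, hm⟩ := hC.exists_act θ⁻¹
  have hkinv : ∀ v, k (Tw v) = v := fun v => by
    obtain ⟨r, hr, rfl⟩ := hC.surj v
    have := hC.full_comp hk hg₀ r hr
    rw [inv_mul_cancel, inv_one, one_mul, mul_one] at this
    exact this.symm
  have hminv : ∀ v, m (Tt v) = v := fun v => by
    obtain ⟨r, hr, rfl⟩ := hC.surj v
    have := hC.full_comp hm hθ' r hr
    rw [inv_mul_cancel, inv_one, one_mul, mul_one] at this
    exact this.symm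
  have hg : ∀ r ∈ R, ν ((g₀⁻¹ * θ * g₀ * θ⁻¹) * r * (g₀⁻¹ * θ * g₀ * θ⁻¹)⁻¹) = Tg (ν r) := by
    intro r hr
    have h1 : ∀ r ∈ R, ν (g₀⁻¹ * θ * r * (g₀⁻¹ * θ)⁻¹) = (fun v => k (Tt v)) (ν r) := hC.full_comp hk hθ'
    have h2 : ∀ r ∈ R, ν (g₀⁻¹ * θ * g₀ * r * (g₀⁻¹ * θ * g₀)⁻¹) = (fun v => k (Tt (Tw v))) (ν r) :=
      hC.full_comp (e := fun v => k (Tt v)) (f := Tw) h1 hg₀
    rw [hC.full_comp (e := fun v => k (Tt (Tw v))) (f := m) h2 hm r hr]
    show k (Tt (Tw (m (ν r)))) = _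
    obtain ⟨u, hu⟩ : ∃ u, Tt u = ν r := ⟨Tt (Tt (ν r)), by generalize ν r = u; revert u; decide⟩
    rw [← hu, hminv, show Tt (Tw u) = Tw (Tg (Tt u)) by clear hu; revert u; decide, hkinv]
  refine ⟨θ, g₀, hθ, hθ', hg, htriv _ fun r hr => ?_⟩
  rw [hC.full_comp hg hg r hr]
  generalize ν r = u; revert u; decide

end CfsgLib.RadicalRankFour
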