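/-
RadicalRankFour: squares and commutators over natural and trivial modules of the group of order 168.
-/
import Mathlib
import Cfsg.Agent.Lib.RadicalRankFour.Coord

set_option autoImplicit false

namespace CfsgLib.RadicalRankFour

variable {G : Type*} [Group G]

section
variable {R N : Subgroup G} [R.Normal] [N.Normal] {ν : G → V3}

/-- Squares with values in a natural module: trivial, or bijective and additive. -/
theorem natural_sq (hC : Coord R N ν) {Z : Subgroup G} [Z.Normal] {ζ : G → V3} (hZ : Coord Z ⊥ ζ)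
    (hNc : ∀ n ∈ N, ∀ r ∈ R, n * r = r * n) (hN2 : ∀ n ∈ N, n * n = 1)
    (hsq : ∀ r ∈ R, r * r ∈ Z) :
    (∀ r ∈ R, r * r = 1) ∨
      ((∀ r ∈ R, ∀ s ∈ R, r * s = s * r) ∧ ∀ r ∈ R, r * r = 1 → r ∈ N) := by
  have hR : R.Normal := inferInstance
  choose s hs hs' using hC.surj
  let q : V3 → V3 := fun v => ζ (s v * s v)
  have hq : ∀ r ∈ R, ζ (r * r) = q (ν r) := by
    intro r hr
    have hn := (hC.eq_iff (hs _) hr).1 (hs' (ν r))
    show _ = ζ (s (ν r) * s (ν r))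
    congr 1
    have e : r = s (ν r) * ((s (ν r))⁻¹ * r) := by group
    generalize (s (ν r))⁻¹ * r = n at hn e
    rw [e]
    rw [show ν (s (ν r) * n) = ν r from e ▸ rfl]
    calc s (ν r) * n * (s (ν r) * n) = s (ν r) * (n * s (ν r)) * n := by group
      _ = s (ν r) * s (ν r) * (n * n) := by rw [hNc n hn _ (hs _)]; group
      _ = s (ν r) * s (ν r) := by rw [hN2 n hn, mul_one]
  have hq0 : q 0 = 0 := by
    have := hq 1 (one_mem _)
    rw [hC.one, one_mul, hZ.one] at this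
    exact this.symm
  have heq : ∀ (x : G) (e e' : V3 → V3), (∀ r ∈ R, ν (x * r * x⁻¹) = e (ν r)) →
      (∀ z ∈ Z, ζ (x * z * x⁻¹) = e' (ζ z)) → ∀ v, q (e v) = e' (q v) := by
    intro x e e' he he' v
    obtain ⟨r, hr, rfl⟩ := hC.surj v
    rw [← he r hr, ← hq _ (hR.conj_mem _ hr x), ← hq r hr, ← he' _ (hsq r hr)]
    congr 1
    group
  have hz1 : ∀ r ∈ R, q (ν r) = 0 → r * r = 1 := fun r hr h => by
    rw [← hq r hr, hZ.ker _ (hsq r hr), Subgroup.mem_bot] at h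
    exact h
  by_cases hall : ∀ v, q v = 0
  · exact Or.inl fun r hr => hz1 r hr (hall _)
  right
  push Not at hall
  obtain ⟨v₀, hv₀⟩ := hall
  have hv0 : v₀ ≠ 0 := fun h => hv₀ (h ▸ hq0)
  have hqsurj : ∀ w, w ≠ 0 → ∃ v, q v = w := by
    intro w hw
    obtain ⟨x, e', hx, he'⟩ := hZ.trans_one hv₀ hw
    obtain ⟨e, -, -, he⟩ := hC.exists_act x
    exact ⟨e v₀, by rw [heq x e e' he hx, he']⟩
  have hqne : ∀ v, v ≠ 0 → q v ≠ 0 := by
    intro v hv h
    obtain ⟨x, e, hx, he⟩ := hC.trans_one hv hv0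
    obtain ⟨e', -, hadd, he'⟩ := hZ.exists_act x
    have h0 : e' 0 = 0 := by
      have := hadd 0 0
      rw [add_zero] at this
      exact left_eq_add.1 this
    exact hv₀ (by rw [← he, heq x e e' hx he', h, h0])
  have hqinj : Function.Injective q := by
    have hsur : Function.Surjective q := fun w => by
      rcases eq_or_ne w 0 with rfl | hw
      · exact ⟨0, hq0⟩
      · exact hqsurj w hw
    exact Finite.injective_iff_surjective.2 hsur
  let D : V3 → V3 → V3 := fun a b => q a + q b + q (a + b)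
  have hD0 : D (1, 0, 0) (0, 1, 0) = 0 := by
    by_contra hne
    obtain ⟨d, hd⟩ := hqsurj _ hne
    have hfix : ∀ a b c : V3, Indep3 a b c → D a b = D (1, 0, 0) (0, 1, 0) → lin3 a b c d = d := by
      intro a b c habc hab
      obtain ⟨x, hx⟩ := hC.realize habc
      obtain ⟨e', -, hadd, he'⟩ := hZ.exists_act x
      apply hqinj
      rw [heq x _ e' hx he', hd]
      show e' (q _ + q _ + q _) = q _ + q _ + q _
      rw [hadd, hadd, ← heq x _ e' hx he', ← heq x _ e' hx he', ← heq x _ e' hx he', lin3_add,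
        show lin3 a b c (1, 0, 0) = a by simp [lin3], show lin3 a b c (0, 1, 0) = b by simp [lin3]]
      exact hab
    have h1 := hfix (0, 1, 0) (1, 0, 0) (0, 0, 1) (by decide) (by simp only [D]; rw [add_comm (q (0, 1, 0))]; rfl)
    have h2 := hfix (0, 1, 0) (1, 1, 0) (0, 0, 1) (by decide) (by
      simp only [D]
      rw [show ((0, 1, 0) : V3) + (1, 1, 0) = (1, 0, 0) by decide,
        show ((1, 0, 0) : V3) + (0, 1, 0) = (1, 1, 0) by decide]
      abel)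
    have h3 := hfix (1, 0, 0) (0, 1, 0) (1, 0, 1) (by decide) rfl
    have hd0 : d = 0 := by revert h1 h2 h3; clear hd hfix; revert d; decide
    exact hne (by rw [← hd, hd0, hq0])
  have hadd : ∀ a b, q (a + b) = q a + q b := by
    intro a b
    rcases eq_or_ne a 0 with rfl | ha
    · rw [zero_add, hq0, zero_add]
    rcases eq_or_ne b 0 with rfl | hb
    · rw [add_zero, hq0, add_zero]
    rcases eq_or_ne a b with rfl | hab
    · rw [V3_add_self, hq0, V3_add_self]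
    obtain ⟨x, e, hx, headd, hea, heb⟩ := hC.trans_two ha hb hab
    obtain ⟨e', -, hadd', he'⟩ := hZ.exists_act x
    have h : e' (D (1, 0, 0) (0, 1, 0)) = D a b := by
      show e' (q _ + q _ + q _) = q _ + q _ + q _
      rw [hadd', hadd', ← heq x _ e' hx he', ← heq x _ e' hx he', ← heq x _ e' hx he', headd, hea, heb]
    have h0 : e' 0 = 0 := by
      have := hadd' 0 0
      rw [add_zero] at this
      exact left_eq_add.1 this
    rw [hD0, h0] at h
    have h2 : ∀ u v w : V3, 0 = u + v + w → w = u + v := by decide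
    exact h2 _ _ _ h
  refine ⟨fun r hr s hs => ?_, fun r hr h => ?_⟩
  · have h := hadd (ν r) (ν s)
    rw [← hC.mul r hr s hs, ← hq _ (mul_mem hr hs), ← hq r hr, ← hq s hs,
      ← hZ.mul _ (hsq r hr) _ (hsq s hs),
      hZ.eq_iff (hsq _ (mul_mem hr hs)) (mul_mem (hsq r hr) (hsq s hs)), Subgroup.mem_bot,
      inv_mul_eq_one] at h
    have h' : r * (s * r) * s = r * (r * s) * s := by simpa only [mul_assoc] using h
    exact (mul_left_cancel (mul_right_cancel h')).symm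
  · by_contra hn
    refine hqne (ν r) (fun h0 => hn ((hC.ker r hr).1 h0)) ?_
    rw [← hq r hr, h, hZ.one]

open Classical in
/-- Membership in a group of order two. -/
theorem two_cases {Z : Subgroup G} (hZ2 : Nat.card Z = 2) {a b : G} (ha : a ∈ Z) (hb : b ∈ Z)
    (ha1 : a ≠ 1) (hb1 : b ≠ 1) : a = b := by
  haveI : Finite Z := Nat.finite_of_card_ne_zero (by omega)
  haveI : Fintype Z := Fintype.ofFinite _
  by_contra hne
  have h := Finset.card_le_univ ({1, ⟨a, ha⟩, ⟨b, hb⟩} : Finset Z)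
  rw [← Nat.card_eq_fintype_card, hZ2, Finset.card_eq_three.2 ⟨1, ⟨a, ha⟩, ⟨b, hb⟩,
    fun e => ha1 (congrArg Subtype.val e).symm, fun e => hb1 (congrArg Subtype.val e).symm,
    fun e => hne (congrArg Subtype.val e), rfl⟩] at h
  omega

open Classical in
/-- The additive sign of an element of a group of order two. -/
noncomputable def sgn (a : G) : ZMod 2 := if a = 1 then 0 else 1

open Classical in
theorem sgn_mul {Z : Subgroup G} (hZ2 : Nat.card Z = 2) {a b : G} (ha : a ∈ Z) (hb : b ∈ Z) :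
    sgn (a * b) = sgn a + sgn b := by
  unfold sgn
  by_cases ha1 : a = 1
  · subst ha1; simp
  by_cases hb1 : b = 1
  · subst hb1; simp
  have hab : a * b = 1 := by
    by_contra h
    have := two_cases hZ2 (mul_mem ha hb) ha h ha1
    exact hb1 (mul_eq_left.1 this)
  simp [ha1, hb1, hab]
  decide

open Classical in
theorem sgn_eq_zero {a : G} : sgn a = 0 ↔ a = 1 := by unfold sgn; split_ifs with h <;> simp [h]

/-- Commutators with values in a central group of order two vanish. -/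
theorem natural_trivial_comm (hC : Coord R N ν) {Z : Subgroup G} (hZ2 : Nat.card Z = 2)
    (hZc : ∀ z ∈ Z, ∀ x : G, x * z = z * x) (hNc : ∀ n ∈ N, ∀ r ∈ R, n * r = r * n)
    (hcm : ∀ r ∈ R, ∀ s ∈ R, r * s * r⁻¹ * s⁻¹ ∈ Z) : ∀ r ∈ R, ∀ s ∈ R, r * s = s * r := by
  have hR : R.Normal := inferInstance
  let b : G → G → ZMod 2 := fun r s => sgn (r * s * r⁻¹ * s⁻¹)
  have hb2 : ∀ r ∈ R, ∀ s ∈ R, ∀ s' ∈ R, b r (s * s') = b r s + b r s' := by
    intro r hr s hs s' hs'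
    show sgn _ = sgn _ + sgn _
    rw [← sgn_mul hZ2 (hcm r hr s hs) (hcm r hr s' hs')]
    congr 1
    have h := hZc _ (hcm r hr s' hs') s
    calc r * (s * s') * r⁻¹ * (s * s')⁻¹
        = r * s * r⁻¹ * (r * s' * r⁻¹ * s'⁻¹) * s⁻¹ := by group
      _ = r * s * r⁻¹ * s⁻¹ * (s * (r * s' * r⁻¹ * s'⁻¹)) * s⁻¹ := by group
      _ = r * s * r⁻¹ * s⁻¹ * (r * s' * r⁻¹ * s'⁻¹) := by rw [h]; group
  have hwd : ∀ r ∈ R, ∀ r' ∈ R, ν r = ν r' → ∀ s ∈ R, ∀ s' ∈ R, ν s = ν s' → b r s = b r' s' := by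
    intro r hr r' hr' h s hs s' hs' h'
    obtain ⟨n, hn, rfl⟩ : ∃ n ∈ N, r * n = r' := ⟨_, (hC.eq_iff hr hr').1 h, by group⟩
    obtain ⟨m, hm, rfl⟩ : ∃ m ∈ N, s * m = s' := ⟨_, (hC.eq_iff hs hs').1 h', by group⟩
    show sgn _ = sgn _
    congr 1
    have h1 : n * s = s * n := hNc n hn s hs
    have h2 : n * m = m * n := hNc n hn m (hC.le hm)
    have h3 : m * r = r * m := hNc m hm r hr
    calc r * s * r⁻¹ * s⁻¹ = r * s * (r⁻¹) * s⁻¹ := rfl
      _ = r * (s * n) * n⁻¹ * r⁻¹ * s⁻¹ := by group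
      _ = r * n * s * (m * n⁻¹) * m⁻¹ * r⁻¹ * s⁻¹ := by rw [← h1]; rw [show m * n⁻¹ = n⁻¹ * m from ((show Commute n m from h2).inv_left).eq.symm]; group
      _ = r * n * (s * m) * n⁻¹ * (r * m)⁻¹ * s⁻¹ := by group
      _ = r * n * (s * m) * (r * n)⁻¹ * (s * m)⁻¹ := by rw [← h3]; group
  have hinv : ∀ (x : G), ∀ r ∈ R, ∀ s ∈ R, b (x * r * x⁻¹) (x * s * x⁻¹) = b r s := by
    intro x r hr s hs
    show sgn _ = sgn _
    congr 1
    calc _ = x * (r * s * r⁻¹ * s⁻¹) * x⁻¹ := by group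
      _ = _ := by rw [hZc _ (hcm r hr s hs), mul_inv_cancel_right]
  obtain ⟨u, hu, hu'⟩ := hC.surj (1, 0, 0)
  obtain ⟨v, hv, hv'⟩ := hC.surj (0, 1, 0)
  have hconst : ∀ r ∈ R, ∀ s ∈ R, ν r ≠ 0 → ν s ≠ 0 → ν r ≠ ν s → b r s = b u v := by
    intro r hr s hs h1 h2 h3
    obtain ⟨x, e, hx, -, hea, heb⟩ := hC.trans_two h1 h2 h3
    rw [← hinv x u hu v hv]
    exact hwd r hr _ (hR.conj_mem _ hu x) (by rw [hx u hu, hu', hea]) s hs _ (hR.conj_mem _ hv x)
      (by rw [hx v hv, hv', heb])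
  have hc : b u v = 0 := by
    obtain ⟨w, hw, hw'⟩ := hC.surj (0, 0, 1)
    have := hb2 u hu v hv w hw
    rw [hconst u hu _ (mul_mem hv hw) (by rw [hu']; decide) (by rw [hC.mul v hv w hw, hv', hw']; decide)
      (by rw [hC.mul v hv w hw, hu', hv', hw']; decide),
      hconst u hu w hw (by rw [hu']; decide) (by rw [hw']; decide) (by rw [hu', hw']; decide)] at this
    exact left_eq_add.1 this
  intro r hr s hs
  rcases eq_or_ne (ν r) 0 with h1 | h1
  · exact hNc r ((hC.ker r hr).1 h1) s hs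
  rcases eq_or_ne (ν s) 0 with h2 | h2
  · exact (hNc s ((hC.ker s hs).1 h2) r hr).symm
  rcases eq_or_ne (ν r) (ν s) with h3 | h3
  · have hn := (hC.eq_iff hr hs).1 h3
    calc r * s = r * r * (r⁻¹ * s) := by group
      _ = r * ((r⁻¹ * s) * r) := by rw [hNc _ hn r hr]; group
      _ = s * r := by group
  · have := (hconst r hr s hs h1 h2 h3).trans hc
    rw [show b r s = sgn _ from rfl, sgn_eq_zero, mul_inv_eq_one, mul_inv_eq_iff_eq_mul] at this
    exact this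

/-- Squares of an abelian group with values in a central group of order two vanish. -/
theorem natural_trivial_sq (hC : Coord R N ν) {Z : Subgroup G} (hZ2 : Nat.card Z = 2)
    (hZc : ∀ z ∈ Z, ∀ x : G, x * z = z * x) (hN2 : ∀ n ∈ N, n * n = 1)
    (hab : ∀ r ∈ R, ∀ s ∈ R, r * s = s * r) (hsq : ∀ r ∈ R, r * r ∈ Z) :
    ∀ r ∈ R, r * r = 1 := by
  have hR : R.Normal := inferInstance
  choose s hs hs' using hC.surj
  have hmul : ∀ r ∈ R, ∀ u ∈ R, r * u * (r * u) = r * r * (u * u) := fun r hr u hu => by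
    rw [mul_assoc r u, ← mul_assoc u r u, hab u hu r hr]; group
  have hwd : ∀ r ∈ R, r * r = s (ν r) * s (ν r) := by
    intro r hr
    have hn := (hC.eq_iff (hs _) hr).1 (hs' (ν r))
    conv_lhs => rw [show r = s (ν r) * ((s (ν r))⁻¹ * r) by group]
    rw [hmul _ (hs _) _ (hC.le hn), hN2 _ hn, mul_one]
  have h := hom_trivial hC (fun v => sgn (s v * s v)) (fun v w => by
    rw [← sgn_mul hZ2 (hsq _ (hs v)) (hsq _ (hs w)), ← hmul _ (hs v) _ (hs w),
      hwd _ (mul_mem (hs v) (hs w)), hC.mul _ (hs v) _ (hs w), hs', hs']) fun x e he v => by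
    conv_lhs => rw [← hs' v, ← he _ (hs v), ← hwd _ (hR.conj_mem _ (hs v) x)]
    congr 1
    rw [show x * s v * x⁻¹ * (x * s v * x⁻¹) = x * (s v * s v) * x⁻¹ by group, hZc _ (hsq _ (hs v)),
      mul_inv_cancel_right]
  intro r hr
  rw [hwd r hr]
  exact sgn_eq_zero.1 (h (ν r))

/-- An equivariant additive map between natural modules is zero or injective. -/
theorem hom_natural (hC : Coord R N ν) {Z : Subgroup G} [Z.Normal] {ζ : G → V3} (hZ : Coord Z ⊥ ζ)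
    (f : V3 → V3) (hadd : ∀ v w, f (v + w) = f v + f w)
    (heq : ∀ (x : G) (e e' : V3 → V3), (∀ r ∈ R, ν (x * r * x⁻¹) = e (ν r)) →
      (∀ z ∈ Z, ζ (x * z * x⁻¹) = e' (ζ z)) → ∀ v, f (e v) = e' (f v)) :
    (∀ v, f v = 0) ∨ Function.Injective f := by
  by_cases h : Function.Injective f
  · exact Or.inr h
  left
  simp only [Function.Injective, not_forall] at h
  obtain ⟨a, b, hab, hne⟩ := h
  have h0 : f (a + b) = 0 := by rw [hadd, hab, V3_add_self]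
  have hne0 : a + b ≠ 0 := by
    have h2 : ∀ u v : V3, u ≠ v → u + v ≠ 0 := by decide
    exact h2 _ _ hne
  intro v
  rcases eq_or_ne v 0 with rfl | hv
  · have := hadd 0 0
    rw [add_zero] at this
    exact left_eq_add.1 this
  obtain ⟨x, e, hx, he⟩ := hC.trans_one hne0 hv
  obtain ⟨e', -, he'a, he'⟩ := hZ.exists_act x
  rw [← he, heq x e e' hx he', h0]
  have := he'a 0 0
  rw [add_zero] at this
  exact left_eq_add.1 this

end

set_option synthInstance.maxSize 1000 in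
/-- An additive map commuting with the whole group is zero or the identity. -/
theorem endo_natural {R N : Subgroup G} {ν : G → V3} (hC : Coord R N ν) (f : V3 → V3)
    (hadd : ∀ v w, f (v + w) = f v + f w)
    (heq : ∀ (x : G) (e : V3 → V3), (∀ r ∈ R, ν (x * r * x⁻¹) = e (ν r)) → ∀ v, f (e v) = e (f v)) :
    (∀ v, f v = 0) ∨ ∀ v, f v = v := by
  obtain ⟨x, hx⟩ := hC.realize (a := (0, 1, 0)) (b := (0, 0, 1)) (c := (1, 1, 0)) (by decide)
  obtain ⟨y, hy⟩ := hC.realize (a := (1, 0, 0)) (b := (1, 1, 0)) (c := (0, 0, 1)) (by decide)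
  obtain ⟨z, hz⟩ := hC.realize (a := (1, 0, 0)) (b := (0, 0, 1)) (c := (0, 1, 0)) (by decide)
  have h1 := heq x _ hx
  have h2 := heq y _ hy
  have h3 := heq z _ hz
  rw [lin3_of_additive f hadd] at h1 h2 h3 ⊢
  generalize f (1, 0, 0) = a at h1 h2 h3 ⊢
  generalize f (0, 1, 0) = b at h1 h2 h3 ⊢
  generalize f (0, 0, 1) = c at h1 h2 h3 ⊢
  have key : ∀ a b c : V3,
      lin3 a b c (lin3 (1, 0, 0) (1, 1, 0) (0, 0, 1) (0, 1, 0)) =
        lin3 (1, 0, 0) (1, 1, 0) (0, 0, 1) (lin3 a b c (0, 1, 0)) →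
      lin3 a b c (lin3 (0, 1, 0) (0, 0, 1) (1, 1, 0) (1, 0, 0)) =
        lin3 (0, 1, 0) (0, 0, 1) (1, 1, 0) (lin3 a b c (1, 0, 0)) →
      lin3 a b c (lin3 (0, 1, 0) (0, 0, 1) (1, 1, 0) (0, 1, 0)) =
        lin3 (0, 1, 0) (0, 0, 1) (1, 1, 0) (lin3 a b c (0, 1, 0)) →
      lin3 a b c (lin3 (1, 0, 0) (0, 0, 1) (0, 1, 0) (1, 0, 0)) =
        lin3 (1, 0, 0) (0, 0, 1) (0, 1, 0) (lin3 a b c (1, 0, 0)) →
      (∀ v, lin3 a b c v = 0) ∨ ∀ v, lin3 a b c v = v := by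
    decide +kernel
  exact key a b c (h2 _) (h1 _) (h1 _) (h3 _)

/-- A choice of one of the two lifts gives a normal complement over `Z`. -/
theorem class_section {Q N Z : Subgroup G} [Q.Normal] [N.Normal] [Z.Normal] {ν : G → V3}
    (hC : Coord Q N ν) (hZN : Z ≤ N) {t : G} (ht : t ∈ N) (htZ : t ∉ Z)
    (hN : ∀ n ∈ N, n ∈ Z ∨ t⁻¹ * n ∈ Z) (hsq : ∀ r ∈ Q, r * r ∈ Z)
    (hcm : ∀ r ∈ Q, ∀ s ∈ Q, r * s * r⁻¹ * s⁻¹ ∈ Z) (d : G → Prop)
    (hdz : ∀ r ∈ Q, r ∉ N → ∀ z ∈ Z, (d (r * z) ↔ d r))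
    (hdt : ∀ r ∈ Q, r ∉ N → (d (r * t) ↔ ¬ d r))
    (hdinv : ∀ r ∈ Q, r ∉ N → ∀ x : G, (d (x * r * x⁻¹) ↔ d r)) :
    ∃ R : Subgroup G, R.Normal ∧ R ≤ Q ∧ t ∉ R ∧ Coord R Z ν ∧ ∀ q ∈ Q, q ∈ R ∨ t⁻¹ * q ∈ R := by
  classical
  have hQ : Q.Normal := inferInstance
  have hNn : N.Normal := inferInstance
  have hZn : Z.Normal := inferInstance
  have htQ : t ∈ Q := hC.le ht
  obtain ⟨u, hu, hu'⟩ := hC.surj (1, 0, 0)
  obtain ⟨v, hv, hv'⟩ := hC.surj (0, 1, 0)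
  have hnot : ∀ r ∈ Q, ν r ≠ 0 → r ∉ N := fun r hr h hn => h ((hC.ker r hr).2 hn)
  have huN : u ∉ N := hnot u hu (by rw [hu']; decide)
  have hvN : v ∉ N := hnot v hv (by rw [hv']; decide)
  have htν : ν t = 0 := (hC.ker t htQ).2 ht
  -- choose the lifts in the class
  obtain ⟨u₁, hu₁, hu₁', hdu⟩ : ∃ u₁ ∈ Q, ν u₁ = (1, 0, 0) ∧ d u₁ := by
    by_cases h : d u
    · exact ⟨u, hu, hu', h⟩
    · exact ⟨u * t, mul_mem hu htQ, by rw [hC.mul u hu t htQ, hu', htν, add_zero], (hdt u hu huN).2 h⟩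
  obtain ⟨v₁, hv₁, hv₁', hdv⟩ : ∃ v₁ ∈ Q, ν v₁ = (0, 1, 0) ∧ d v₁ := by
    by_cases h : d v
    · exact ⟨v, hv, hv', h⟩
    · exact ⟨v * t, mul_mem hv htQ, by rw [hC.mul v hv t htQ, hv', htν, add_zero], (hdt v hv hvN).2 h⟩
  have hu₁N : u₁ ∉ N := hnot u₁ hu₁ (by rw [hu₁']; decide)
  have hv₁N : v₁ ∉ N := hnot v₁ hv₁ (by rw [hv₁']; decide)
  have hpN : u₁ * v₁ ∉ N := hnot _ (mul_mem hu₁ hv₁) (by rw [hC.mul _ hu₁ _ hv₁, hu₁', hv₁']; decide)
  suffices key : ∀ d : G → Prop, (∀ r ∈ Q, r ∉ N → ∀ z ∈ Z, (d (r * z) ↔ d r)) →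
      (∀ r ∈ Q, r ∉ N → (d (r * t) ↔ ¬ d r)) → (∀ r ∈ Q, r ∉ N → ∀ x : G, (d (x * r * x⁻¹) ↔ d r)) →
      (∃ a ∈ Q, ∃ b ∈ Q, ν a = (1, 0, 0) ∧ ν b = (0, 1, 0) ∧ d a ∧ d b ∧ d (a * b)) →
      ∃ R : Subgroup G, R.Normal ∧ R ≤ Q ∧ t ∉ R ∧ Coord R Z ν ∧ ∀ q ∈ Q, q ∈ R ∨ t⁻¹ * q ∈ R by
    by_cases hp : d (u₁ * v₁)
    · exact key d hdz hdt hdinv ⟨u₁, hu₁, v₁, hv₁, hu₁', hv₁', hdu, hdv, hp⟩
    · refine key (fun r => ¬ d r) (fun r hr hn z hz => not_congr (hdz r hr hn z hz))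
        (fun r hr hn => not_congr (hdt r hr hn)) (fun r hr hn x => not_congr (hdinv r hr hn x))
        ⟨u₁ * t, mul_mem hu₁ htQ, v₁ * t, mul_mem hv₁ htQ, by rw [hC.mul _ hu₁ _ htQ, hu₁', htν, add_zero],
          by rw [hC.mul _ hv₁ _ htQ, hv₁', htν, add_zero], fun h => (hdt u₁ hu₁ hu₁N).1 h hdu,
          fun h => (hdt v₁ hv₁ hv₁N).1 h hdv, ?_⟩
      show ¬ d (u₁ * t * (v₁ * t))
      have hz : v₁⁻¹ * t * v₁ * t ∈ Z := by
        have e : v₁⁻¹ * t * v₁ * t = (v₁⁻¹ * t * v₁ * t⁻¹) * (t * t) := by group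
        rw [e]
        refine mul_mem ?_ (hsq t htQ)
        have := hcm v₁⁻¹ (inv_mem hv₁) t htQ
        rwa [inv_inv] at this
      rw [show u₁ * t * (v₁ * t) = u₁ * v₁ * (v₁⁻¹ * t * v₁ * t) by group,
        hdz _ (mul_mem hu₁ hv₁) hpN _ hz]
      exact hp
  clear hdz hdt hdinv d hdu hdv hu₁ hv₁ hu₁N hv₁N hpN hu₁' hv₁' u₁ v₁
  rintro d hdz hdt hdinv ⟨a, ha, b, hb, ha', hb', hda, hdb, hdab⟩
  have hsame : ∀ r ∈ Q, ∀ r' ∈ Q, r ∉ N → ν r = ν r' → (d r ↔ d r') → r⁻¹ * r' ∈ Z := by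
    intro r hr r' hr' hrN h hiff
    rcases hN _ ((hC.eq_iff hr hr').1 h) with hz | hz
    · exact hz
    · exfalso
      have hrt : r * t ∉ N := fun h' => hrN ((Subgroup.mul_mem_cancel_right N ht).1 h')
      have h1 := hdz _ (mul_mem hr htQ) hrt _ hz
      rw [show r * t * (t⁻¹ * (r⁻¹ * r')) = r' by group, hdt r hr hrN, ← hiff] at h1
      exact iff_not_self h1
  have hclose : ∀ r ∈ Q, ∀ s ∈ Q, ν r ≠ 0 → ν s ≠ 0 → ν r ≠ ν s → d r → d s → d (r * s) := by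
    intro r hr s hs h1 h2 h3 hdr hds
    obtain ⟨x, e, hx, -, hea, heb⟩ := hC.trans_two h1 h2 h3
    have hxa := hQ.conj_mem a ha x
    have hxb := hQ.conj_mem b hb x
    have z1 := hsame r hr _ hxa (hnot r hr h1) (by rw [hx a ha, ha', hea])
      (iff_of_true hdr ((hdinv a ha (hnot a ha (by rw [ha']; decide)) x).2 hda))
    have z2 := hsame s hs _ hxb (hnot s hs h2) (by rw [hx b hb, hb', heb])
      (iff_of_true hds ((hdinv b hb (hnot b hb (by rw [hb']; decide)) x).2 hdb))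
    have hab : a * b ∉ N := hnot _ (mul_mem ha hb) (by rw [hC.mul a ha b hb, ha', hb']; decide)
    have hrs : r * s ∉ N := hnot _ (mul_mem hr hs) (by
      rw [hC.mul r hr s hs]
      have h4 : ∀ u v : V3, u ≠ v → u + v ≠ 0 := by decide
      exact h4 _ _ h3)
    have hz := mul_mem (hZn.conj_mem' _ z1 s) z2
    have h := hdz _ (mul_mem hr hs) hrs _ hz
    rw [show r * s * (s⁻¹ * (r⁻¹ * (x * a * x⁻¹)) * s * (s⁻¹ * (x * b * x⁻¹))) =
      x * (a * b) * x⁻¹ by group, hdinv _ (mul_mem ha hb) hab x] at h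
    exact h.1 hdab
  let P : G → Prop := fun r => r ∈ Q ∧ (r ∈ Z ∨ r ∉ N ∧ d r)
  have hmem : ∀ r ∈ Q, r ∉ N → d r → P r := fun r hr h1 h2 => ⟨hr, Or.inr ⟨h1, h2⟩⟩
  have hleft : ∀ z ∈ Z, ∀ r ∈ Q, r ∉ N → d r → d (z * r) := fun z hz r hr h1 h2 => by
    rw [show z * r = r * (r⁻¹ * z * r) by group]
    exact (hdz r hr h1 _ (hZn.conj_mem' z hz r)).2 h2
  let R : Subgroup G :=
    { carrier := {r | P r}
      one_mem' := ⟨one_mem _, Or.inl (one_mem _)⟩
      mul_mem' := by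
        rintro r s ⟨hr, hr1⟩ ⟨hs, hs1⟩
        rcases hr1 with hr1 | ⟨hr1, hr2⟩ <;> rcases hs1 with hs1 | ⟨hs1, hs2⟩
        · exact ⟨mul_mem hr hs, Or.inl (mul_mem hr1 hs1)⟩
        · exact hmem _ (mul_mem hr hs) (fun h => hs1 ((Subgroup.mul_mem_cancel_left N (hZN hr1)).1 h))
            (hleft r hr1 s hs hs1 hs2)
        · exact hmem _ (mul_mem hr hs) (fun h => hr1 ((Subgroup.mul_mem_cancel_right N (hZN hs1)).1 h))
            ((hdz r hr hr1 s hs1).2 hr2)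
        · by_cases h : ν r = ν s
          · refine ⟨mul_mem hr hs, Or.inl ?_⟩
            have hz := hsame r hr s hs hr1 h (iff_of_true hr2 hs2)
            rw [show r * s = r * r * (r⁻¹ * s) by group]
            exact mul_mem (hsq r hr) hz
          · have h1 : ν r ≠ 0 := fun e => hr1 ((hC.ker r hr).1 e)
            have h2 : ν s ≠ 0 := fun e => hs1 ((hC.ker s hs).1 e)
            exact hmem _ (mul_mem hr hs) (hnot _ (mul_mem hr hs) (by
              rw [hC.mul r hr s hs]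
              have h4 : ∀ u v : V3, u ≠ v → u + v ≠ 0 := by decide
              exact h4 _ _ h)) (hclose r hr s hs h1 h2 h hr2 hs2)
      inv_mem' := by
        rintro r ⟨hr, hr1⟩
        rcases hr1 with hr1 | ⟨hr1, hr2⟩
        · exact ⟨inv_mem hr, Or.inl (inv_mem hr1)⟩
        · refine hmem _ (inv_mem hr) (fun h => hr1 (inv_mem_iff.1 h)) ?_
          rw [show r⁻¹ = r * (r * r)⁻¹ by group]
          exact (hdz r hr hr1 _ (inv_mem (hsq r hr))).2 hr2 }
  have hRle : R ≤ Q := fun r hr => hr.1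
  have hRn : R.Normal := ⟨fun r hr x => ⟨hQ.conj_mem r hr.1 x, by
    rcases hr.2 with h | ⟨h1, h2⟩
    · exact Or.inl (hZn.conj_mem r h x)
    · refine Or.inr ⟨fun h => h1 ?_, (hdinv r hr.1 h1 x).2 h2⟩
      have := hNn.conj_mem' _ h x
      rwa [show x⁻¹ * (x * r * x⁻¹) * x = r by group] at this⟩⟩
  refine ⟨R, hRn, hRle, fun h => h.2.elim htZ fun h' => h'.1 ht,
    ⟨fun z hz => ⟨hC.le (hZN hz), Or.inl hz⟩, fun r hr s hs => hC.mul r (hRle hr) s (hRle hs),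
      fun r hr => ⟨fun h => hr.2.elim id fun h' => absurd ((hC.ker r hr.1).1 h) h'.1,
        fun h => (hC.ker r hr.1).2 (hZN h)⟩, fun w => ?_, fun e he hadd => ?_⟩, fun q hq => ?_⟩
  · obtain ⟨r, hr, rfl⟩ := hC.surj w
    by_cases hrN : r ∈ N
    · exact ⟨1, one_mem R, by rw [hC.one, (hC.ker r hr).2 hrN]⟩
    by_cases h : d r
    · exact ⟨r, hmem r hr hrN h, rfl⟩
    · exact ⟨r * t, hmem _ (mul_mem hr htQ) (fun h' => hrN ((Subgroup.mul_mem_cancel_right N ht).1 h'))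
        ((hdt r hr hrN).2 h), by rw [hC.mul r hr t htQ, htν, add_zero]⟩
  · obtain ⟨x, hx⟩ := hC.full e he hadd
    exact ⟨x, fun r hr => hx r (hRle hr)⟩
  · by_cases hqN : q ∈ N
    · rcases hN q hqN with h | h
      · exact Or.inl ⟨hq, Or.inl h⟩
      · exact Or.inr ⟨mul_mem (inv_mem htQ) hq, Or.inl h⟩
    by_cases h : d q
    · exact Or.inl (hmem q hq hqN h)
    · right
      refine hmem _ (mul_mem (inv_mem htQ) hq) (fun h' => hqN ((Subgroup.mul_mem_cancel_left N (inv_mem ht)).1 h')) ?_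
      have hz : (q * t)⁻¹ * (t⁻¹ * q) ∈ Z := by
        rw [show (q * t)⁻¹ * (t⁻¹ * q) = t⁻¹ * (q⁻¹ * t⁻¹ * q * t) * t⁻¹ by group]
        have h1 : q⁻¹ * t⁻¹ * q * t ∈ Z := by
          have := hcm q⁻¹ (inv_mem hq) t⁻¹ (inv_mem htQ)
          rwa [inv_inv, inv_inv] at this
        rw [show t⁻¹ * (q⁻¹ * t⁻¹ * q * t) * t⁻¹ = (t⁻¹ * (q⁻¹ * t⁻¹ * q * t) * t) * (t * t)⁻¹ by group]
        exact mul_mem (hZn.conj_mem' _ h1 t) (inv_mem (hsq t htQ))
      have := hdz _ (mul_mem hq htQ) (fun h' => hqN ((Subgroup.mul_mem_cancel_right N ht).1 h')) _ hz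
      rw [show q * t * ((q * t)⁻¹ * (t⁻¹ * q)) = t⁻¹ * q by group, hdt q hq hqN] at this
      exact this.2 h

end CfsgLib.RadicalRankFour
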