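/-
RadicalRankFour: a group of order 168 acting on small elementary abelian normal subgroups.
-/
import Mathlib
import Cfsg.Agent.Lib.RadicalRankFour.Natural

set_option autoImplicit false

namespace CfsgLib.RadicalRankFour

variable {G : Type*} [Group G] [Finite G] {L : Type*} [Group L]

/-- The conjugation action factors through `π`. -/
theorem exists_conj_hom (π : G →* L) (hπ : Function.Surjective π) (V : Subgroup G) [V.Normal]
    (hker : ∀ x ∈ π.ker, ∀ v ∈ V, x * v * x⁻¹ = v) :
    ∃ ρ : L →* MulAut V, ∀ (x : G) (v : V), ((ρ (π x) v : V) : G) = x * v * x⁻¹ := by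
  have hk : π.ker ≤ (MulAut.conjNormal (H := V) : G →* MulAut V).ker := fun x hx =>
    MonoidHom.mem_ker.2 (MulEquiv.ext fun v => Subtype.ext (by
      rw [MulAut.conjNormal_apply, hker x hx v v.2]; rfl))
  refine ⟨MonoidHom.liftOfSurjective π hπ ⟨_, hk⟩, fun x v => ?_⟩
  have h : MonoidHom.liftOfSurjective π hπ ⟨_, hk⟩ (π x) = MulAut.conjNormal x :=
    MonoidHom.liftOfRightInverse_comp_apply π _ (Function.rightInverse_surjInv hπ) ⟨_, hk⟩ x
  rw [h, MulAut.conjNormal_apply]

/-- A normal subgroup of order at most four is centralised. -/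
theorem small_trivial [IsSimpleGroup L] (hL : Nat.card L = 168) (π : G →* L) (hπ : Function.Surjective π)
    (V : Subgroup G) [V.Normal] (hker : ∀ x ∈ π.ker, ∀ v ∈ V, x * v * x⁻¹ = v) (hcard : Nat.card V ≤ 4) :
    ∀ x : G, ∀ v ∈ V, x * v * x⁻¹ = v := by
  obtain ⟨ρ, hρ⟩ := exists_conj_hom π hπ V hker
  intro x v hv
  rcases IsSimpleGroup.eq_bot_or_eq_top_of_normal ρ.ker inferInstance with h | h
  · exfalso
    haveI : Finite L := Nat.finite_of_card_ne_zero (by omega)
    have h1 := Nat.card_le_card_of_injective (MulEquiv.toEquiv ∘ ρ)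
      (MulEquiv.toEquiv_injective.comp ((MonoidHom.ker_eq_bot_iff _).1 h))
    rw [hL, Nat.card_perm] at h1
    have h2 := Nat.factorial_le hcard
    have : Nat.factorial 4 = 24 := rfl
    omega
  · have h1 : ρ (π x) = 1 := MonoidHom.mem_ker.1 (h ▸ Subgroup.mem_top _)
    have h2 := hρ x ⟨v, hv⟩
    rw [h1] at h2
    exact h2.symm

/-- An elementary abelian normal subgroup of order 16 has an invariant subgroup of order eight or a
fixed point with nontrivial action on the quotient. -/
theorem sixteen [IsSimpleGroup L] (hL : Nat.card L = 168) (π : G →* L) (hπ : Function.Surjective π)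
    (V : Subgroup G) [V.Normal] (hV : Nat.card V = 16) (hexp : ∀ v ∈ V, v * v = 1)
    (hker : ∀ x ∈ π.ker, ∀ v ∈ V, x * v * x⁻¹ = v) (hne : ∃ x : G, ∃ v ∈ V, x * v * x⁻¹ ≠ v) :
    (∃ U : Subgroup G, U.Normal ∧ U ≤ V ∧ Nat.card U = 8 ∧ ∃ x : G, ∃ u ∈ U, x * u * x⁻¹ ≠ u) ∨
      ∃ t ∈ V, t ≠ 1 ∧ (∀ x : G, x * t * x⁻¹ = t) ∧
        ∃ x : G, ∃ v ∈ V, x * v * x⁻¹ * v⁻¹ ∉ Subgroup.zpowers t := by
  classical
  haveI : Finite L := Nat.finite_of_card_ne_zero (by omega)
  have hVn : V.Normal := inferInstance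
  obtain ⟨ρ, hρ⟩ := exists_conj_hom π hπ V hker
  have hinj : Function.Injective ρ := by
    rcases IsSimpleGroup.eq_bot_or_eq_top_of_normal ρ.ker inferInstance with h | h
    · exact (MonoidHom.ker_eq_bot_iff _).1 h
    · exfalso
      obtain ⟨x, v, hv, hxv⟩ := hne
      have h2 := hρ x ⟨v, hv⟩
      rw [MonoidHom.mem_ker.1 (h ▸ Subgroup.mem_top (π x))] at h2
      exact hxv h2.symm
  letI : MulAction L V := MulAction.compHom V ρ
  have hsmul : ∀ (l : L) (v : V), l • v = ρ l v := fun _ _ => rfl
  haveI : Fact (Nat.Prime 7) := ⟨by norm_num⟩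
  obtain ⟨l, hl⟩ := exists_prime_orderOf_dvd_card' (G := L) 7 (by rw [hL]; norm_num)
  let C := Subgroup.zpowers l
  have hC7 : Nat.card C = 7 := by rw [Nat.card_zpowers, hl]
  have hCp : IsPGroup 7 C := IsPGroup.of_card (n := 1) (by rw [hC7]; rfl)
  let Fx : Subgroup V :=
    { carrier := {v | ρ l v = v}
      one_mem' := map_one (ρ l)
      mul_mem' := fun {a b} (ha : ρ l a = a) (hb : ρ l b = b) => by
        show ρ l (a * b) = a * b; rw [map_mul, ha, hb]
      inv_mem' := fun {a} (ha : ρ l a = a) => by show ρ l a⁻¹ = a⁻¹; rw [map_inv, ha] }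
  have hfix : ∀ v : V, (∀ c : C, c • v = v) ↔ ρ l v = v := by
    intro v
    refine ⟨fun h => h ⟨l, Subgroup.mem_zpowers l⟩, fun h c => ?_⟩
    obtain ⟨n, hn⟩ := c.2
    show (c : L) • v = v
    rw [← hn]
    exact (Subgroup.zpowers_le (H := MulAction.stabilizer L v)).2 h (Subgroup.zpow_mem_zpowers l n)
  have hFx : Nat.card Fx = 2 := by
    have h1 := hCp.card_modEq_card_fixedPoints V
    rw [hV, Nat.card_congr (show MulAction.fixedPoints C V ≃ Fx from
      Equiv.subtypeEquivRight fun v => hfix v)] at h1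
    have h2 := Subgroup.card_subgroup_dvd_card Fx
    rw [hV] at h2
    have h16 : Nat.card Fx ≠ 16 := by
      intro h
      have htop : Fx = ⊤ := Subgroup.eq_top_of_card_eq _ (by rw [h, hV])
      have : ρ l = 1 := MulEquiv.ext fun v => (htop ▸ Subgroup.mem_top v : v ∈ Fx)
      rw [← map_one ρ, hinj.eq_iff] at this
      rw [this, orderOf_one] at hl
      omega
    have hmem : Nat.card Fx ∈ Nat.divisors 16 := Nat.mem_divisors.2 ⟨h2, by norm_num⟩
    rw [show Nat.divisors 16 = {1, 2, 4, 8, 16} by decide] at hmem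
    simp only [Finset.mem_insert, Finset.mem_singleton] at hmem
    rcases hmem with h | h | h | h | h <;> rw [h] at h1 ⊢ <;> simp [Nat.ModEq] at h1 <;> omega
  obtain ⟨⟨t, ht⟩, htne⟩ : ∃ t : Fx, t ≠ 1 := by
    haveI : Nontrivial Fx := Finite.one_lt_card_iff_nontrivial.1 (by rw [hFx]; norm_num)
    exact exists_ne 1
  have ht1 : t ≠ 1 := fun h => htne (Subtype.ext h)
  have hFt : ∀ v, ρ l v = v → v = 1 ∨ v = t := by
    intro v hv
    by_contra hc
    push Not at hc
    have := two_cases hFx (show v ∈ Fx from hv) (show t ∈ Fx from ht) hc.1 ht1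
    exact hc.2 this
  -- the orbit of `t`
  set O := MulAction.orbit L t with hO
  have hO1 : (1 : V) ∉ O := by
    rintro ⟨k, hk⟩
    exact ht1 ((ρ k).injective (hk.trans (map_one (ρ k)).symm))
  have hOcard : Nat.card O = 1 ∨ Nat.card O = 8 := by
    have hdvd : Nat.card O ∣ 24 := by
      have h1 : Nat.card O * Nat.card (MulAction.stabilizer L t) = 168 := by
        rw [← hL, ← Nat.card_prod]
        exact Nat.card_congr (MulAction.orbitProdStabilizerEquivGroup L t)
      have h7 : 7 ∣ Nat.card (MulAction.stabilizer L t) := by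
        rw [← hC7]
        exact Subgroup.card_dvd_of_le (Subgroup.zpowers_le.2 ht)
      obtain ⟨k, hk⟩ := h7
      exact ⟨k, by rw [hk] at h1; nlinarith⟩
    have hmod := hCp.card_modEq_card_fixedPoints O
    have hone : Nat.card (MulAction.fixedPoints C O) = 1 := by
      refine Nat.card_eq_one_iff_exists.2 ⟨⟨⟨t, MulAction.mem_orbit_self t⟩, fun c => Subtype.ext ((hfix t).2 ht c)⟩, ?_⟩
      rintro ⟨⟨v, hv⟩, hvf⟩
      refine Subtype.ext (Subtype.ext ?_)
      rcases hFt v ((hfix v).1 fun c => congrArg Subtype.val (hvf c)) with h | h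
      · exact absurd (h ▸ hv) hO1
      · exact h
    rw [hone] at hmod
    have hlt : Nat.card O ≤ 16 := hV ▸ Nat.card_le_card_of_injective _ Subtype.val_injective
    have hmem : Nat.card O ∈ Nat.divisors 24 := Nat.mem_divisors.2 ⟨hdvd, by norm_num⟩
    rw [show Nat.divisors 24 = {1, 2, 3, 4, 6, 8, 12, 24} by decide] at hmem
    simp only [Finset.mem_insert, Finset.mem_singleton] at hmem
    rcases hmem with h | h | h | h | h | h | h | h <;> rw [h] at hmod ⊢ <;>
      simp [Nat.ModEq] at hmod ⊢ <;> omega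
  rcases hOcard with h1 | h8
  · right
    have htx : ∀ x : G, x * (t : G) * x⁻¹ = t := fun x => by
      obtain ⟨⟨a, ha⟩, hau⟩ := Nat.card_eq_one_iff_exists.1 h1
      have e1 := hau ⟨π x • t, MulAction.mem_orbit t (π x)⟩
      have e2 := hau ⟨t, MulAction.mem_orbit_self t⟩
      have e : π x • t = t := congrArg Subtype.val (e1.trans e2.symm)
      rw [← hρ, ← hsmul, e]
    refine ⟨t, t.2, fun h => ht1 (Subtype.ext h), htx, ?_⟩
    obtain ⟨d, rfl⟩ := hπ l
    by_contra hc
    push Not at hc
    have hcase : ∀ v : V, ρ (π d) v = v ∨ ρ (π d) v = t * v := by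
      intro v
      have h2 : (Subgroup.zpowers t : Set V) ⊆ {1, t} := by
        rintro _ ⟨n, rfl⟩
        have h2 : t * t = 1 := Subtype.ext (hexp _ t.2)
        rcases Int.even_or_odd n with ⟨k, rfl⟩ | ⟨k, rfl⟩
        · left; show t ^ (k + k) = 1; rw [← two_mul, zpow_mul, zpow_two, h2, one_zpow]
        · right; show t ^ (2 * k + 1) = t; rw [zpow_add, zpow_mul, zpow_two, h2, one_zpow, one_mul, zpow_one]
      have h3 := hc d v v.2
      rw [← hρ] at h3
      obtain ⟨n, hn⟩ := h3
      have hn' : t ^ n = ρ (π d) v * v⁻¹ := Subtype.ext (by simpa using hn)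
      rcases h2 (Subgroup.zpow_mem_zpowers t n) with e | e
      · exact Or.inl (mul_inv_eq_one.1 (hn'.symm.trans e))
      · exact Or.inr (mul_inv_eq_iff_eq_mul.1 (hn'.symm.trans e))
    obtain ⟨v, hv⟩ : ∃ v : V, ρ (π d) v ≠ v := by
      by_contra hall
      push Not at hall
      have : Nat.card Fx = 16 := by
        rw [show Fx = ⊤ from eq_top_iff.2 fun v _ => hall v, Subgroup.card_top, hV]
      omega
    have hv' := (hcase v).resolve_left hv
    have h2 : ∀ n : ℕ, (ρ (π d) ^ n) v = t ^ n * v := by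
      intro n
      induction n with
      | zero => rw [pow_zero, pow_zero, one_mul]; rfl
      | succ n ih =>
        rw [pow_succ', MulAut.mul_apply, ih, map_mul, map_pow, show ρ (π d) t = t from ht, hv', pow_succ,
          mul_assoc]
    have h7 := h2 7
    rw [← map_pow, show π d ^ 7 = 1 by rw [← hl]; exact pow_orderOf_eq_one _, map_one] at h7
    have ht7 : t ^ 7 = 1 := mul_eq_right.1 h7.symm
    have h22 : t ^ 2 = 1 := by rw [pow_two]; exact Subtype.ext (hexp _ t.2)
    rw [show 7 = 2 * 3 + 1 by norm_num, pow_succ, pow_mul, h22, one_pow, one_mul] at ht7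
    exact ht1 ht7
  · left
    haveI : Fintype V := Fintype.ofFinite _
    let S : Finset V := Finset.univ.filter fun v => v ≠ 1 ∧ v ∉ O
    let Of : Finset V := Finset.univ.filter fun v => v ∈ O
    have hOf : Of.card = 8 := by
      rw [← h8, ← Fintype.card_subtype, ← Nat.card_eq_fintype_card]
    have hS : S.card = 7 := by
      have h1 : S = (Finset.univ.erase 1) \ Of := by ext v; simp [S, Of]
      rw [h1, Finset.card_sdiff_of_subset, Finset.card_erase_of_mem (Finset.mem_univ _), Finset.card_univ,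
        ← Nat.card_eq_fintype_card, hV, hOf]
      intro v hv
      simp only [Of, Finset.mem_filter, Finset.mem_univ, true_and] at hv
      simpa using fun h : v = 1 => hO1 (h ▸ hv)
    have hinvO : ∀ (k : L) (v : V), k • v ∈ O ↔ v ∈ O := fun k v => by
      rw [hO, MulAction.mem_orbit_iff, MulAction.mem_orbit_iff]
      constructor
      · rintro ⟨m, hm⟩; exact ⟨k⁻¹ * m, by rw [mul_smul, hm, inv_smul_smul]⟩
      · rintro ⟨m, hm⟩; exact ⟨k * m, by rw [mul_smul, hm]⟩
    have hinvS : ∀ (k : L) (v : V), k • v ∈ S ↔ v ∈ S := fun k v => by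
      simp only [S, Finset.mem_filter, Finset.mem_univ, true_and]
      refine and_congr (not_congr ⟨fun h => ?_, fun h => ?_⟩) (not_congr (hinvO k v))
      · exact (ρ k).injective (h.trans (map_one (ρ k)).symm)
      · rw [h]; exact map_one (ρ k)
    -- transitivity on the seven points
    have htrans : ∀ a ∈ S, ∀ b ∈ S, ∃ k : L, k • a = b := by
      intro a ha b hb
      have hsub : MulAction.orbit C a ⊆ (S : Set V) := by
        rintro _ ⟨k, rfl⟩
        exact (hinvS (k : L) a).2 ha
      obtain ⟨n, hn⟩ := hCp.card_orbit a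
      have hn0 : n ≠ 0 := by
        rintro rfl
        rw [pow_zero] at hn
        obtain ⟨⟨c, hc⟩, hcu⟩ := Nat.card_eq_one_iff_exists.1 hn
        have hfa : ∀ k : C, k • a = a := fun k =>
          congrArg Subtype.val ((hcu ⟨k • a, MulAction.mem_orbit a k⟩).trans
            (hcu ⟨a, MulAction.mem_orbit_self a⟩).symm)
        simp only [S, Finset.mem_filter] at ha
        rcases hFt a ((hfix a).1 hfa) with e | e
        · exact ha.2.1 e
        · exact ha.2.2 (e ▸ MulAction.mem_orbit_self t)
      have heq : MulAction.orbit C a = (S : Set V) := by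
        refine Set.eq_of_subset_of_ncard_le hsub ?_ S.finite_toSet
        rw [Set.ncard_coe_finset, hS, ← Nat.card_coe_set_eq, hn]
        exact Nat.le_self_pow hn0 7
      obtain ⟨k, hk⟩ := (heq.symm ▸ hb : b ∈ MulAction.orbit C a)
      exact ⟨k, hk⟩
    let P : Finset (V × V) := S ×ˢ S
    let f : V → ℕ := fun w => (P.filter fun p => p.1 * p.2 = w).card
    have hfinv : ∀ (k : L) (w : V), f (k • w) = f w := by
      intro k w
      refine (Finset.card_bij (fun p _ => (k • p.1, k • p.2)) ?_ ?_ ?_).symm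
      · intro p hp
        simp only [P, Finset.mem_filter, Finset.mem_product] at hp ⊢
        exact ⟨⟨(hinvS k _).2 hp.1.1, (hinvS k _).2 hp.1.2⟩, by
          show ρ k p.1 * ρ k p.2 = ρ k w
          rw [← map_mul, hp.2]⟩
      · intro p _ q _ h
        simp only [Prod.mk.injEq, smul_left_cancel_iff] at h
        exact Prod.ext h.1 h.2
      · intro p hp
        simp only [P, Finset.mem_filter, Finset.mem_product] at hp
        refine ⟨(k⁻¹ • p.1, k⁻¹ • p.2), ?_, by simp⟩
        simp only [P, Finset.mem_filter, Finset.mem_product]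
        refine ⟨⟨(hinvS _ _).2 hp.1.1, (hinvS _ _).2 hp.1.2⟩, ?_⟩
        show ρ k⁻¹ p.1 * ρ k⁻¹ p.2 = w
        rw [← map_mul, hp.2]
        exact inv_smul_smul k w
    have hsum : P.card = ∑ w, f w :=
      Finset.card_eq_sum_card_fiberwise fun _ _ => Finset.mem_univ _
    have hP : P.card = 49 := by simp [P, hS]
    have hf1 : f 1 = 7 := by
      rw [← hS]
      refine Finset.card_bij (fun p _ => p.1) (fun p hp => ?_) ?_ (fun a ha => ⟨(a, a), ?_, rfl⟩)
      · simp only [P, Finset.mem_filter, Finset.mem_product] at hp; exact hp.1.1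
      · intro p hp q hq h
        simp only [P, Finset.mem_filter, Finset.mem_product] at hp hq
        refine Prod.ext h ?_
        have h1 := eq_inv_of_mul_eq_one_right hp.2
        have h2 := eq_inv_of_mul_eq_one_right hq.2
        rw [h1, h2]; exact congrArg (·⁻¹) h
      · simp only [P, Finset.mem_filter, Finset.mem_product]
        exact ⟨⟨ha, ha⟩, Subtype.ext (hexp _ a.2)⟩
    obtain ⟨a₀, ha₀⟩ : S.Nonempty := Finset.card_pos.1 (by omega)
    have htOf : ∀ w ∈ Of, f w = f t := by
      intro w hw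
      simp only [Of, Finset.mem_filter] at hw
      obtain ⟨k, rfl⟩ := hw.2
      exact hfinv k t
    have htS : ∀ w ∈ S, f w = f a₀ := by
      intro w hw
      obtain ⟨k, rfl⟩ := htrans a₀ ha₀ w hw
      exact hfinv k a₀
    have hsplit : (∑ w, f w) = f 1 + (8 * f t + 7 * f a₀) := by
      have hu : (Finset.univ : Finset V) = insert 1 (Of ∪ S) := by
        ext v
        by_cases h1 : v = 1 <;> by_cases h2 : v ∈ O <;> simp [S, Of, h1, h2]
      rw [hu, Finset.sum_insert (by simp [S, Of, hO1]), Finset.sum_union (by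
        rw [Finset.disjoint_left]; intro v h1 h2; simp [S, Of] at h1 h2; exact h2.2 h1),
        Finset.sum_congr rfl htOf, Finset.sum_congr rfl htS, Finset.sum_const, Finset.sum_const, hOf, hS,
        smul_eq_mul, smul_eq_mul]
    have hft : f t = 0 := by omega
    have hclosed : ∀ a ∈ S, ∀ b ∈ S, a * b = 1 ∨ a * b ∈ S := by
      intro a ha b hb
      by_contra hc
      push Not at hc
      have hab : a * b ∈ Of := by
        simp only [S, Of, Finset.mem_filter, Finset.mem_univ, true_and] at hc ⊢
        by_contra h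
        exact hc.2 ⟨hc.1, h⟩
      have : 0 < f (a * b) := Finset.card_pos.2 ⟨(a, b), by simp [P, ha, hb]⟩
      rw [htOf _ hab, hft] at this
      omega
    let U₀ : Subgroup V :=
      { carrier := ↑(insert (1 : V) S)
        one_mem' := Finset.mem_insert_self _ _
        mul_mem' := by
          intro a b ha hb
          simp only [Finset.coe_insert, Set.mem_insert_iff, Finset.mem_coe] at ha hb ⊢
          rcases ha with rfl | ha
          · rw [one_mul]; exact hb
          rcases hb with rfl | hb
          · rw [mul_one]; exact Or.inr ha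
          exact hclosed a ha b hb
        inv_mem' := by
          intro a ha
          rwa [show a⁻¹ = a from inv_eq_of_mul_eq_one_right (Subtype.ext (hexp _ a.2))] }
    have hU₀ : Nat.card U₀ = 8 := by
      show Nat.card ((insert (1 : V) S : Finset V) : Set V) = 8
      rw [Nat.card_coe_set_eq, Set.ncard_coe_finset, Finset.card_insert_of_notMem (by simp [S]), hS]
    refine ⟨U₀.map V.subtype, ⟨?_⟩, Subgroup.map_subtype_le _,
      by rw [Subgroup.card_map_of_injective V.subtype_injective, hU₀], ?_⟩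
    · rintro _ ⟨v, hv, rfl⟩ x
      refine ⟨π x • v, ?_, hρ x v⟩
      simp only [U₀, Subgroup.coe_set_mk, SetLike.mem_coe, Subgroup.mem_mk] at hv ⊢
      change v ∈ ((insert (1 : V) S : Finset V) : Set V) at hv
      show π x • v ∈ ((insert (1 : V) S : Finset V) : Set V)
      simp only [Finset.coe_insert, Set.mem_insert_iff, Finset.mem_coe] at hv ⊢
      rcases hv with rfl | hv
      · exact Or.inl (map_one (ρ (π x)))
      · exact Or.inr ((hinvS _ _).2 hv)
    · obtain ⟨d, hd⟩ := hπ l
      refine ⟨d, a₀, ⟨a₀, Finset.mem_insert_of_mem ha₀, rfl⟩, fun h => ?_⟩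
      rw [← hρ, hd] at h
      simp only [S, Finset.mem_filter] at ha₀
      rcases hFt a₀ (Subtype.ext h) with e | e
      · exact ha₀.2.1 e
      · exact ha₀.2.2 (e ▸ MulAction.mem_orbit_self t)

end CfsgLib.RadicalRankFour
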