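/-
RadicalRankFour: the setting of a faithful action on the Frattini quotient of a normal 2-subgroup.
-/
import Mathlib
import Cfsg.Agent.Lib.RadicalRankFour.Sixteen

set_option autoImplicit false

namespace CfsgLib.RadicalRankFour

variable {G : Type*} [Group G]

/-- The subgroup generated by the squares; for 2-groups this is the Frattini subgroup. -/
def Phi (K : Subgroup G) : Subgroup G := Subgroup.closure {x | ∃ k ∈ K, k * k = x}

theorem phi_le (K : Subgroup G) : Phi K ≤ K :=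
  (Subgroup.closure_le _).2 (by rintro _ ⟨k, hk, rfl⟩; exact mul_mem hk hk)

theorem sq_mem_phi {K : Subgroup G} {k : G} (hk : k ∈ K) : k * k ∈ Phi K :=
  Subgroup.subset_closure ⟨k, hk, rfl⟩

theorem comm_mem_phi {K : Subgroup G} {a b : G} (ha : a ∈ K) (hb : b ∈ K) :
    a * b * a⁻¹ * b⁻¹ ∈ Phi K := by
  have h1 : b⁻¹ * (a⁻¹ * a⁻¹) * b = (b⁻¹ * a⁻¹ * b) * (b⁻¹ * a⁻¹ * b) := by group
  have h : a * b * a⁻¹ * b⁻¹ = (a * b) * (a * b) * (b⁻¹ * (a⁻¹ * a⁻¹) * b) * (b⁻¹ * b⁻¹) := by group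
  rw [h, h1]
  exact mul_mem (mul_mem (sq_mem_phi (mul_mem ha hb))
    (sq_mem_phi (mul_mem (mul_mem (inv_mem hb) (inv_mem ha)) hb))) (sq_mem_phi (inv_mem hb))

instance phi_normal (K : Subgroup G) [hK : K.Normal] : (Phi K).Normal := by
  refine ⟨fun n hn x => ?_⟩
  induction hn using Subgroup.closure_induction with
  | mem y hy =>
    obtain ⟨k, hk, rfl⟩ := hy
    rw [show x * (k * k) * x⁻¹ = (x * k * x⁻¹) * (x * k * x⁻¹) by group]
    exact sq_mem_phi (hK.conj_mem k hk x)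
  | one => simp
  | mul y z _ _ hy hz =>
    rw [show x * (y * z) * x⁻¹ = (x * y * x⁻¹) * (x * z * x⁻¹) by group]; exact mul_mem hy hz
  | inv y _ hy =>
    rw [show x * y⁻¹ * x⁻¹ = (x * y * x⁻¹)⁻¹ by group]; exact inv_mem hy

theorem phi_map {H : Type*} [Group H] (f : G →* H) (K : Subgroup G) :
    Phi (K.map f) = (Phi K).map f := by
  rw [Phi, Phi, MonoidHom.map_closure]
  congr 1
  ext y
  constructor
  · rintro ⟨_, ⟨k, hk, rfl⟩, rfl⟩
    exact ⟨k * k, ⟨k, hk, rfl⟩, map_mul f k k⟩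
  · rintro ⟨_, ⟨k, hk, rfl⟩, rfl⟩
    exact ⟨f k, ⟨k, hk, rfl⟩, (map_mul f k k).symm⟩

/-- The setting: `G` acts faithfully modulo `Q = π.ker` on `Q / Φ(Q)`. -/
structure Setting {L : Type*} [Group L] (π : G →* L) : Prop where
  surj : Function.Surjective π
  two : IsPGroup 2 π.ker
  rank : Cfsg.SectionalPRankLE 2 4 G
  faithful : ∀ x : G, (∀ q ∈ π.ker, x * q * x⁻¹ * q⁻¹ ∈ Phi π.ker) → x ∈ π.ker

theorem sectional_quot (h : Cfsg.SectionalPRankLE 2 4 G) (M : Subgroup G) [M.Normal] :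
    Cfsg.SectionalPRankLE 2 4 (G ⧸ M) := by
  intro H N _ B hBc hBp
  let p := QuotientGroup.mk' M
  let f : ↥(H.comap p) →* ↥H ⧸ N := (QuotientGroup.mk' N).comp (p.subgroupComap H)
  have hf : Function.Surjective f := by
    intro q
    obtain ⟨⟨y, hy⟩, rfl⟩ := QuotientGroup.mk'_surjective N q
    obtain ⟨x, rfl⟩ := QuotientGroup.mk'_surjective M y
    exact ⟨⟨x, hy⟩, rfl⟩
  let e := QuotientGroup.quotientKerEquivOfSurjective f hf
  have hcomm : IsMulCommutative ↥(B.map e.symm.toMonoidHom) := by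
    refine ⟨⟨?_⟩⟩
    rintro ⟨_, a, ha, rfl⟩ ⟨_, b, hb, rfl⟩
    refine Subtype.ext ?_
    show e.symm a * e.symm b = e.symm b * e.symm a
    rw [← map_mul, ← map_mul, show a * b = b * a from congrArg Subtype.val (hBc.1.1 ⟨a, ha⟩ ⟨b, hb⟩)]
  have h2 := h (H.comap p) f.ker (B.map e.symm.toMonoidHom) hcomm (by
    rintro _ ⟨a, ha, rfl⟩
    show e.symm a ^ 2 = 1
    rw [← map_pow, hBp a ha, map_one])
  rwa [Subgroup.card_map_of_injective e.symm.injective] at h2

/-- An elementary abelian subgroup has order at most 16. -/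
theorem elementary_le [Finite G] (hr : Cfsg.SectionalPRankLE 2 4 G) (E : Subgroup G)
    (hexp : ∀ e ∈ E, e * e = 1) : Nat.card E ≤ 16 := by
  by_contra h
  obtain ⟨n, hn⟩ := (IsPGroup.iff_card (p := 2) (G := E)).1 fun e => ⟨1, by
    rw [pow_one, pow_two]; exact Subtype.ext (hexp _ e.2)⟩
  have h32 : 32 ≤ Nat.card E := by
    rw [hn] at h ⊢
    by_contra h'
    have : n ≤ 4 := by
      by_contra h''
      have := Nat.pow_le_pow_right (n := 2) (by norm_num) (show 5 ≤ n by omega)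
      omega
    have := Nat.pow_le_pow_right (n := 2) (by norm_num) this
    omega
  refine section_false hr E ⊥ ?_ ?_ ?_ ?_
  · intro t _ n hn; rw [Subgroup.mem_bot] at hn ⊢; subst hn; group
  · intro t ht; rw [Subgroup.mem_bot]; exact hexp t ht
  · intro s hs t ht
    rw [Subgroup.mem_bot]
    have h1 := hexp _ (mul_mem hs ht)
    rw [show s⁻¹ = s from inv_eq_of_mul_eq_one_right (hexp s hs),
      show t⁻¹ = t from inv_eq_of_mul_eq_one_right (hexp t ht)]
    rw [← h1]; group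
  · rw [Subgroup.closure_eq, sup_bot_eq, Subgroup.card_bot, mul_one]; exact h32

/-- A maximal normal subgroup below a nontrivial normal subgroup. -/
theorem exists_max_below [Finite G] (P : Subgroup G) (hP : P ≠ ⊥) :
    ∃ M : Subgroup G, M.Normal ∧ M < P ∧ ∀ N : Subgroup G, N.Normal → M ≤ N → N ≤ P → N = M ∨ N = P := by
  classical
  haveI : Finite (Subgroup G) := inferInstance
  obtain ⟨M, hM⟩ := Set.Finite.exists_maximal
    (Set.toFinite {N : Subgroup G | N.Normal ∧ N < P}) ⟨⊥, inferInstance, bot_lt_iff_ne_bot.2 hP⟩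
  refine ⟨M, hM.1.1, hM.1.2, fun N hN h1 h2 => ?_⟩
  rcases eq_or_lt_of_le h2 with e | hlt
  · exact Or.inr e
  · exact Or.inl (le_antisymm (hM.2 ⟨hN, hlt⟩ h1) h1)

/-- The cardinality of a preimage. -/
theorem card_comap_mk [Finite G] (M : Subgroup G) [M.Normal] (U : Subgroup (G ⧸ M)) :
    Nat.card (U.comap (QuotientGroup.mk' M)) = Nat.card U * Nat.card M := by
  set p := QuotientGroup.mk' M
  have hs : Function.Surjective (p.subgroupComap U) :=
    MonoidHom.subgroupComap_surjective_of_surjective p U (QuotientGroup.mk'_surjective M)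
  have hle : M ≤ U.comap p := fun m hm => by
    rw [Subgroup.mem_comap, show p m = 1 from (QuotientGroup.eq_one_iff m).2 hm]; exact one_mem _
  have hk : (p.subgroupComap U).ker = M.subgroupOf (U.comap p) := by
    ext x
    rw [MonoidHom.mem_ker, Subgroup.mem_subgroupOf, Subtype.ext_iff]
    exact QuotientGroup.eq_one_iff _
  rw [Subgroup.card_eq_card_quotient_mul_card_subgroup (M.subgroupOf (U.comap p)),
    Nat.card_congr (Subgroup.subgroupOfEquivOfLe hle).toEquiv, ← hk,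
    Nat.card_congr (QuotientGroup.quotientKerEquivOfSurjective _ hs).toEquiv]

namespace Setting

variable {L : Type*} [Group L] {π : G →* L} (hS : Setting π)
include hS

/-- Passing to a quotient below the Frattini subgroup. -/
theorem quot (M : Subgroup G) [M.Normal] (hM : M ≤ Phi π.ker) :
    Setting (QuotientGroup.lift M π (hM.trans (phi_le _))) ∧
      (QuotientGroup.lift M π (hM.trans (phi_le _))).ker = π.ker.map (QuotientGroup.mk' M) := by
  set π' := QuotientGroup.lift M π (hM.trans (phi_le _))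
  have hk : π'.ker = π.ker.map (QuotientGroup.mk' M) := QuotientGroup.ker_lift _ _ _
  have hs : Function.Surjective π' := fun l => by
    obtain ⟨x, rfl⟩ := hS.surj l
    exact ⟨x, rfl⟩
  refine ⟨⟨hs, ?_, sectional_quot hS.rank M, ?_⟩, hk⟩
  · rw [hk]; exact hS.two.map _
  · intro x hx
    obtain ⟨g, rfl⟩ := QuotientGroup.mk'_surjective M x
    rw [hk, phi_map] at hx
    rw [hk]
    refine Subgroup.mem_map_of_mem _ (hS.faithful g fun q hq => ?_)
    obtain ⟨w, hw, hwe⟩ := hx _ (Subgroup.mem_map_of_mem _ hq)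
    rw [← map_inv, ← map_inv, ← map_mul, ← map_mul, ← map_mul] at hwe
    have h1 : w⁻¹ * (g * q * g⁻¹ * q⁻¹) ∈ M := QuotientGroup.eq.1 hwe
    have := mul_mem hw (hM h1)
    rwa [mul_inv_cancel_left] at this

/-- A minimal normal subgroup inside `Q` is central in `Q` and elementary abelian. -/
theorem minimal_facts [Finite G] (Z : Subgroup G) [Z.Normal] (hZ : Z ≤ π.ker) (hne : Z ≠ ⊥)
    (hmin : ∀ N : Subgroup G, N.Normal → N ≤ Z → N = ⊥ ∨ N = Z) :
    (∀ q ∈ π.ker, ∀ z ∈ Z, q * z = z * q) ∧ ∀ z ∈ Z, z * z = 1 := by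
  classical
  haveI : Fact (Nat.Prime 2) := ⟨Nat.prime_two⟩
  have hZn : Z.Normal := inferInstance
  have hQn : π.ker.Normal := inferInstance
  let C : Subgroup G :=
    { carrier := {z | z ∈ Z ∧ ∀ q ∈ π.ker, q * z = z * q}
      one_mem' := ⟨one_mem _, fun q _ => by rw [mul_one, one_mul]⟩
      mul_mem' := fun {a b} ha hb => ⟨mul_mem ha.1 hb.1, fun q hq => by
        rw [← mul_assoc, ha.2 q hq, mul_assoc, hb.2 q hq, ← mul_assoc]⟩
      inv_mem' := fun {a} ha => ⟨inv_mem ha.1, fun q hq => ((show Commute q a from ha.2 q hq).inv_right).eq⟩ }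
  have hCn : C.Normal := ⟨fun z hz x => ⟨hZn.conj_mem z hz.1 x, fun q hq => by
    have := hz.2 _ (hQn.conj_mem' q hq x)
    calc q * (x * z * x⁻¹) = x * ((x⁻¹ * q * x) * z) * x⁻¹ := by group
      _ = x * (z * (x⁻¹ * q * x)) * x⁻¹ := by rw [this]
      _ = x * z * x⁻¹ * q := by group⟩⟩
  have hZ2 : IsPGroup 2 Z := hS.two.to_le hZ
  haveI : Nontrivial Z := (Subgroup.nontrivial_iff_ne_bot Z).2 hne
  have hdvd : 2 ∣ Nat.card Z := by
    obtain ⟨n, hn0, hn⟩ := hZ2.nontrivial_iff_card.1 inferInstance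
    rw [hn]; exact dvd_pow_self 2 hn0.ne'
  have hC : C ≠ ⊥ := by
    letI : MulAction π.ker Z :=
      { smul := fun q z => ⟨q * z * (q : G)⁻¹, hZn.conj_mem z z.2 q⟩
        one_smul := fun z => Subtype.ext (by show ((1 : π.ker) : G) * z * ((1 : π.ker) : G)⁻¹ = z; simp)
        mul_smul := fun a b z => Subtype.ext (by
          show ((a * b : π.ker) : G) * z * ((a * b : π.ker) : G)⁻¹ = a * (b * z * (b : G)⁻¹) * (a : G)⁻¹
          rw [Subgroup.coe_mul]; group) }
    obtain ⟨v, hv, hv1⟩ := hS.two.exists_fixed_point_of_prime_dvd_card_of_fixed_point Z hdvd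
      (a := 1) (fun q => Subtype.ext (by show (q : G) * ((1 : Z) : G) * (q : G)⁻¹ = 1; simp))
    intro hb
    have hmem : (v : G) ∈ C := ⟨v.2, fun q hq => by
      have h2 : q * (v : G) * q⁻¹ = v := congrArg Subtype.val (hv ⟨q, hq⟩)
      exact mul_inv_eq_iff_eq_mul.1 h2⟩
    rw [hb, Subgroup.mem_bot] at hmem
    exact hv1 (Subtype.ext hmem.symm)
  have hcen : ∀ q ∈ π.ker, ∀ z ∈ Z, q * z = z * q := by
    intro q hq z hz
    rw [← (hmin C hCn fun z hz => hz.1).resolve_left hC] at hz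
    exact hz.2 q hq
  refine ⟨hcen, ?_⟩
  let I : Subgroup G :=
    { carrier := {z | z ∈ Z ∧ z * z = 1}
      one_mem' := ⟨one_mem _, one_mul 1⟩
      mul_mem' := fun {a b} ha hb => ⟨mul_mem ha.1 hb.1, by
        rw [mul_assoc a b, ← mul_assoc b a, hcen b (hZ hb.1) a ha.1, mul_assoc a b b, hb.2, mul_one, ha.2]⟩
      inv_mem' := fun {a} ha => ⟨inv_mem ha.1, by rw [← mul_inv_rev, ha.2, inv_one]⟩ }
  have hIn : I.Normal := ⟨fun z hz x => ⟨hZn.conj_mem z hz.1 x, by
    rw [show x * z * x⁻¹ * (x * z * x⁻¹) = x * (z * z) * x⁻¹ by group, hz.2]; group⟩⟩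
  have hI : I ≠ ⊥ := by
    obtain ⟨v, hv⟩ := exists_prime_orderOf_dvd_card' (G := Z) 2 hdvd
    intro hb
    have : (v : G) ∈ I := ⟨v.2, by
      rw [← Subgroup.coe_mul, ← pow_two, ← hv, pow_orderOf_eq_one]; rfl⟩
    rw [hb, Subgroup.mem_bot] at this
    rw [show v = 1 from Subtype.ext this, orderOf_one] at hv
    omega
  intro z hz
  rw [← (hmin I hIn fun z hz => hz.1).resolve_left hI] at hz
  exact hz.2

/-- A minimal normal subgroup in `Q`: of order two and central, or natural of order eight. -/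
theorem minimal_cases [Finite G] [IsSimpleGroup L] (hL : Nat.card L = 168) (Z : Subgroup G) [Z.Normal]
    (hZ : Z ≤ π.ker) (hne : Z ≠ ⊥) (hmin : ∀ N : Subgroup G, N.Normal → N ≤ Z → N = ⊥ ∨ N = Z) :
    (Nat.card Z = 2 ∧ ∀ z ∈ Z, ∀ x : G, x * z = z * x) ∨ ∃ ζ : G → V3, Coord Z ⊥ ζ := by
  obtain ⟨hcen, hexp⟩ := hS.minimal_facts Z hZ hne hmin
  have hker : ∀ x ∈ π.ker, ∀ v ∈ Z, x * v * x⁻¹ = v := fun x hx v hv => by
    rw [hcen x hx v hv, mul_inv_cancel_right]
  by_cases htriv : ∀ x : G, ∀ z ∈ Z, x * z * x⁻¹ = z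
  · left
    refine ⟨?_, fun z hz x => mul_inv_eq_iff_eq_mul.1 (htriv x z hz)⟩
    obtain ⟨z, hz, hz1⟩ := (Subgroup.bot_or_exists_ne_one Z).resolve_left hne
    have hn : (Subgroup.zpowers z).Normal := ⟨fun w hw x => by
      rw [htriv x w (Subgroup.zpowers_le.2 hz hw)]; exact hw⟩
    rcases hmin _ hn (Subgroup.zpowers_le.2 hz) with h | h
    · exact absurd (Subgroup.zpowers_eq_bot.1 h) hz1
    · rw [← h, Nat.card_zpowers]
      exact orderOf_eq_prime (by rw [pow_two]; exact hexp z hz) hz1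
  right
  push Not at htriv
  haveI : Fact (Nat.Prime 2) := ⟨Nat.prime_two⟩
  have h16 := elementary_le hS.rank Z hexp
  obtain ⟨n, hn⟩ := IsPGroup.iff_card.1 (hS.two.to_le hZ)
  have hn3 : Nat.card Z ≠ 16 := by
    intro h
    rcases sixteen hL π hS.surj Z h hexp hker htriv with ⟨U, hU, hUle, hU8, -⟩ | ⟨t, ht, ht1, htx, -⟩
    · rcases hmin U hU hUle with e | e
      · rw [e, Subgroup.card_bot] at hU8; omega
      · rw [e] at hU8; omega
    · have hnt : (Subgroup.zpowers t).Normal := ⟨fun w ⟨k, hk⟩ x => by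
        subst hk
        refine ⟨k, ?_⟩
        show t ^ k = x * t ^ k * x⁻¹
        rw [← conj_zpow, htx]⟩
      rcases hmin _ hnt (Subgroup.zpowers_le.2 ht) with e | e
      · exact ht1 (Subgroup.zpowers_eq_bot.1 e)
      · rw [← e, Nat.card_zpowers, orderOf_eq_prime (by rw [pow_two]; exact hexp t ht) ht1] at h
        omega
  have hn4 : ¬ Nat.card Z ≤ 4 := fun h => by
    obtain ⟨x, z, hz, hxz⟩ := htriv
    exact hxz (small_trivial hL π hS.surj Z hker h x z hz)
  have hc8 : Nat.card Z = 8 := by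
    have hle : n ≤ 4 := by
      by_contra h
      have := Nat.pow_le_pow_right (n := 2) (by norm_num) (show 5 ≤ n by omega)
      omega
    interval_cases n <;> omega
  refine coord_of_section hL π hS.surj Z ⊥ bot_le (by rw [hc8, Subgroup.card_bot]) (fun r hr => ?_)
    (fun x hx r hr => ?_) ?_
  · rw [Subgroup.mem_bot]; exact hexp r hr
  · rw [Subgroup.mem_bot, hker x hx r hr, mul_inv_cancel]
  · obtain ⟨x, z, hz, hxz⟩ := htriv
    exact ⟨x, z, hz, fun h => hxz (mul_inv_eq_one.1 (Subgroup.mem_bot.1 h))⟩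

/-- The Frattini quotient: natural of order eight, or of order 16 with an invariant hyperplane or
with a fixed point. -/
theorem top_cases [Finite G] [IsSimpleGroup L] (hL : Nat.card L = 168) :
    (∃ ν : G → V3, Coord π.ker (Phi π.ker) ν) ∨
      (∃ (R : Subgroup G) (ν : G → V3) (τ : G), R.Normal ∧ R ≤ π.ker ∧ τ ∈ π.ker ∧ τ ∉ R ∧
        Coord R (Phi π.ker) ν ∧ ∀ q ∈ π.ker, q ∈ R ∨ τ⁻¹ * q ∈ R) ∨
      ∃ (t : G) (N : Subgroup G) (ν : G → V3), N.Normal ∧ t ∈ N ∧ t ∉ Phi π.ker ∧ Phi π.ker ≤ N ∧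
        (∀ n ∈ N, n ∈ Phi π.ker ∨ t⁻¹ * n ∈ Phi π.ker) ∧ (∀ x : G, x * t * x⁻¹ * t⁻¹ ∈ Phi π.ker) ∧
        Coord π.ker N ν := by
  classical
  haveI : Fact (Nat.Prime 2) := ⟨Nat.prime_two⟩
  set Q := π.ker with hQdef
  set Φ := Phi Q with hΦdef
  set p := QuotientGroup.mk' Φ with hp
  let πb : G ⧸ Φ →* L := QuotientGroup.lift Φ π (phi_le _)
  have hsb : Function.Surjective πb := fun l => by
    obtain ⟨x, rfl⟩ := hS.surj l
    exact ⟨x, rfl⟩
  set V := Q.map p with hV
  haveI hVn : V.Normal := Subgroup.Normal.map inferInstance p (QuotientGroup.mk'_surjective Φ)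
  have hmem : ∀ {x : G}, p x ∈ V ↔ x ∈ Q := by
    intro x
    refine ⟨fun ⟨y, hy, e⟩ => ?_, fun h => Subgroup.mem_map_of_mem _ h⟩
    have := mul_mem hy (phi_le Q (QuotientGroup.eq.1 e))
    rwa [mul_inv_cancel_left] at this
  have hone : ∀ x : G, p x = 1 ↔ x ∈ Φ := fun x => QuotientGroup.eq_one_iff x
  have hVexp : ∀ v ∈ V, v * v = 1 := by
    rintro _ ⟨q, hq, rfl⟩
    rw [← map_mul, hone]; exact sq_mem_phi hq
  have hkerb : ∀ x ∈ πb.ker, ∀ v ∈ V, x * v * x⁻¹ = v := by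
    rintro x hx _ ⟨q, hq, rfl⟩
    obtain ⟨g, rfl⟩ := QuotientGroup.mk'_surjective Φ x
    have hg : g ∈ Q := MonoidHom.mem_ker.1 hx
    rw [← mul_inv_eq_one, ← map_inv, ← map_mul, ← map_mul, ← map_inv, ← map_mul, hone]
    exact comm_mem_phi hg hq
  have hne : ∃ x : G ⧸ Φ, ∃ v ∈ V, x * v * x⁻¹ ≠ v := by
    by_contra hc
    push Not at hc
    obtain ⟨l, hl⟩ : ∃ l : L, l ≠ 1 := by
      haveI : Nontrivial L := IsSimpleGroup.toNontrivial
      exact exists_ne 1
    obtain ⟨x, rfl⟩ := hS.surj l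
    refine hl (MonoidHom.mem_ker.1 (hS.faithful x fun q hq => ?_))
    rw [← hone, map_mul, map_mul, map_mul, map_inv, map_inv]
    exact mul_inv_eq_one.2 (hc _ _ (Subgroup.mem_map_of_mem _ hq))
  have hVQ : V.comap p = Q := by ext x; exact hmem
  have hQcard : Nat.card Q = Nat.card V * Nat.card Φ := by rw [← card_comap_mk Φ V, ← hp, hVQ]
  have h16 := elementary_le (sectional_quot hS.rank Φ) V hVexp
  obtain ⟨n, hn⟩ := IsPGroup.iff_card.1 (hS.two.map p)
  rw [← hV] at hn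
  have hn4 : ¬ Nat.card V ≤ 4 := fun h => by
    obtain ⟨x, v, hv, hxv⟩ := hne
    exact hxv (small_trivial hL πb hsb V hkerb h x v hv)
  have hcQ : ∀ x ∈ Q, ∀ r ∈ Q, x * r * x⁻¹ * r⁻¹ ∈ Φ := fun x hx r hr => comm_mem_phi hx hr
  have hcases : Nat.card V = 8 ∨ Nat.card V = 16 := by
    have hle : n ≤ 4 := by
      by_contra h
      have := Nat.pow_le_pow_right (n := 2) (by norm_num) (show 5 ≤ n by omega)
      omega
    interval_cases n <;> omega
  rcases hcases with h8 | h16'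
  · left
    refine coord_of_section hL π hS.surj Q Φ (phi_le _) (by rw [hQcard, h8]) (fun r hr => sq_mem_phi hr)
      hcQ ?_
    obtain ⟨x, v, ⟨q, hq, rfl⟩, hxv⟩ := hne
    obtain ⟨g, rfl⟩ := QuotientGroup.mk'_surjective Φ x
    refine ⟨g, q, hq, fun h => hxv ?_⟩
    rw [← hone, map_mul, map_mul, map_mul, map_inv, map_inv] at h
    exact mul_inv_eq_one.1 h
  rcases sixteen hL πb hsb V h16' hVexp hkerb hne with ⟨U, hU, hUle, hU8, x, u, hu, hxu⟩ | ⟨t, ht, ht1, htx, x, v, hv, hxv⟩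
  · right; left
    haveI hRn : (U.comap p).Normal := hU.comap p
    have hle : Φ ≤ U.comap p := fun m hm => by
      rw [Subgroup.mem_comap, (hone m).2 hm]; exact one_mem _
    have hRQ : U.comap p ≤ Q := fun r hr => hmem.1 (hUle hr)
    have hRc : Nat.card (U.comap p) = 8 * Nat.card Φ := by rw [card_comap_mk, hU8]
    obtain ⟨g, rfl⟩ := QuotientGroup.mk'_surjective Φ x
    obtain ⟨q, rfl⟩ := QuotientGroup.mk'_surjective Φ u
    obtain ⟨ν, hν⟩ := coord_of_section hL π hS.surj (U.comap p) Φ hle hRc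
      (fun r hr => sq_mem_phi (hRQ hr)) (fun x hx r hr => hcQ x hx r (hRQ hr)) ⟨g, q, hu, fun h => hxu (by
        rw [← hone, map_mul, map_mul, map_mul, map_inv, map_inv] at h
        exact mul_inv_eq_one.1 h)⟩
    obtain ⟨τ, hτ, hτR⟩ : ∃ τ ∈ Q, τ ∉ U.comap p := by
      by_contra hc
      push Not at hc
      have h1 := Nat.card_mono (Set.toFinite _) (show (Q : Set G) ⊆ (U.comap p : Set G) from hc)
      simp only [SetLike.coe_sort_coe] at h1
      rw [hRc, hQcard, h16'] at h1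
      have : 0 < Nat.card Φ := Nat.card_pos
      omega
    refine ⟨_, ν, τ, hRn, hRQ, hτ, hτR, hν, fun q hq => ?_⟩
    have hidx : ((U.comap p).subgroupOf Q).index = 2 := by
      have h1 := Subgroup.card_mul_index ((U.comap p).subgroupOf Q)
      rw [Nat.card_congr (Subgroup.subgroupOfEquivOfLe hRQ).toEquiv, hRc, hQcard, h16'] at h1
      have : 0 < Nat.card Φ := Nat.card_pos
      nlinarith
    by_cases hq' : q ∈ U.comap p
    · exact Or.inl hq'
    right
    have h := Subgroup.mul_mem_iff_of_index_two hidx (a := (⟨τ, hτ⟩⁻¹ : Q)) (b := ⟨q, hq⟩)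
    simp only [Subgroup.mem_subgroupOf, Subgroup.coe_mul, Subgroup.coe_inv, inv_mem_iff] at h
    exact h.2 (iff_of_false hτR hq')
  · right; right
    obtain ⟨t, rfl⟩ := QuotientGroup.mk'_surjective Φ t
    obtain ⟨g, rfl⟩ := QuotientGroup.mk'_surjective Φ x
    obtain ⟨q, rfl⟩ := QuotientGroup.mk'_surjective Φ v
    haveI hzn : (Subgroup.zpowers (p t)).Normal := ⟨fun w ⟨k, hk⟩ x => by
      subst hk
      refine ⟨k, ?_⟩
      show p t ^ k = x * p t ^ k * x⁻¹
      rw [← conj_zpow, htx]⟩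
    set N := (Subgroup.zpowers (p t)).comap p with hN
    haveI hNn : N.Normal := hzn.comap p
    have hNQ : N ≤ Q := fun r hr => hmem.1 ((Subgroup.zpowers_le.2 ht) hr)
    have htΦ : t ∉ Φ := fun h => ht1 ((hone t).2 h)
    have hle : Φ ≤ N := fun m hm => by rw [hN, Subgroup.mem_comap, (hone m).2 hm]; exact one_mem _
    have ho : orderOf (p t) = 2 := orderOf_eq_prime (by rw [pow_two]; exact hVexp _ ht) ht1
    have hNc : Nat.card N = 2 * Nat.card Φ := by rw [hN, card_comap_mk, Nat.card_zpowers, ho]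
    obtain ⟨ν, hν⟩ := coord_of_section hL π hS.surj Q N hNQ (by rw [hQcard, h16', hNc]; ring)
      (fun r hr => hle (sq_mem_phi hr)) (fun x hx r hr => hle (hcQ x hx r hr)) ⟨g, q, hmem.1 hv, fun h => hxv (by
        rw [← map_inv, ← map_inv, ← map_mul, ← map_mul, ← map_mul]; exact h)⟩
    refine ⟨t, N, ν, hNn, Subgroup.mem_zpowers _, htΦ, hle, fun m hm => ?_, fun x => ?_, hν⟩
    · obtain ⟨k, hk⟩ := hm
      have hk' : p t ^ k = p m := hk
      have ht2 : p t * p t = 1 := hVexp _ ht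
      rcases Int.even_or_odd k with ⟨j, rfl⟩ | ⟨j, rfl⟩
      · left
        rw [← hone, ← hk', ← two_mul, zpow_mul, zpow_two, ht2, one_zpow]
      · right
        rw [← hone, map_mul, map_inv, ← hk', zpow_add, zpow_mul, zpow_two, ht2, one_zpow, one_mul, zpow_one,
          inv_mul_cancel]
    · rw [← hone, map_mul, map_mul, map_mul, map_inv, map_inv]
      exact mul_inv_eq_one.2 (htx _)

end Setting

end CfsgLib.RadicalRankFour
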