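/-
RadicalRankFour: the 2-radical under the alternating group of degree five in sectional rank four.
-/
import Mathlib
import Cfsg.Agent.Lib.RadicalRankFour.Layer
import Cfsg.Agent.Lib.RadicalRankFour.Four
import Cfsg.Agent.Lib.RadicalRankFour.A5Quad

set_option autoImplicit false

namespace CfsgLib.RadicalRankFour

variable {G : Type*} [Group G] [Finite G] {π : G →* A5}

omit [Finite G] in
theorem sq_mul_comm (a b : G) (h : ∀ x : G, x = a ∨ x = b → x * (b * a * b⁻¹ * a⁻¹) = b * a * b⁻¹ * a⁻¹ * x) :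
    a * b * (a * b) = a * a * (b * b) * (b * a * b⁻¹ * a⁻¹) := by
  have ha := h a (Or.inl rfl)
  have hb := h b (Or.inr rfl)
  calc a * b * (a * b) = a * ((b * a * b⁻¹ * a⁻¹) * a) * (b * b) := by group
    _ = a * a * ((b * a * b⁻¹ * a⁻¹) * b) * b := by rw [← ha]; group
    _ = a * a * b * ((b * a * b⁻¹ * a⁻¹) * b) := by nth_rewrite 1 [← hb]; group
    _ = a * a * (b * b) * (b * a * b⁻¹ * a⁻¹) := by rw [← hb]; group

namespace Setting

variable (hS : Setting π)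
include hS

/-- A minimal normal subgroup in `Q`: central of order two, or a faithful module of order 16. -/
theorem minimal_cases_five (Z : Subgroup G) [Z.Normal]
    (hZ : Z ≤ π.ker) (hne : Z ≠ ⊥) (hmin : ∀ N : Subgroup G, N.Normal → N ≤ Z → N = ⊥ ∨ N = Z) :
    (Nat.card Z = 2 ∧ ∀ z ∈ Z, ∀ x : G, x * z = z * x) ∨ (Nat.card Z = 16 ∧ ∃ x : G, ∃ z ∈ Z, x * z * x⁻¹ ≠ z) := by
  classical
  haveI : Fact (Nat.Prime 2) := ⟨Nat.prime_two⟩
  obtain ⟨hcen, hexp⟩ := hS.minimal_facts Z hZ hne hmin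
  by_cases htriv : ∀ x : G, ∀ z ∈ Z, x * z * x⁻¹ = z
  · left
    refine ⟨?_, fun z hz x => mul_inv_eq_iff_eq_mul.1 (htriv x z hz)⟩
    obtain ⟨z, hz, hz1⟩ := (Subgroup.bot_or_exists_ne_one Z).resolve_left hne
    have hn : (Subgroup.zpowers z).Normal := ⟨fun w hw x => by
      rw [htriv x w (Subgroup.zpowers_le.2 hz hw)]; exact hw⟩
    rcases hmin _ hn (Subgroup.zpowers_le.2 hz) with h | h
    · exact absurd (Subgroup.zpowers_eq_bot.1 h) hz1
    · rw [← h, Nat.card_zpowers]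
      exact orderOf_eq_prime (by rw [pow_two]; exact hexp z hz) hz1
  right
  push Not at htriv
  refine ⟨?_, htriv⟩
  have h16 := elementary_le hS.rank Z hexp
  obtain ⟨n, hn⟩ := IsPGroup.iff_card.1 (hS.two.to_le hZ)
  by_contra hne16
  have hn3 : n ≤ 3 := by
    by_contra h
    rcases eq_or_ne n 4 with rfl | h4
    · exact hne16 hn
    have := Nat.pow_le_pow_right (n := 2) (by norm_num) (show 5 ≤ n by omega)
    omega
  letI : CommGroup Z := { (inferInstance : Group Z) with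
    mul_comm := fun a b => Subtype.ext (hcen _ (hZ a.2) _ b.2) }
  obtain ⟨ρ, hρ⟩ := exists_conj_hom π hS.surj Z fun x hx v hv => by
    rw [hcen x hx v hv, mul_inv_cancel_right]
  have h1 := small_action_trivial (M := Z) ρ hn hn3
  obtain ⟨x, z, hz, hxz⟩ := htriv
  have h := hρ x ⟨z, hz⟩
  rw [h1] at h
  exact hxz h.symm

/-- A minimal Frattini subgroup gives an extraspecial group of minus type. -/
theorem layer_five (hne : Phi π.ker ≠ ⊥)
    (hmin : ∀ N : Subgroup G, N.Normal → N ≤ Phi π.ker → N = ⊥ ∨ N = Phi π.ker) :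
    Nat.card (Phi π.ker) = 2 ∧ Nat.card π.ker = 32 ∧ ∃ x : Fin 5 → G,
      (∀ i, x i ∈ π.ker ∧ x i * x i = 1) ∧ (∀ i j, i ≠ j → x i * x j * (x i * x j) ≠ 1) ∧
      (∀ (g : G) (i : Fin 5), (x (((π g : A5) : Equiv.Perm (Fin 5)) i))⁻¹ * (g * x i * g⁻¹) ∈ Phi π.ker) ∧
      x 0 * x 1 * x 2 * x 3 * x 4 ∈ Phi π.ker ∧
      ∀ q ∈ π.ker, q ∈ Phi π.ker ∨ (∃ i, (x i)⁻¹ * q ∈ Phi π.ker) ∨
        ∃ i j, i ≠ j ∧ (x i * x j)⁻¹ * q ∈ Phi π.ker := by
  classical
  haveI : Fact (Nat.Prime 2) := ⟨Nat.prime_two⟩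
  set Q := π.ker with hQ
  set Z := Phi Q with hZdef
  have hQn : Q.Normal := inferInstance
  obtain ⟨hcen, hZ2⟩ := hS.minimal_facts Z (phi_le _) hne hmin
  set p := QuotientGroup.mk' Z with hp
  have hone : ∀ x : G, p x = 1 ↔ x ∈ Z := fun x => QuotientGroup.eq_one_iff x
  let πb : G ⧸ Z →* A5 := QuotientGroup.lift Z π (phi_le _)
  have hsb : Function.Surjective πb := fun l => by
    obtain ⟨x, rfl⟩ := hS.surj l
    exact ⟨x, rfl⟩
  set V := Q.map p with hV
  haveI hVn : V.Normal := Subgroup.Normal.map inferInstance p (QuotientGroup.mk'_surjective Z)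
  have hmem : ∀ {x : G}, p x ∈ V ↔ x ∈ Q := by
    intro x
    refine ⟨fun ⟨y, hy, e⟩ => ?_, fun h => Subgroup.mem_map_of_mem _ h⟩
    have := mul_mem hy (phi_le Q (QuotientGroup.eq.1 e))
    rwa [mul_inv_cancel_left] at this
  have hVexp : ∀ v ∈ V, v * v = 1 := by
    rintro _ ⟨q, hq, rfl⟩
    rw [← map_mul, hone]; exact sq_mem_phi hq
  letI iV : CommGroup V := { (inferInstance : Group V) with
    mul_comm := fun a b => Subtype.ext (by
      obtain ⟨x, hx, hxe⟩ := a.2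
      obtain ⟨y, hy, hye⟩ := b.2
      show (a : G ⧸ Z) * b = b * a
      rw [← hxe, ← hye, ← mul_inv_eq_iff_eq_mul, ← mul_inv_eq_one]
      rw [← map_mul, ← map_inv, ← map_inv, ← map_mul, ← map_mul, hone]
      exact comm_mem_phi hx hy) }
  have hkerb : ∀ x ∈ πb.ker, ∀ v ∈ V, x * v * x⁻¹ = v := by
    rintro x hx _ ⟨q, hq, rfl⟩
    obtain ⟨g, rfl⟩ := QuotientGroup.mk'_surjective Z x
    have hg : g ∈ Q := MonoidHom.mem_ker.1 hx
    rw [← mul_inv_eq_one, ← map_inv, ← map_mul, ← map_mul, ← map_inv, ← map_mul, hone]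
    exact comm_mem_phi hg hq
  obtain ⟨ρ, hρ⟩ := exists_conj_hom πb hsb V hkerb
  have hρinj : Function.Injective ρ := by
    rw [← MonoidHom.ker_eq_bot_iff]
    rcases IsSimpleGroup.eq_bot_or_eq_top_of_normal ρ.ker inferInstance with h | h
    · exact h
    exfalso
    obtain ⟨l, hl⟩ : ∃ l : A5, l ≠ 1 := exists_ne 1
    obtain ⟨g, rfl⟩ := hS.surj l
    refine hl (MonoidHom.mem_ker.1 (hS.faithful g fun q hq => ?_))
    have h1 : ρ (π g) = 1 := MonoidHom.mem_ker.1 (h ▸ Subgroup.mem_top _)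
    have h2 := hρ (p g) ⟨p q, Subgroup.mem_map_of_mem p hq⟩
    rw [show πb (p g) = π g from rfl, h1] at h2
    rw [← hone, map_mul, map_mul, map_mul, map_inv, map_inv]
    exact mul_inv_eq_one.2 h2.symm
  have hVcard : Nat.card V = 16 := by
    have h16 := elementary_le (sectional_quot hS.rank Z) V hVexp
    obtain ⟨n, hn⟩ := IsPGroup.iff_card.1 (hS.two.map p)
    rw [← hQ, ← hV] at hn
    by_contra hne16
    have hn3 : n ≤ 3 := by
      by_contra h
      rcases eq_or_ne n 4 with rfl | h4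
      · exact hne16 hn
      have := Nat.pow_le_pow_right (n := 2) (by norm_num) (show 5 ≤ n by omega)
      omega
    have h1 := small_action_trivial ρ hn hn3
    obtain ⟨l, hl⟩ : ∃ l : A5, l ≠ 1 := exists_ne 1
    exact hl (hρinj (by rw [h1]; rfl))
  have hM : Mod5 ρ := ⟨hVcard, fun v => Subtype.ext (hVexp _ v.2), hρinj⟩
  have hQcard : Nat.card Q = 16 * Nat.card Z := by
    rw [← hVcard, ← card_comap_mk Z V, ← hp]
    congr 1
    rw [show V.comap p = Q by ext x; exact hmem]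
  choose s hs hse using fun v : V => v.2
  have hsq : ∀ r ∈ Q, r * r ∈ Z := fun r hr => sq_mem_phi hr
  have hc : ∀ a ∈ Q, ∀ b ∈ Q, a * b * a⁻¹ * b⁻¹ ∈ Z := fun a ha b hb => comm_mem_phi ha hb
  have hsqwd : ∀ a ∈ Q, ∀ z ∈ Z, a * z * (a * z) = a * a := fun a ha z hz => by
    rw [show a * z * (a * z) = a * (z * a) * z by group, ← hcen a ha z hz,
      show a * (a * z) * z = a * a * (z * z) by group, hZ2 z hz, mul_one]
  have hcwd : ∀ a ∈ Q, ∀ b ∈ Q, ∀ z ∈ Z, ∀ w ∈ Z,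
      a * z * (b * w) * (a * z)⁻¹ * (b * w)⁻¹ = a * b * a⁻¹ * b⁻¹ := by
    intro a ha b hb z hz w hw
    have h1 := hcen b hb z hz
    have h2 := hcen (b) hb w hw
    have h3 := hcen z (phi_le _ hz) w hw
    calc a * z * (b * w) * (a * z)⁻¹ * (b * w)⁻¹ = a * ((z * b) * w) * z⁻¹ * a⁻¹ * w⁻¹ * b⁻¹ := by group
      _ = a * (b * (z * w)) * z⁻¹ * a⁻¹ * w⁻¹ * b⁻¹ := by rw [← h1]; group
      _ = a * b * (w * (a⁻¹ * w⁻¹)) * b⁻¹ := by rw [h3]; group
      _ = _ := by rw [hcen a⁻¹ (inv_mem ha) _ (inv_mem hw)]; group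
  have hbil : ∀ a ∈ Q, ∀ b ∈ Q, ∀ c ∈ Q,
      b * c * a * (b * c)⁻¹ * a⁻¹ = b * a * b⁻¹ * a⁻¹ * (c * a * c⁻¹ * a⁻¹) := by
    intro a ha b hb c hc'
    have h := hcen b hb _ (hc c hc' a ha)
    calc b * c * a * (b * c)⁻¹ * a⁻¹ = (b * (c * a * c⁻¹ * a⁻¹)) * a * b⁻¹ * a⁻¹ := by group
      _ = (c * a * c⁻¹ * a⁻¹) * (b * a * b⁻¹ * a⁻¹) := by rw [h]; group
      _ = _ := (hcen _ (phi_le _ (hc b hb a ha)) _ (hc c hc' a ha)).symm
  have hlift : ∀ a (ha : a ∈ Q), (s ⟨p a, hmem.2 ha⟩)⁻¹ * a ∈ Z := fun a ha => by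
    rw [← hone, map_mul, map_inv, hse]; exact inv_mul_cancel _
  have hsqspec : ∀ a (ha : a ∈ Q), s ⟨p a, hmem.2 ha⟩ * s ⟨p a, hmem.2 ha⟩ = a * a := fun a ha => by
    conv_rhs => rw [show a = s ⟨p a, hmem.2 ha⟩ * ((s ⟨p a, hmem.2 ha⟩)⁻¹ * a) by group]
    rw [hsqwd _ (hs _) _ (hlift a ha)]
  have hcspec : ∀ a (ha : a ∈ Q) b (hb : b ∈ Q),
      s ⟨p a, hmem.2 ha⟩ * s ⟨p b, hmem.2 hb⟩ * (s ⟨p a, hmem.2 ha⟩)⁻¹ * (s ⟨p b, hmem.2 hb⟩)⁻¹ =
        a * b * a⁻¹ * b⁻¹ := fun a ha b hb => by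
    have h := hcwd _ (hs ⟨p a, hmem.2 ha⟩) _ (hs ⟨p b, hmem.2 hb⟩) _ (hlift a ha) _ (hlift b hb)
    rw [mul_inv_cancel_left, mul_inv_cancel_left] at h
    exact h.symm
  have hsmul : ∀ a b, s (a * b) * s (a * b) = s a * s a * (s b * s b) * (s b * s a * (s b)⁻¹ * (s a)⁻¹) := by
    intro a b
    have hab := mul_mem (hs a) (hs b)
    have h := hsqspec _ hab
    rw [show (⟨p (s a * s b), hmem.2 hab⟩ : V) = a * b from Subtype.ext (by show p (s a * s b) = _; rw [map_mul, hse, hse]; rfl)] at h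
    rw [h, sq_mul_comm]
    rintro x (rfl | rfl)
    · exact hcen _ (hs a) _ (hc _ (hs b) _ (hs a))
    · exact hcen _ (hs b) _ (hc _ (hs b) _ (hs a))
  have hsym : ∀ a b : V, s b * s a * (s b)⁻¹ * (s a)⁻¹ = s a * s b * (s a)⁻¹ * (s b)⁻¹ := fun a b => by
    rw [show s b * s a * (s b)⁻¹ * (s a)⁻¹ = (s a * s b * (s a)⁻¹ * (s b)⁻¹)⁻¹ by group]
    exact inv_eq_of_mul_eq_one_right (hZ2 _ (hc _ (hs a) _ (hs b)))
  have hsbil : ∀ a b c : V, s (b * c) * s a * (s (b * c))⁻¹ * (s a)⁻¹ =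
      s b * s a * (s b)⁻¹ * (s a)⁻¹ * (s c * s a * (s c)⁻¹ * (s a)⁻¹) := by
    intro a b c
    have hbc := mul_mem (hs b) (hs c)
    have h := hcspec _ hbc _ (hs a)
    rw [show (⟨p (s b * s c), hmem.2 hbc⟩ : V) = b * c from Subtype.ext (by show p (s b * s c) = _; rw [map_mul, hse, hse]; rfl),
      show (⟨p (s a), hmem.2 (hs a)⟩ : V) = a from Subtype.ext (hse a)] at h
    rw [h, hbil _ (hs a) _ (hs b) _ (hs c)]
  have hequiv : ∀ (g : G) (v : V), s (ρ (π g) v) * s (ρ (π g) v) = g * (s v * s v) * g⁻¹ := by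
    intro g v
    have hg := hQn.conj_mem _ (hs v) g
    have h := hsqspec _ hg
    rw [show (⟨p (g * s v * g⁻¹), hmem.2 hg⟩ : V) = ρ (π g) v from Subtype.ext (by
      show p (g * s v * g⁻¹) = _
      rw [map_mul, map_mul, map_inv, hse]; exact (hρ (p g) v).symm)] at h
    rw [h]; group
  have hQcen : ∀ x ∈ π.ker, ∀ v ∈ Z, x * v * x⁻¹ = v := fun x hx v hv => by
    rw [hcen x hx v hv, mul_inv_cancel_right]
  rcases hS.minimal_cases_five Z (phi_le _) hne hmin with ⟨hc2, hZc⟩ | ⟨hc16, hZne⟩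
  · refine ⟨hc2, by rw [hQcard, hc2], ?_⟩
    have hnotelem : ∃ v : V, sgn (s v * s v) ≠ 0 := by
      by_contra hall
      push Not at hall
      refine hne (eq_bot_iff.2 ((Subgroup.closure_le _).2 ?_))
      rintro _ ⟨k, hk, rfl⟩
      show k * k ∈ (⊥ : Subgroup G)
      rw [Subgroup.mem_bot, ← hsqspec k hk]
      exact sgn_eq_zero.1 (hall _)
    obtain ⟨v, hv, hv0, hv1⟩ := quad_trivial hM (fun v => sgn (s v * s v)) (fun σ v => by
        obtain ⟨g, rfl⟩ := hS.surj σ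
        show sgn _ = sgn _
        rw [hequiv, hZc _ (hsq _ (hs v)), mul_inv_cancel_right])
      (fun a b => sgn (s b * s a * (s b)⁻¹ * (s a)⁻¹))
      (fun a b => by
        rw [hsmul, sgn_mul hc2 (mul_mem (hsq _ (hs a)) (hsq _ (hs b))) (hc _ (hs b) _ (hs a)),
          sgn_mul hc2 (hsq _ (hs a)) (hsq _ (hs b))])
      (fun a b => by rw [hsym])
      (fun a b c => by rw [hsbil, sgn_mul hc2 (hc _ (hs b) _ (hs a)) (hc _ (hs c) _ (hs a))])
      hnotelem
    refine ⟨fun i => s (v i), fun i => ⟨hs _, sgn_eq_zero.1 (hv0 i)⟩, fun i j hij h => ?_, fun g i => ?_,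
      ?_, fun q hq => ?_⟩
    · have hab := mul_mem (hs (v i)) (hs (v j))
      have h' := hsqspec _ hab
      rw [show (⟨p (s (v i) * s (v j)), hmem.2 hab⟩ : V) = v i * v j from
        Subtype.ext (by show p (s (v i) * s (v j)) = _; rw [map_mul, hse, hse]; rfl)] at h'
      have h'' : sgn (s (v i * v j) * s (v i * v j)) = 1 := hv1 i j hij
      rw [h', h, sgn_eq_zero.2 rfl] at h''
      exact zero_ne_one h''
    · rw [← hone, map_mul, map_mul, map_mul, map_inv, map_inv, hse, hse, inv_mul_eq_one, ← hv.perm]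
      exact hρ (p g) (v i)
    · rw [← hone, map_mul, map_mul, map_mul, map_mul, hse, hse, hse, hse, hse]
      exact congrArg Subtype.val hv.prod
    · rcases hv.cases ⟨p q, hmem.2 hq⟩ with h | ⟨i, h⟩ | ⟨i, j, hij, h⟩
      · exact Or.inl ((hone q).1 (congrArg Subtype.val h))
      · refine Or.inr (Or.inl ⟨i, ?_⟩)
        rw [← hone, map_mul, map_inv, hse, inv_mul_eq_one]
        exact (congrArg Subtype.val h).symm
      · refine Or.inr (Or.inr ⟨i, j, hij, ?_⟩)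
        rw [← hone, map_mul, map_inv, map_mul, hse, hse, inv_mul_eq_one]
        exact (congrArg Subtype.val h).symm
  -- a natural kernel is impossible
  exfalso
  letI iZ : CommGroup Z := { (inferInstance : Group Z) with
    mul_comm := fun a b => Subtype.ext (hcen _ (phi_le _ a.2) _ b.2) }
  obtain ⟨ρ', hρ'⟩ := exists_conj_hom π hS.surj Z hQcen
  have hρ'inj : Function.Injective ρ' := by
    rw [← MonoidHom.ker_eq_bot_iff]
    rcases IsSimpleGroup.eq_bot_or_eq_top_of_normal ρ'.ker inferInstance with h | h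
    · exact h
    exfalso
    obtain ⟨x, z, hz, hxz⟩ := hZne
    have h1 : ρ' (π x) = 1 := MonoidHom.mem_ker.1 (h ▸ Subgroup.mem_top _)
    have h2 := hρ' x ⟨z, hz⟩
    rw [h1] at h2
    exact hxz h2.symm
  have hN : Mod5 ρ' := ⟨hc16, fun z => Subtype.ext (hZ2 _ z.2), hρ'inj⟩
  let q : V → Z := fun v => ⟨s v * s v, hsq _ (hs v)⟩
  have hqeq : ∀ σ v, q (ρ σ v) = ρ' σ (q v) := by
    intro σ v
    obtain ⟨g, rfl⟩ := hS.surj σ
    exact Subtype.ext ((hequiv g v).trans (hρ' g (q v)).symm)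
  have hinvol : ∀ a ∈ Q, a * a = 1 → a ∈ Z := by
    intro a ha h2
    by_contra haZ
    let E : Subgroup G :=
      { carrier := {w | w ∈ Z ∨ a⁻¹ * w ∈ Z}
        one_mem' := Or.inl (one_mem _)
        mul_mem' := by
          intro x y hx hy
          have hxQ : x ∈ Q := by
            rcases hx with h | h
            · exact phi_le _ h
            · simpa using mul_mem ha (phi_le _ h)
          rcases hx with hx | hx <;> rcases hy with hy | hy
          · exact Or.inl (mul_mem hx hy)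
          · right
            rw [show a⁻¹ * (x * y) = a⁻¹ * (x * a) * (a⁻¹ * y) by group, ← hcen a ha x hx,
              show a⁻¹ * (a * x) = x by group]
            exact mul_mem hx hy
          · right
            rw [← mul_assoc]; exact mul_mem hx hy
          · left
            rw [show x * y = a * ((a⁻¹ * x) * a) * (a⁻¹ * y) by group, ← hcen a ha _ hx,
              show a * (a * (a⁻¹ * x)) * (a⁻¹ * y) = a * a * ((a⁻¹ * x) * (a⁻¹ * y)) by group, h2, one_mul]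
            exact mul_mem hx hy
        inv_mem' := by
          intro x hx
          rcases hx with hx | hx
          · exact Or.inl (inv_mem hx)
          · right
            have e : a⁻¹ * x⁻¹ = a⁻¹ * ((a⁻¹ * x)⁻¹ * a⁻¹) := by group
            rw [e, ← hcen a⁻¹ (inv_mem ha) _ (inv_mem hx),
              show a⁻¹ * (a⁻¹ * (a⁻¹ * x)⁻¹) = (a * a)⁻¹ * (a⁻¹ * x)⁻¹ by group, h2, inv_one, one_mul]
            exact inv_mem hx }
    have hexp : ∀ w ∈ E, w * w = 1 := by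
      intro w hw
      rcases hw with hw | hw
      · exact hZ2 w hw
      · calc w * w = a * (a⁻¹ * w) * (a * (a⁻¹ * w)) := by group
          _ = a * a := hsqwd a ha _ hw
          _ = 1 := h2
    have hle := elementary_le hS.rank E hexp
    have hge := card_closure_ge E Z (fun z hz => Or.inl hz) (fun b : Bool => if b then a else 1) (fun b => by
      cases b
      · exact one_mem E
      · exact Or.inr (by simp [one_mem])) (fun i j h => by
      cases i <;> cases j <;> simp at h ⊢ <;> exact haZ h)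
    rw [show Nat.card Bool = 2 by simp] at hge
    omega
  have h0 : ∀ v, q v = 1 ↔ v = 1 := by
    intro v
    refine ⟨fun h => Subtype.ext ?_, fun h => ?_⟩
    · rw [← hse v]
      exact (hone _).2 (hinvol _ (hs v) (congrArg Subtype.val h))
    · subst h
      apply Subtype.ext
      show s 1 * s 1 = 1
      exact hZ2 _ ((hone _).1 (hse 1))
  have hab1 := quad_multiplicative hM hN q hqeq h0
    (fun a b => ⟨s b * s a * (s b)⁻¹ * (s a)⁻¹, hc _ (hs b) _ (hs a)⟩)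
    (fun a b => Subtype.ext (hsmul a b)) (fun a b => Subtype.ext (hsym a b))
    (fun a b c => Subtype.ext (hsbil a b c)) (fun W N₀ hWN hle => by
      let T : Set G := {a | ∃ ha : a ∈ Q, (⟨p a, hmem.2 ha⟩ : V) ∈ W}
      have hq0 : ∀ a (ha : a ∈ Q), (⟨p a, hmem.2 ha⟩ : V) ∈ W → a * a ∈ N₀.map Z.subtype :=
        fun a ha h => ⟨q _, hWN _ h, hsqspec a ha⟩
      refine section_false hS.rank T (N₀.map Z.subtype) ?_ ?_ ?_ ?_
      · rintro t ⟨ht, -⟩ _ ⟨n, hn, rfl⟩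
        refine ⟨n, hn, ?_⟩
        show (n : G) = t * n * t⁻¹
        rw [hQcen t ht _ n.2]
      · rintro t ⟨ht, htW⟩
        exact hq0 t ht htW
      · rintro a ⟨ha, haW⟩ b ⟨hb, hbW⟩
        have hab := mul_mem ha hb
        have h1 := hq0 a ha haW
        have h2 := hq0 b hb hbW
        have h3 := hq0 _ hab (by
          rw [show (⟨p (a * b), hmem.2 hab⟩ : V) = ⟨p a, hmem.2 ha⟩ * ⟨p b, hmem.2 hb⟩ from
            Subtype.ext (map_mul p a b)]
          exact mul_mem haW hbW)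
        have e : a * b * (a * b) = a * a * (b * b) * (b * a * b⁻¹ * a⁻¹) := sq_mul_comm a b (by
          rintro x (rfl | rfl)
          · exact hcen _ ha _ (hc b hb _ ha)
          · exact hcen _ hb _ (hc _ hb a ha))
        rw [e] at h3
        have h4 := mul_mem (inv_mem (mul_mem h1 h2)) h3
        rw [inv_mul_cancel_left] at h4
        have h5 := inv_mem h4
        rwa [show (b * a * b⁻¹ * a⁻¹)⁻¹ = a * b * a⁻¹ * b⁻¹ by group] at h5
      · rw [Subgroup.card_map_of_injective Z.subtype_injective]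
        let TG : Subgroup G :=
          { carrier := T
            one_mem' := ⟨one_mem _, by
              rw [show (⟨p 1, hmem.2 (one_mem Q)⟩ : V) = 1 from Subtype.ext (map_one p)]
              exact one_mem W⟩
            mul_mem' := fun {a b} ⟨ha, haW⟩ ⟨hb, hbW⟩ => ⟨mul_mem ha hb, by
              rw [show (⟨p (a * b), hmem.2 (mul_mem ha hb)⟩ : V) = ⟨p a, hmem.2 ha⟩ * ⟨p b, hmem.2 hb⟩ from
                Subtype.ext (map_mul p a b)]
              exact mul_mem haW hbW⟩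
            inv_mem' := fun {a} ⟨ha, haW⟩ => ⟨inv_mem ha, by
              rw [show (⟨p a⁻¹, hmem.2 (inv_mem ha)⟩ : V) = ⟨p a, hmem.2 ha⟩⁻¹ from
                Subtype.ext (map_inv p a)]
              exact inv_mem haW⟩ }
        have hcl : TG ≤ Subgroup.closure T ⊔ N₀.map Z.subtype :=
          fun a ha => Subgroup.mem_sup_left (Subgroup.subset_closure ha)
        have hTG : Nat.card TG = Nat.card W * 16 := by
          have e : TG = (W.map V.subtype).comap p := by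
            ext a
            constructor
            · rintro ⟨ha, haW⟩; exact ⟨_, haW, rfl⟩
            · rintro ⟨w, hw, hwe⟩
              have ha : a ∈ Q := hmem.1 (hwe ▸ w.2)
              exact ⟨ha, (show (⟨p a, hmem.2 ha⟩ : V) = w from Subtype.ext hwe.symm) ▸ hw⟩
          rw [e, card_comap_mk, Subgroup.card_map_of_injective V.subtype_injective, hc16]
        have := Subgroup.card_le_of_le hcl
        omega)
  have hQab : ∀ a ∈ Q, ∀ b ∈ Q, a * b = b * a := by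
    intro a ha b hb
    have h : s ⟨p a, hmem.2 ha⟩ * s ⟨p b, hmem.2 hb⟩ * (s ⟨p a, hmem.2 ha⟩)⁻¹ *
        (s ⟨p b, hmem.2 hb⟩)⁻¹ = 1 :=
      congrArg Subtype.val (hab1 ⟨p b, hmem.2 hb⟩ ⟨p a, hmem.2 ha⟩)
    rw [hcspec a ha b hb, mul_inv_eq_one, mul_inv_eq_iff_eq_mul] at h
    exact h
  -- squaring is bijective from the quotient onto `Z`
  haveI := hM.finite
  have hqmul : ∀ a b, q (a * b) = q a * q b := by
    intro a b
    apply Subtype.ext
    show _ = (q a : G) * q b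
    have h := hab1 a b
    have h' : s b * s a * (s b)⁻¹ * (s a)⁻¹ = 1 := congrArg Subtype.val h
    show s (a * b) * s (a * b) = s a * s a * (s b * s b)
    rw [hsmul, h', mul_one]
  have hqinj : Function.Injective q := by
    intro a b h
    have h' : q (a * b) = 1 := by rw [hqmul, h, hN.exp]
    rw [h0] at h'
    exact (eq_inv_of_mul_eq_one_left h').trans (hM.inv_eq _)
  haveI : Fintype V := Fintype.ofFinite V
  haveI : Fintype Z := Fintype.ofFinite Z
  have hqbij : Function.Bijective q := (Fintype.bijective_iff_injective_and_card q).2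
    ⟨hqinj, by rw [← Nat.card_eq_fintype_card, ← Nat.card_eq_fintype_card, hVcard, hc16]⟩
  have hsurj : ∀ z ∈ Z, ∃ a ∈ Q, a * a = z := fun z hz => by
    obtain ⟨v, hv⟩ := hqbij.2 ⟨z, hz⟩
    exact ⟨s v, hs v, congrArg Subtype.val hv⟩
  obtain ⟨e, -, ⟨he, he1⟩, -⟩ := A5.S_nontrivial 0
  obtain ⟨g, rfl⟩ := hS.surj e
  have hgQ : g ∉ Q := fun h => he1 (MonoidHom.mem_ker.1 h)
  have hgg : g * g ∈ Q := MonoidHom.mem_ker.2 (by rw [map_mul]; exact he.2)
  refine false_of_free hS.rank Q hQab (fun a ha => hZ2 _ (hsq a ha))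
    (fun w hw hw2 => hsurj w (hinvol w hw hw2)) ?_ g (fun a ha => hQn.conj_mem a ha g) hgg hgQ ?_
  · rw [← hc16]
    exact Nat.card_congr
      { toFun := fun a => ⟨(a : Q), hinvol _ (a : Q).2 (congrArg Subtype.val a.2)⟩
        invFun := fun w => ⟨⟨w, phi_le _ w.2⟩, Subtype.ext (hZ2 _ w.2)⟩
        left_inv := fun a => rfl
        right_inv := fun w => rfl }
  intro d hd hfix
  obtain ⟨n, hn⟩ := (hN.inv_fix (π g) he.2 he1).2 ⟨d * d, hsq d hd⟩ (Subtype.ext ((hρ' g _).trans hfix))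
  obtain ⟨a, ha, hae⟩ := hsurj (n : G) n.2
  refine ⟨a, ha, ?_⟩
  have h := congrArg Subtype.val hn
  rw [Subgroup.coe_mul, Subgroup.coe_inv, hρ', ← hae] at h
  exact h.symm

/-- Two layers are impossible. -/
theorem two_layer_false_five (Z : Subgroup G) [Z.Normal] (hZne : Z ≠ ⊥)
    (hlt : Z < Phi π.ker) (hminZ : ∀ N : Subgroup G, N.Normal → N ≤ Z → N = ⊥ ∨ N = Z)
    (hmax : ∀ N : Subgroup G, N.Normal → Z ≤ N → N ≤ Phi π.ker → N = Z ∨ N = Phi π.ker) : False := by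
  classical
  haveI : Fact (Nat.Prime 2) := ⟨Nat.prime_two⟩
  have hZQ : Z ≤ π.ker := hlt.le.trans (phi_le _)
  obtain ⟨hcen, hZ2⟩ := hS.minimal_facts Z hZQ hZne hminZ
  obtain ⟨hS', hk'⟩ := hS.quot Z hlt.le
  set p := QuotientGroup.mk' Z with hp
  set π' := QuotientGroup.lift Z π (hlt.le.trans (phi_le _)) with hπ'
  set F := Phi π.ker with hFdef
  have hQn : π.ker.Normal := inferInstance
  have hone : ∀ x : G, p x = 1 ↔ x ∈ Z := fun x => QuotientGroup.eq_one_iff x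
  have hk'' : Phi π'.ker = F.map p := by rw [hk', phi_map]
  have hback : ∀ {K : Subgroup G}, Z ≤ K → ∀ {x : G}, p x ∈ K.map p → x ∈ K := by
    rintro K hK x ⟨y, hy, e⟩
    have := mul_mem hy (hK (QuotientGroup.eq.1 e))
    rwa [mul_inv_cancel_left] at this
  have hne' : Phi π'.ker ≠ ⊥ := by
    rw [hk'']
    intro h
    exact hlt.not_ge fun x hx => (hone x).1 (Subgroup.mem_bot.1 (h ▸ Subgroup.mem_map_of_mem p hx))
  have hmin' : ∀ N : Subgroup (G ⧸ Z), N.Normal → N ≤ Phi π'.ker → N = ⊥ ∨ N = Phi π'.ker := by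
    intro N hN hle
    rw [hk''] at hle ⊢
    have h1 : Z ≤ N.comap p := fun z hz => by
      rw [Subgroup.mem_comap, (hone z).2 hz]; exact one_mem _
    have h2 : N.comap p ≤ F := fun x hx => hback hlt.le (hle hx)
    have e : (N.comap p).map p = N := Subgroup.map_comap_eq_self_of_surjective (QuotientGroup.mk'_surjective Z) N
    rcases hmax _ (hN.comap p) h1 h2 with h | h
    · left
      rw [← e, h, eq_bot_iff]
      rintro _ ⟨z, hz, rfl⟩
      exact Subgroup.mem_bot.2 ((hone z).2 hz)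
    · right; rw [← e, h]
  obtain ⟨hc2', -, x', hx', hxx', hperm', hprod', hcov'⟩ := hS'.layer_five hne' hmin'
  rw [hk''] at hc2' hperm' hprod' hcov'
  choose x hxp using fun i => QuotientGroup.mk'_surjective Z (x' i)
  have hxe : ∀ i, p (x i) = x' i := hxp
  have hxQ : ∀ i, x i ∈ π.ker := fun i => by
    refine hback hZQ ?_
    rw [hxe, ← hk']
    exact (hx' i).1
  have hxZ : ∀ i, x i * x i ∈ Z := fun i => by rw [← hone, map_mul, hxe]; exact (hx' i).2
  have hxxZ : ∀ i j, i ≠ j → x i * x j * (x i * x j) ∉ Z := fun i j hij h => hxx' i j hij (by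
    rw [← hxe, ← hxe, ← map_mul, ← map_mul]; exact (hone _).2 h)
  have hperm : ∀ (g : G) (i : Fin 5), (x (((π g : A5) : Equiv.Perm (Fin 5)) i))⁻¹ * (g * x i * g⁻¹) ∈ F :=
    fun g i => by
      refine hback hlt.le ?_
      rw [map_mul, map_inv, map_mul, map_mul, map_inv, hxe, hxe]
      exact hperm' (p g) i
  have hcov : ∀ q ∈ π.ker, q ∈ F ∨ (∃ i, (x i)⁻¹ * q ∈ F) ∨ ∃ i j, i ≠ j ∧ (x i * x j)⁻¹ * q ∈ F := by
    intro q hq
    rcases hcov' (p q) (hk'.symm ▸ Subgroup.mem_map_of_mem p hq) with h | ⟨i, h⟩ | ⟨i, j, hij, h⟩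
    · exact Or.inl (hback hlt.le h)
    · refine Or.inr (Or.inl ⟨i, hback hlt.le ?_⟩)
      rw [map_mul, map_inv, hxe]; exact h
    · refine Or.inr (Or.inr ⟨i, j, hij, hback hlt.le ?_⟩)
      rw [map_mul, map_inv, map_mul, hxe, hxe]; exact h
  have hprod : x 0 * x 1 * x 2 * x 3 * x 4 ∈ F := by
    refine hback hlt.le ?_
    rw [map_mul, map_mul, map_mul, map_mul, hxe, hxe, hxe, hxe, hxe]
    exact hprod'
  have hFcard : Nat.card F = 2 * Nat.card Z := by
    rw [show F = (F.map p).comap p from le_antisymm (Subgroup.le_comap_map p F) fun x hx => hback hlt.le hx,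
      card_comap_mk, hc2']
  have hFQ : F ≤ π.ker := phi_le _
  have hFcls : ∀ u ∈ F, u ∉ Z → ∀ w ∈ F, w ∈ Z ∨ u⁻¹ * w ∈ Z := by
    intro u hu huZ w hw
    by_cases h : w ∈ Z
    · exact Or.inl h
    right
    rw [← hone, map_mul, map_inv, inv_mul_eq_one]
    exact two_cases hc2' (Subgroup.mem_map_of_mem p hu) (Subgroup.mem_map_of_mem p hw)
      (fun e => huZ ((hone _).1 e)) (fun e => h ((hone w).1 e))
  -- the Frattini subgroup is central
  have hout : ∀ q ∈ π.ker, q * q ∉ Z → ∀ w ∈ F, q * w = w * q := by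
    intro q hq hqq w hw
    rcases hFcls _ (sq_mem_phi hq) hqq w hw with h | h
    · exact hcen q hq w h
    · calc q * w = q * q * (q * ((q * q)⁻¹ * w)) := by group
        _ = q * q * (((q * q)⁻¹ * w) * q) := by rw [hcen q hq _ h]
        _ = w * q := by group
  set f := x 0 * x 1 * (x 0 * x 1) with hfdef
  have hfF : f ∈ F := sq_mem_phi (mul_mem (hxQ 0) (hxQ 1))
  have hfZ : f ∉ Z := hxxZ 0 1 (by decide)
  have hFab : ∀ a ∈ F, ∀ b ∈ F, a * b = b * a := by
    intro a ha b hb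
    rcases hFcls f hfF hfZ a ha with h | h
    · exact (hcen b (hFQ hb) a h).symm
    rcases hFcls f hfF hfZ b hb with h' | h'
    · exact hcen a (hFQ ha) b h'
    · have h3 := hcen _ (hZQ h) _ h'
      have h1 := hcen f (hFQ hfF) _ h
      have h2 := hcen f (hFQ hfF) _ h'
      calc a * b = f * ((f⁻¹ * a) * f) * (f⁻¹ * b) := by group
        _ = f * f * ((f⁻¹ * a) * (f⁻¹ * b)) := by rw [← h1]; group
        _ = f * f * ((f⁻¹ * b) * (f⁻¹ * a)) := by rw [h3]
        _ = f * ((f⁻¹ * b) * f) * (f⁻¹ * a) := by rw [← h2]; group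
        _ = b * a := by group
  let C : Subgroup G :=
    { carrier := {q | q ∈ π.ker ∧ ∀ w ∈ F, q * w = w * q}
      one_mem' := ⟨one_mem _, fun w _ => by rw [one_mul, mul_one]⟩
      mul_mem' := fun {a b} ha hb => ⟨mul_mem ha.1 hb.1, fun w hw => by
        rw [mul_assoc, hb.2 w hw, ← mul_assoc, ha.2 w hw, mul_assoc]⟩
      inv_mem' := fun {a} ha => ⟨inv_mem ha.1, fun w hw =>
        ((show Commute a w from ha.2 w hw).inv_left).eq⟩ }
  have hFC : F ≤ C := fun a ha => ⟨hFQ ha, hFab a ha⟩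
  have hpair : ∀ i j, i ≠ j → x i * x j ∈ C := fun i j hij =>
    ⟨mul_mem (hxQ i) (hxQ j), hout _ (mul_mem (hxQ i) (hxQ j)) (hxxZ i j hij)⟩
  have hx0 : x 0 ∈ C := by
    have h := mul_mem (hFC hprod) (inv_mem (mul_mem (hpair 1 2 (by decide)) (hpair 3 4 (by decide))))
    rwa [show x 0 * x 1 * x 2 * x 3 * x 4 * (x 1 * x 2 * (x 3 * x 4))⁻¹ = x 0 by group] at h
  have hxC : ∀ i, x i ∈ C := fun i => by
    rcases eq_or_ne i 0 with rfl | hi
    · exact hx0
    · have h := mul_mem (inv_mem hx0) (hpair 0 i (Ne.symm hi))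
      rwa [inv_mul_cancel_left] at h
  have hFc : ∀ q ∈ π.ker, ∀ w ∈ F, q * w = w * q := by
    intro q hq
    suffices q ∈ C from this.2
    rcases hcov q hq with h | ⟨i, h⟩ | ⟨i, j, hij, h⟩
    · exact hFC h
    · simpa using mul_mem (hxC i) (hFC h)
    · have h' := mul_mem (hpair i j hij) (hFC h)
      rwa [mul_inv_cancel_left] at h' 
  have hker : ∀ g ∈ π.ker, ∀ v ∈ F, g * v * g⁻¹ = v := fun g hg v hv => by
    rw [hFc g hg v hv, mul_inv_cancel_right]
  rcases hS.minimal_cases_five Z hZQ hZne hminZ with ⟨hc2, hZc⟩ | ⟨hc16, hZmove⟩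
  swap
  · -- natural bottom layer
    have hff : f * f = 1 := by
      have hffZ : f * f ∈ Z := by
        rcases hFcls f hfF hfZ (f * f) (mul_mem hfF hfF) with h | h
        · exact h
        · rw [inv_mul_cancel_left] at h; exact absurd h hfZ
      letI : CommGroup Z := { (inferInstance : Group Z) with
        mul_comm := fun a b => Subtype.ext (hcen _ (hZQ a.2) _ b.2) }
      obtain ⟨ρ', hρ'⟩ := exists_conj_hom π hS.surj Z fun y hy v hv => hker y hy v (hlt.le hv)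
      have hinj : Function.Injective ρ' := by
        rw [← MonoidHom.ker_eq_bot_iff]
        rcases IsSimpleGroup.eq_bot_or_eq_top_of_normal ρ'.ker inferInstance with h | h
        · exact h
        exfalso
        obtain ⟨y, z, hz, hyz⟩ := hZmove
        have h1 : ρ' (π y) = 1 := MonoidHom.mem_ker.1 (h ▸ Subgroup.mem_top _)
        have h2 := hρ' y ⟨z, hz⟩
        rw [h1] at h2
        exact hyz h2.symm
      have hN : Mod5 (M := Z) ρ' := ⟨hc16, fun z => Subtype.ext (hZ2 _ z.2), hinj⟩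
      refine congrArg Subtype.val (hN.fixed_bot ⟨f * f, hffZ⟩ fun σ => ?_)
      obtain ⟨y, rfl⟩ := hS.surj σ
      apply Subtype.ext
      rw [hρ']
      show y * (f * f) * y⁻¹ = f * f
      rcases hFcls f hfF hfZ _ ((inferInstance : F.Normal).conj_mem f hfF y) with h | h
      · exfalso
        refine hfZ ?_
        have h' := (inferInstance : Z.Normal).conj_mem' _ h y
        rwa [show y⁻¹ * (y * f * y⁻¹) * y = f by group] at h'
      · set w := f⁻¹ * (y * f * y⁻¹) with hw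
        calc y * (f * f) * y⁻¹ = f * (w * f) * w := by rw [hw]; group
          _ = f * f * (w * w) := by rw [← hFc f (hFQ hfF) w (hlt.le h)]; group
          _ = f * f := by rw [hZ2 w h, mul_one]
    have hF2 : ∀ w ∈ F, w * w = 1 := by
      intro w hw
      rcases hFcls f hfF hfZ w hw with h | h
      · exact hZ2 w h
      · calc w * w = f * ((f⁻¹ * w) * f) * (f⁻¹ * w) := by group
          _ = f * f * ((f⁻¹ * w) * (f⁻¹ * w)) := by rw [← hcen f (hFQ hfF) _ h]; group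
          _ = 1 := by rw [hff, hZ2 _ h, one_mul]
    have := elementary_le hS.rank F hF2
    omega
  -- trivial bottom layer
  have hFfix : ∀ g : G, ∀ v ∈ F, g * v * g⁻¹ = v := by
    letI : CommGroup F := { (inferInstance : Group F) with mul_comm := fun a b => Subtype.ext (hFab _ a.2 _ b.2) }
    obtain ⟨ρ', hρ'⟩ := exists_conj_hom π hS.surj F hker
    have h1 := small_action_trivial (M := F) ρ' (n := 2) (by rw [hFcard, hc2]; rfl) (by norm_num)
    intro g v hv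
    have h := hρ' g ⟨v, hv⟩
    rw [h1] at h
    exact h.symm
  have hc : ∀ a ∈ π.ker, ∀ b ∈ π.ker, a * b * a⁻¹ * b⁻¹ ∈ F := fun a ha b hb => comm_mem_phi ha hb
  have hsqmul : ∀ a ∈ π.ker, ∀ b ∈ π.ker,
      a * b * (a * b) = a * a * (b * b) * (b * a * b⁻¹ * a⁻¹) := fun a ha b hb => sq_mul_comm a b (by
    rintro y (rfl | rfl)
    · exact hFc _ ha _ (hc b hb _ ha)
    · exact hFc _ hb _ (hc _ hb a ha))
  have hcomm2 : ∀ a ∈ π.ker, ∀ b ∈ π.ker, a * b * a⁻¹ * b⁻¹ * (a * b * a⁻¹ * b⁻¹) = 1 := by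
    intro a ha b hb
    have h1 := hFc b hb _ (sq_mem_phi ha)
    have h2 := hFc a ha _ (hc a ha b hb)
    calc a * b * a⁻¹ * b⁻¹ * (a * b * a⁻¹ * b⁻¹)
        = (a * b * a⁻¹ * b⁻¹) * a * (b * a⁻¹ * b⁻¹) := by group
      _ = a * a * b * (a⁻¹ * a⁻¹) * b⁻¹ := by rw [← h2]; group
      _ = 1 := by rw [← h1]; group
  -- elementary
  have hcne : x 1 * x 0 * (x 1)⁻¹ * (x 0)⁻¹ ∉ Z := by
    intro h
    refine hfZ ?_
    rw [hfdef, hsqmul _ (hxQ 0) _ (hxQ 1)]
    exact mul_mem (mul_mem (hxZ 0) (hxZ 1)) h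
  have hF2 : ∀ w ∈ F, w * w = 1 := by
    intro w hw
    set b := x 1 * x 0 * (x 1)⁻¹ * (x 0)⁻¹ with hb
    have hbF : b ∈ F := hc _ (hxQ 1) _ (hxQ 0)
    rcases hFcls b hbF hcne w hw with h | h
    · exact hZ2 w h
    · calc w * w = b * ((b⁻¹ * w) * b) * (b⁻¹ * w) := by group
        _ = b * b * ((b⁻¹ * w) * (b⁻¹ * w)) := by rw [← hcen b (hFQ hbF) _ h]; group
        _ = 1 := by rw [hcomm2 _ (hxQ 1) _ (hxQ 0), hZ2 _ h, one_mul]
  have hsqwd : ∀ a ∈ π.ker, ∀ w ∈ F, a * w * (a * w) = a * a := fun a ha w hw => by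
    rw [show a * w * (a * w) = a * (w * a) * w by group, ← hFc a ha w hw,
      show a * (a * w) * w = a * a * (w * w) by group, hF2 w hw, mul_one]
  have hcwd : ∀ a ∈ π.ker, ∀ b ∈ π.ker, ∀ z ∈ F, ∀ w ∈ F,
      a * z * (b * w) * (a * z)⁻¹ * (b * w)⁻¹ = a * b * a⁻¹ * b⁻¹ := by
    intro a ha b hb z hz w hw
    have h1 := hFc b hb z hz
    have h3 := hFab z hz w hw
    calc a * z * (b * w) * (a * z)⁻¹ * (b * w)⁻¹ = a * ((z * b) * w) * z⁻¹ * a⁻¹ * w⁻¹ * b⁻¹ := by group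
      _ = a * (b * (z * w)) * z⁻¹ * a⁻¹ * w⁻¹ * b⁻¹ := by rw [← h1]; group
      _ = a * b * (w * (a⁻¹ * w⁻¹)) * b⁻¹ := by rw [h3]; group
      _ = _ := by rw [hFc a⁻¹ (inv_mem ha) _ (inv_mem hw)]; group
  have hxi : ∀ g i, g * x i * g⁻¹ = x (((π g : A5) : Equiv.Perm (Fin 5)) i) *
      ((x (((π g : A5) : Equiv.Perm (Fin 5)) i))⁻¹ * (g * x i * g⁻¹)) := fun g i => by group
  have hxsq : ∀ i, x i * x i = x 0 * x 0 := by
    intro i
    obtain ⟨σ, hσ⟩ := A5.trans 0 i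
    obtain ⟨g, rfl⟩ := hS.surj σ
    have h := hFfix g _ (sq_mem_phi (hxQ 0))
    rw [show g * (x 0 * x 0) * g⁻¹ = g * x 0 * g⁻¹ * (g * x 0 * g⁻¹) by group, hxi g 0,
      hsqwd _ (hxQ _) _ (hperm g 0), hσ] at h
    exact h
  have hcij : ∀ i j, i ≠ j → x i * x j * (x i)⁻¹ * (x j)⁻¹ = x 1 * x 0 * (x 1)⁻¹ * (x 0)⁻¹ := by
    intro i j hij
    obtain ⟨σ, h1, h2⟩ := A5.trans_two 1 0 i j (by decide) hij
    obtain ⟨g, rfl⟩ := hS.surj σ
    have h := hFfix g _ (hc _ (hxQ 1) _ (hxQ 0))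
    rw [show g * (x 1 * x 0 * (x 1)⁻¹ * (x 0)⁻¹) * g⁻¹ =
      g * x 1 * g⁻¹ * (g * x 0 * g⁻¹) * (g * x 1 * g⁻¹)⁻¹ * (g * x 0 * g⁻¹)⁻¹ by group, hxi g 1, hxi g 0,
      hcwd _ (hxQ _) _ (hxQ _) _ (hperm g 1) _ (hperm g 0), h1, h2] at h
    exact h
  set a := x 0 * x 0 with ha
  set b := x 1 * x 0 * (x 1)⁻¹ * (x 0)⁻¹ with hb
  have haF : a ∈ F := sq_mem_phi (hxQ 0)
  have hbF : b ∈ F := hc _ (hxQ 1) _ (hxQ 0)
  -- the product relation kills the diagonal
  have ha1 : a = 1 := by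
    have h12 : x 1 * x 2 * (x 1 * x 2) = b := by
      rw [hsqmul _ (hxQ 1) _ (hxQ 2), hxsq 1, hxsq 2, hF2 a haF, one_mul, hcij 2 1 (by decide)]
    have h34 : x 3 * x 4 * (x 3 * x 4) = b := by
      rw [hsqmul _ (hxQ 3) _ (hxQ 4), hxsq 3, hxsq 4, hF2 a haF, one_mul, hcij 4 3 (by decide)]
    have hm12 := mul_mem (hxQ 1) (hxQ 2)
    have hm34 := mul_mem (hxQ 3) (hxQ 4)
    have hbil : ∀ u ∈ π.ker, ∀ v ∈ π.ker, ∀ w ∈ π.ker,
        u * v * w * (u * v)⁻¹ * w⁻¹ = u * w * u⁻¹ * w⁻¹ * (v * w * v⁻¹ * w⁻¹) := by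
      intro u hu v hv w hw
      calc u * v * w * (u * v)⁻¹ * w⁻¹ = u * (v * w * v⁻¹ * w⁻¹) * (w * u⁻¹ * w⁻¹) := by group
        _ = (v * w * v⁻¹ * w⁻¹) * u * (w * u⁻¹ * w⁻¹) := by rw [hFc u hu _ (hc v hv w hw)]
        _ = (v * w * v⁻¹ * w⁻¹) * (u * w * u⁻¹ * w⁻¹) := by group
        _ = _ := hFab _ (hc v hv w hw) _ (hc u hu w hw)
    have hcr : x 3 * x 4 * (x 1 * x 2) * (x 3 * x 4)⁻¹ * (x 1 * x 2)⁻¹ = 1 := by
      have hinvc : ∀ u v : G, u * v * u⁻¹ * v⁻¹ = (v * u * v⁻¹ * u⁻¹)⁻¹ := fun u v => by group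
      rw [hbil _ (hxQ 3) _ (hxQ 4) _ hm12, hinvc (x 3) (x 1 * x 2), hinvc (x 4) (x 1 * x 2),
        hbil _ (hxQ 1) _ (hxQ 2) _ (hxQ 3), hbil _ (hxQ 1) _ (hxQ 2) _ (hxQ 4), hcij 1 3 (by decide),
        hcij 2 3 (by decide), hcij 1 4 (by decide), hcij 2 4 (by decide), hF2 b hbF, inv_one, one_mul]
    have hall : (x 1 * x 2 * (x 3 * x 4)) * (x 1 * x 2 * (x 3 * x 4)) = 1 := by
      rw [hsqmul _ hm12 _ hm34, h12, h34, hcr, hF2 b hbF, one_mul]
    set Pd := x 1 * x 2 * (x 3 * x 4) with hPd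
    have hPdQ : Pd ∈ π.ker := mul_mem hm12 hm34
    have hr : x 0 * Pd ∈ F := by
      rw [hPd, show x 0 * (x 1 * x 2 * (x 3 * x 4)) = x 0 * x 1 * x 2 * x 3 * x 4 by group]
      exact hprod
    set r := x 0 * Pd with hrdef
    have hx0e : x 0 = r * Pd⁻¹ := by rw [hrdef]; group
    rw [ha, hx0e, hFc Pd⁻¹ (inv_mem hPdQ) r hr |>.symm, hsqwd _ (inv_mem hPdQ) _ hr, ← mul_inv_rev, hall,
      inv_one]
  have hle : F ≤ Subgroup.zpowers b := by
    refine (Subgroup.closure_le _).2 ?_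
    rintro _ ⟨k, hk, rfl⟩
    rcases hcov k hk with h | ⟨i, h⟩ | ⟨i, j, hij, h⟩
    · rw [hF2 k h]; exact one_mem _
    · rw [show k = x i * ((x i)⁻¹ * k) by group, hsqwd _ (hxQ i) _ h, hxsq i, ha1]; exact one_mem _
    · rw [show k = x i * x j * ((x i * x j)⁻¹ * k) by group, hsqwd _ (mul_mem (hxQ i) (hxQ j)) _ h,
        hsqmul _ (hxQ i) _ (hxQ j), hxsq i, hxsq j, hF2 a haF, one_mul, hcij j i (Ne.symm hij)]
      exact Subgroup.mem_zpowers b
  have hle2 := Subgroup.card_le_of_le hle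
  rw [Nat.card_zpowers] at hle2
  have := orderOf_le_of_pow_eq_one (n := 2) (x := b) (by norm_num) (by rw [pow_two]; exact hF2 b hbF)
  omega

/-- The structure of the 2-radical. -/
theorem five : Phi π.ker = ⊥ ∨
    Nat.card (Phi π.ker) = 2 ∧ Nat.card π.ker = 32 ∧ ∃ x : Fin 5 → G,
      (∀ i, x i ∈ π.ker ∧ x i * x i = 1) ∧ (∀ i j, i ≠ j → x i * x j * (x i * x j) ≠ 1) ∧
      (∀ (g : G) (i : Fin 5), (x (((π g : A5) : Equiv.Perm (Fin 5)) i))⁻¹ * (g * x i * g⁻¹) ∈ Phi π.ker) ∧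
      x 0 * x 1 * x 2 * x 3 * x 4 ∈ Phi π.ker ∧
      ∀ q ∈ π.ker, q ∈ Phi π.ker ∨ (∃ i, (x i)⁻¹ * q ∈ Phi π.ker) ∨
        ∃ i j, i ≠ j ∧ (x i * x j)⁻¹ * q ∈ Phi π.ker := by
  by_cases hne : Phi π.ker = ⊥
  · exact Or.inl hne
  obtain ⟨M, hMn, hMlt, hMmax⟩ := exists_max_below (Phi π.ker) hne
  by_cases hM : M = ⊥
  · right
    subst hM
    exact hS.layer_five hne fun N hN hle => hMmax N hN bot_le hle
  exfalso
  obtain ⟨M₂, hM₂n, hM₂lt, hM₂max⟩ := exists_max_below M hM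
  haveI := hMn
  haveI := hM₂n
  obtain ⟨hS', hk'⟩ := hS.quot M₂ (hM₂lt.le.trans hMlt.le)
  set p := QuotientGroup.mk' M₂ with hp
  have hone : ∀ x : G, p x = 1 ↔ x ∈ M₂ := fun x => QuotientGroup.eq_one_iff x
  have hback : ∀ {K : Subgroup G}, M₂ ≤ K → ∀ {x : G}, p x ∈ K.map p → x ∈ K := by
    rintro K hK x ⟨y, hy, e⟩
    have := mul_mem hy (hK (QuotientGroup.eq.1 e))
    rwa [mul_inv_cancel_left] at this
  haveI : (M.map p).Normal := hMn.map p (QuotientGroup.mk'_surjective M₂)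
  have hsurj := QuotientGroup.mk'_surjective M₂
  refine hS'.two_layer_false_five (M.map p) ?_ ?_ ?_ ?_
  · intro h
    exact hM₂lt.not_ge fun x hx => (hone x).1 (Subgroup.mem_bot.1 (h ▸ Subgroup.mem_map_of_mem p hx))
  · rw [hk', phi_map]
    refine lt_of_le_not_ge (Subgroup.map_mono hMlt.le) fun h => hMlt.not_ge fun x hx => ?_
    exact hback hM₂lt.le (h (Subgroup.mem_map_of_mem p hx))
  · intro N hN hle
    have h1 : M₂ ≤ N.comap p := fun z hz => by rw [Subgroup.mem_comap, (hone z).2 hz]; exact one_mem _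
    have e : (N.comap p).map p = N := Subgroup.map_comap_eq_self_of_surjective hsurj N
    rcases hM₂max _ (hN.comap p) h1 (fun x hx => hback hM₂lt.le (hle hx)) with h | h
    · left
      rw [← e, h, eq_bot_iff]
      rintro _ ⟨z, hz, rfl⟩
      exact Subgroup.mem_bot.2 ((hone z).2 hz)
    · right; rw [← e, h]
  · intro N hN h1 h2
    rw [hk', phi_map] at h2 ⊢
    have h3 : M ≤ N.comap p := fun x hx => h1 (Subgroup.mem_map_of_mem p hx)
    have h4 : N.comap p ≤ Phi π.ker := fun x hx => hback (hM₂lt.le.trans hMlt.le) (h2 hx)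
    have e : (N.comap p).map p = N := Subgroup.map_comap_eq_self_of_surjective hsurj N
    rcases hMmax _ (hN.comap p) h3 h4 with h | h
    · left; rw [← e, h]
    · right; rw [← e, h]

end Setting

end CfsgLib.RadicalRankFour
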