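/-
RadicalRankFour: entering the setting from a self-centralising normal 2-subgroup.
-/
import Mathlib
import Cfsg.Agent.Lib.RadicalRankFour.Layer
import Cfsg.Agent.Lib.PGroups.Frattini
import Cfsg.Agent.Lib.CoprimeAction.Basic

set_option autoImplicit false

namespace CfsgLib.RadicalRankFour

variable {G : Type*} [Group G] [Finite G] {L : Type*} [Group L] [IsSimpleGroup L]

/-- A self-centralising normal 2-subgroup with simple quotient of order not a power of two gives the setting. -/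
theorem setting_of (π : G →* L) (hsurj : Function.Surjective π) (hQ : IsPGroup 2 π.ker)
    (hr : Cfsg.SectionalPRankLE 2 4 G) (hC : Subgroup.centralizer (π.ker : Set G) ≤ π.ker)
    (p : ℕ) [Fact p.Prime] (hp2 : p ≠ 2) (hpL : p ∣ Nat.card L) : Setting π := by
  haveI : Fact (Nat.Prime 2) := ⟨Nat.prime_two⟩
  haveI : Finite L := Finite.of_surjective π hsurj
  set Q := π.ker with hQdef
  have hQn : Q.Normal := inferInstance
  have hPn : (Phi Q).Normal := inferInstance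
  refine ⟨hsurj, hQ, hr, fun x hx => ?_⟩
  let K : Subgroup G :=
    { carrier := {x | ∀ q ∈ Q, x * q * x⁻¹ * q⁻¹ ∈ Phi Q}
      one_mem' := fun r _ => by simp
      mul_mem' := fun {a b} ha hb r hr => by
        rw [show a * b * r * (a * b)⁻¹ * r⁻¹ =
          a * (b * r * b⁻¹) * a⁻¹ * (b * r * b⁻¹)⁻¹ * (b * r * b⁻¹ * r⁻¹) by group]
        exact mul_mem (ha _ (hQn.conj_mem r hr b)) (hb r hr)
      inv_mem' := fun {a} ha r hr => by
        have := ha _ (hQn.conj_mem r hr a⁻¹)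
        rw [show a * (a⁻¹ * r * a⁻¹⁻¹) * a⁻¹ * (a⁻¹ * r * a⁻¹⁻¹)⁻¹ = (a⁻¹ * r * a⁻¹⁻¹ * r⁻¹)⁻¹ by group] at this
        exact inv_mem_iff.1 this }
  haveI hKn : K.Normal := ⟨fun x hx g r hr => by
    have h := hPn.conj_mem _ (hx _ (hQn.conj_mem r hr g⁻¹)) g
    rwa [show g * (x * (g⁻¹ * r * g⁻¹⁻¹) * x⁻¹ * (g⁻¹ * r * g⁻¹⁻¹)⁻¹) * g⁻¹ =
      g * x * g⁻¹ * r * (g * x * g⁻¹)⁻¹ * r⁻¹ by group] at h⟩
  rcases IsSimpleGroup.eq_bot_or_eq_top_of_normal (K.map π) (hKn.map π hsurj) with h | h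
  · exact MonoidHom.mem_ker.2 (Subgroup.mem_bot.1 (h ▸ Subgroup.mem_map_of_mem π hx))
  exfalso
  have hQK : Q ≤ K := fun y hy r hr => comm_mem_phi hy hr
  have hdvd : p ∣ Nat.card K :=
    hpL.trans (by rw [← Subgroup.card_top (G := L), ← h]; exact Subgroup.card_map_dvd K π)
  obtain ⟨k, hk⟩ := exists_prime_orderOf_dvd_card' (G := K) p hdvd
  rw [← Subgroup.orderOf_coe] at hk
  have hpp : p.Prime := Fact.out
  have hkQ : (k : G) ∉ Q := fun hh => by
    obtain ⟨m, hm⟩ := hQ ⟨k, hh⟩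
    have hd : p ∣ 2 ^ m := hk ▸ orderOf_dvd_of_pow_eq_one (congrArg Subtype.val hm)
    exact hp2 ((Nat.prime_dvd_prime_iff_eq hpp Nat.prime_two).1 (hpp.dvd_of_dvd_pow hd))
  refine hkQ (hC (CfsgLib.CoprimeAction.le_centralizer_of_frattini (A := Subgroup.zpowers (k : G))
    (fun z _ => (Subgroup.normalizer_eq_top (H := Q)).symm ▸ Subgroup.mem_top z) ?_ ?_
    (Subgroup.mem_zpowers _)))
  · obtain ⟨m, hm⟩ := IsPGroup.iff_card.1 (hQ.to_subgroup (frattini ↥Q))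
    rw [Nat.card_zpowers, hk, hm]
    exact Nat.Coprime.pow_right _ ((Nat.coprime_primes hpp Nat.prime_two).2 hp2)
  intro a ha y hy
  have haK : a ∈ K := Subgroup.zpowers_le.2 k.2 ha
  have hle : Phi Q ≤ (frattini ↥Q).map Q.subtype := by
    refine (Subgroup.closure_le _).2 ?_
    rintro _ ⟨q, hq, rfl⟩
    exact ⟨⟨q, hq⟩ ^ 2, CfsgLib.PGroups.pow_mem_frattini hQ _, by simp [pow_two]⟩
  refine hle ?_
  have := hPn.conj_mem' _ (haK y hy) y
  rwa [show y⁻¹ * (a * y * a⁻¹ * y⁻¹) * y = y⁻¹ * (a * y * a⁻¹) by group] at this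

end CfsgLib.RadicalRankFour
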