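/-
RadicalRankFour: the abelian configurations over a natural module of order eight are impossible.
-/
import Mathlib
import Cfsg.Agent.Lib.RadicalRankFour.Layer
import Cfsg.Agent.Lib.RadicalRankFour.Four

set_option autoImplicit false

namespace CfsgLib.RadicalRankFour

variable {G : Type*} [Group G]

namespace Coord

variable {R N : Subgroup G} {ν : G → V3} (hC : Coord R N ν)
include hC

theorem card_ge [Finite G] : 8 * Nat.card N ≤ Nat.card R := by
  choose s hs hs' using hC.surj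
  have h := card_closure_ge R N hC.le s hs (fun v w h => by
    rw [← hs' v, ← hs' w, hC.eq_iff (hs v) (hs w)]; exact h)
  rwa [show Nat.card V3 = 8 by simp [V3]] at h

theorem card_bot [Finite G] (hN : N = ⊥) : Nat.card R = 8 := by
  refine le_antisymm ?_ (by simpa [hN] using hC.card_ge)
  have hinj : Function.Injective (fun r : R => ν r) := fun r s h => Subtype.ext (by
    have := (hC.eq_iff r.2 s.2).1 h
    rw [hN, Subgroup.mem_bot, inv_mul_eq_one] at this
    exact this)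
  simpa [V3] using Nat.card_le_card_of_injective _ hinj

/-- A fixed element of a natural module is trivial. -/
theorem fixed_mem [R.Normal] [N.Normal] {r : G} (hr : r ∈ R) (h : ∀ x : G, ν (x * r * x⁻¹) = ν r) : r ∈ N := by
  rw [← hC.ker r hr]
  by_contra h0
  have key : ∀ a : V3, ∃ b : V3, b ≠ 0 ∧ b ≠ a := by decide
  obtain ⟨b, hb, hba⟩ := key (ν r)
  obtain ⟨x, e, hx, he⟩ := hC.trans_one h0 hb
  exact hba (by rw [← he, ← hx r hr, h x])

/-- Elements acting trivially lie in the kernel. -/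
theorem faith [R.Normal] [N.Normal] {L : Type*} [Group L] [IsSimpleGroup L] (π : G →* L) (hπ : Function.Surjective π)
    (hQ : ∀ x ∈ π.ker, ∀ r ∈ R, x * r * x⁻¹ * r⁻¹ ∈ N) :
    ∀ x, (∀ r ∈ R, x * r * x⁻¹ * r⁻¹ ∈ N) → x ∈ π.ker := by
  have hR : R.Normal := inferInstance
  have hN : N.Normal := inferInstance
  let K : Subgroup G :=
    { carrier := {x | ∀ r ∈ R, x * r * x⁻¹ * r⁻¹ ∈ N}
      one_mem' := fun r _ => by simp
      mul_mem' := fun {a b} ha hb r hr => by
        rw [show a * b * r * (a * b)⁻¹ * r⁻¹ =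
          a * (b * r * b⁻¹) * a⁻¹ * (b * r * b⁻¹)⁻¹ * (b * r * b⁻¹ * r⁻¹) by group]
        exact mul_mem (ha _ (hR.conj_mem r hr b)) (hb r hr)
      inv_mem' := fun {a} ha r hr => by
        have := ha _ (hR.conj_mem r hr a⁻¹)
        rw [show a * (a⁻¹ * r * a⁻¹⁻¹) * a⁻¹ * (a⁻¹ * r * a⁻¹⁻¹)⁻¹ = (a⁻¹ * r * a⁻¹⁻¹ * r⁻¹)⁻¹ by group] at this
        exact inv_mem_iff.1 this }
  haveI hKn : K.Normal := ⟨fun x hx g r hr => by
    have h := hN.conj_mem _ (hx _ (hR.conj_mem r hr g⁻¹)) g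
    rwa [show g * (x * (g⁻¹ * r * g⁻¹⁻¹) * x⁻¹ * (g⁻¹ * r * g⁻¹⁻¹)⁻¹) * g⁻¹ =
      g * x * g⁻¹ * r * (g * x * g⁻¹)⁻¹ * r⁻¹ by group] at h⟩
  intro x hx
  rcases IsSimpleGroup.eq_bot_or_eq_top_of_normal (K.map π) (hKn.map π hπ) with h | h
  · exact MonoidHom.mem_ker.2 (Subgroup.mem_bot.1 (h ▸ Subgroup.mem_map_of_mem π hx))
  · exfalso
    obtain ⟨y, e, hy, he⟩ := hC.trans_one (a := (1, 0, 0)) (b := (0, 1, 0)) (by decide) (by decide)
    obtain ⟨k, hk, hky⟩ := (h ▸ Subgroup.mem_top (π y) : π y ∈ K.map π)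
    have hyK : y ∈ K := by
      have : k⁻¹ * y ∈ K := hQ _ (MonoidHom.mem_ker.2 (by rw [map_mul, map_inv, hky, inv_mul_cancel]))
      simpa using mul_mem hk this
    obtain ⟨r, hr, hre⟩ := hC.surj (1, 0, 0)
    have h1 := (hC.ker _ (mul_mem (hR.conj_mem r hr y) (inv_mem hr))).2 (hyK r hr)
    rw [hC.mul _ (hR.conj_mem r hr y) _ (inv_mem hr), hy r hr, hre, he, hC.inv hr, hre] at h1
    exact absurd h1 (by decide)

omit hC in
/-- Transport of coordinates of a subgroup along a homomorphism injective on it. -/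
theorem map {H : Type*} [Group H] (f : G →* H) (hC : Coord R ⊥ ν) [R.Normal]
    (hinj : ∀ r ∈ R, f r = 1 → r = 1) : ∃ μ : H → V3, Coord (R.map f) ⊥ μ ∧ ∀ r ∈ R, μ (f r) = ν r := by
  classical
  have hR : R.Normal := inferInstance
  let μ : H → V3 := fun h => if hh : ∃ r ∈ R, f r = h then ν hh.choose else 0
  have hμ : ∀ r ∈ R, μ (f r) = ν r := fun r hr => by
    have hh : ∃ r' ∈ R, f r' = f r := ⟨r, hr, rfl⟩
    show dite _ _ _ = _
    rw [dif_pos hh]
    have h1 := hinj _ (mul_mem (inv_mem hr) hh.choose_spec.1) (by rw [map_mul, map_inv, hh.choose_spec.2, inv_mul_cancel])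
    rw [← inv_mul_eq_one.1 h1]
  refine ⟨μ, ⟨bot_le, ?_, ?_, fun v => ?_, fun e he hadd => ?_⟩, hμ⟩
  · rintro _ ⟨r, hr, rfl⟩ _ ⟨s, hs, rfl⟩
    rw [← map_mul, hμ _ (mul_mem hr hs), hμ r hr, hμ s hs, hC.mul r hr s hs]
  · rintro _ ⟨r, hr, rfl⟩
    rw [hμ r hr, hC.ker r hr, Subgroup.mem_bot, Subgroup.mem_bot]
    exact ⟨fun h => by rw [h, map_one], hinj r hr⟩
  · obtain ⟨r, hr, hrv⟩ := hC.surj v
    exact ⟨f r, Subgroup.mem_map_of_mem f hr, (hμ r hr).trans hrv⟩
  · obtain ⟨x, hx⟩ := hC.full e he hadd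
    refine ⟨f x, ?_⟩
    rintro _ ⟨r, hr, rfl⟩
    rw [← map_inv, ← map_mul, ← map_mul, hμ _ (hR.conj_mem r hr x), hμ r hr, hx r hr]

end Coord

/-- In an abelian subgroup every element of the subgroup generated by squares is a square. -/
theorem exists_square {Q : Subgroup G} (hab : ∀ a ∈ Q, ∀ b ∈ Q, a * b = b * a) :
    ∀ z ∈ Phi Q, ∃ a ∈ Q, a * a = z := by
  intro z hz
  induction hz using Subgroup.closure_induction with
  | mem y hy => exact hy
  | one => exact ⟨1, one_mem _, one_mul 1⟩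
  | mul y w _ _ hy hw =>
    obtain ⟨a, ha, rfl⟩ := hy
    obtain ⟨b, hb, rfl⟩ := hw
    refine ⟨a * b, mul_mem ha hb, ?_⟩
    calc a * b * (a * b) = a * (b * a) * b := by group
      _ = a * a * (b * b) := by rw [hab b hb a ha]; group
  | inv y _ hy =>
    obtain ⟨a, ha, rfl⟩ := hy
    exact ⟨a⁻¹, inv_mem ha, (mul_inv_rev a a).symm⟩

variable [Finite G] {L : Type*} [Group L] [IsSimpleGroup L] {π : G →* L}

/-- An abelian subgroup of exponent four over a natural module is impossible. -/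
theorem Setting.abelian_false (hS : Setting π) (A Z : Subgroup G) [A.Normal] [Z.Normal] {ζ : G → V3}
    (hZ : Coord Z ⊥ ζ) (hAQ : A ≤ π.ker) (hZA : Z ≤ A) (hZcen : ∀ q ∈ π.ker, ∀ z ∈ Z, q * z = z * q)
    (hab : ∀ a ∈ A, ∀ b ∈ A, a * b = b * a) (hsq : ∀ a ∈ A, a * a ∈ Z)
    (hsurj : ∀ z ∈ Z, ∃ a ∈ A, a * a = z)
    (hfix : ∀ x : G, x * x ∈ π.ker → x ∉ π.ker → ∀ a ∈ A, a * a = 1 → x * a * x⁻¹ = a → a ∈ Z)
    (hA : A = π.ker ∨ ((∀ q ∈ π.ker, q ∉ A → ∀ a ∈ A, q * a * q⁻¹ = a⁻¹) ∧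
      ∀ a ∈ A, a * a = 1 → a ∈ Z)) : False := by
  have hQtriv : ∀ x ∈ π.ker, ∀ r ∈ Z, x * r * x⁻¹ * r⁻¹ ∈ (⊥ : Subgroup G) := fun x hx r hr => by
    rw [Subgroup.mem_bot, hZcen x hx r hr]; group
  have hfaith := hZ.faith π hS.surj hQtriv
  obtain ⟨θ, g₀, hθ, hθν, hgν, hgg⟩ := hZ.exists_theta_g π hS.two hQtriv hfaith
  set g := g₀⁻¹ * θ * g₀ * θ⁻¹ with hgdef
  have hgQ : g ∉ π.ker := fun h => by
    obtain ⟨r, hr, hrv⟩ := hZ.surj (0, 0, 1)
    have h1 := hgν r hr
    rw [hZcen g h r hr, mul_inv_cancel_right, hrv] at h1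
    exact absurd h1 (by decide)
  have hAn : A.Normal := inferInstance
  choose s hs hs' using hZ.surj
  have hsv : ∀ z ∈ Z, z = s (ζ z) := fun z hz => by
    have := (hZ.eq_iff hz (hs _)).1 (hs' (ζ z)).symm
    rwa [Subgroup.mem_bot, inv_mul_eq_one] at this
  let φ : V3 → A := fun v => ⟨s v, hZA (hs v)⟩
  have hzeq : ∀ {z w : G}, z ∈ Z → w ∈ Z → ζ z = ζ w → z = w := fun {z w} hz hw h => by
    rw [hsv z hz, hsv w hw, h]
  have hgA : g * g ∈ A := by
    rcases hA with rfl | ⟨hinv, hk⟩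
    · exact hgg
    by_contra hggA
    obtain ⟨u, hu, huU⟩ := hsurj _ (hs (0, 1, 0))
    set w := u⁻¹ * (g * u * g⁻¹) with hw
    have hwA : w ∈ A := mul_mem (inv_mem hu) (hAn.conj_mem u hu g)
    have hgU : g * s (0, 1, 0) * g⁻¹ = s (0, 1, 0) := by
      refine hzeq (Subgroup.Normal.conj_mem inferInstance _ (hs _) g) (hs _) ?_
      rw [hgν _ (hs _), hs']; decide
    have hguu : g * u * g⁻¹ * (g * u * g⁻¹) = u * u := by
      rw [show g * u * g⁻¹ * (g * u * g⁻¹) = g * (u * u) * g⁻¹ by group, huU, hgU]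
    have hw2 : w * w = 1 := by
      have hc := hab _ (inv_mem hu) _ (hAn.conj_mem u hu g)
      calc w * w = u⁻¹ * (g * u * g⁻¹ * u⁻¹) * (g * u * g⁻¹) := by rw [hw]; group
        _ = u⁻¹ * (u⁻¹ * (g * u * g⁻¹)) * (g * u * g⁻¹) := by rw [hc]
        _ = u⁻¹ * u⁻¹ * (g * u * g⁻¹ * (g * u * g⁻¹)) := by group
        _ = 1 := by rw [hguu]; group
    have hwZ := hk w hwA hw2
    have h1 := hinv _ hgg hggA u hu
    have h2 : w * (g * w * g⁻¹) = (u * u)⁻¹ := by
      calc w * (g * w * g⁻¹) = u⁻¹ * (g * g * u * (g * g)⁻¹) := by rw [hw]; group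
        _ = _ := by rw [h1, mul_inv_rev]
    have h3 := congrArg ζ h2
    rw [huU, hZ.mul _ hwZ _ (Subgroup.Normal.conj_mem inferInstance _ hwZ g), hgν w hwZ,
      hZ.inv (hs _), hs'] at h3
    revert h3; generalize ζ w = v; revert v; decide
  have hT : Triple A θ g := Triple.mk' hab hθ g₀ hgA
  refine false_of_five hS.rank hT (φ := φ) ⟨fun v w => Subtype.ext ?_, fun v w h => ?_, fun a => ?_,
    fun v => ?_, fun v => Subtype.ext ?_, fun v => Subtype.ext ?_, fun a ha hga => ?_⟩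
  · show s (v + w) = s v * s w
    refine hzeq (hs _) (mul_mem (hs v) (hs w)) ?_
    rw [hZ.mul _ (hs v) _ (hs w), hs', hs', hs']
  · have := congrArg ζ (show s v = s w from congrArg Subtype.val h)
    rwa [hs', hs'] at this
  · exact ⟨ζ ((a : G) * a), Subtype.ext (hsv _ (hsq a a.2))⟩
  · obtain ⟨a, ha, hae⟩ := hsurj _ (hs v)
    exact ⟨⟨a, ha⟩, Subtype.ext hae⟩
  · rw [Triple.coe_act]
    refine hzeq (Subgroup.Normal.conj_mem inferInstance _ (hs _) θ) (hs _) ?_
    rw [hθν _ (hs v), hs', hs']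
  · rw [Triple.coe_act]
    refine hzeq (Subgroup.Normal.conj_mem inferInstance _ (hs _) g) (hs _) ?_
    rw [hgν _ (hs v), hs', hs']
  · have h1 := congrArg Subtype.val hga
    rw [Triple.coe_act] at h1
    have haZ := hfix g hgg hgQ a a.2 (congrArg Subtype.val ha) h1
    exact ⟨ζ (a : G), Subtype.ext (hsv _ haZ)⟩

/-- An elementary extension of a natural module by a trivial one: a fixed point or no fixed points
of involutions. -/
theorem Setting.coset_dichotomy (hS : Setting π) (hL : Nat.card L = 168) (K Z : Subgroup G) [K.Normal]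
    [Z.Normal] {ζ : G → V3} (hZ : Coord Z ⊥ ζ) (hZK : Z ≤ K) (hexp : ∀ k ∈ K, k * k = 1)
    (hcen : ∀ q ∈ π.ker, ∀ k ∈ K, q * k = k * q) :
    (∃ t ∈ K, t ∉ Z ∧ ∀ x : G, x * t * x⁻¹ = t) ∨
      ∀ x : G, x * x ∈ π.ker → x ∉ π.ker → ∀ a ∈ K, x * a * x⁻¹ = a → a ∈ Z := by
  classical
  by_contra hcon
  push Not at hcon
  obtain ⟨hnofix, x, hxx, hxQ, a, haK, hxa, haZ⟩ := hcon
  haveI : Finite L := Nat.finite_of_card_ne_zero (by omega)
  have hker : ∀ y ∈ π.ker, ∀ k ∈ K, y * k * y⁻¹ = k := fun y hy k hk => by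
    rw [hcen y hy k hk, mul_inv_cancel_right]
  obtain ⟨ρ, hρ⟩ := exists_conj_hom π hS.surj K hker
  letI : MulAction L K := MulAction.compHom K ρ
  have hsmul : ∀ (y : G) (k : K), ((π y • k : K) : G) = y * k * y⁻¹ := hρ
  have hK16 : Nat.card K = 16 := by
    have h16 := elementary_le hS.rank K hexp
    have h8 := hZ.card_bot rfl
    have hlt : Nat.card Z < Nat.card K := by
      refine lt_of_le_of_ne (Subgroup.card_le_of_le hZK) fun h => haZ ?_
      rw [Subgroup.eq_of_le_of_card_ge hZK h.ge]; exact haK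
    have hd := Subgroup.card_dvd_of_le hZK
    rw [h8] at hd hlt
    omega
  have hcos : ∀ b ∈ K, b ∉ Z → ∀ c ∈ K, c ∉ Z → b⁻¹ * c ∈ Z := by
    intro b hb hbZ c hc hcZ
    have hidx : (Z.subgroupOf K).index = 2 := by
      have h1 := Subgroup.card_mul_index (Z.subgroupOf K)
      rw [Nat.card_congr (Subgroup.subgroupOfEquivOfLe hZK).toEquiv, hZ.card_bot rfl, hK16] at h1
      omega
    have h := Subgroup.mul_mem_iff_of_index_two hidx (a := (⟨b, hb⟩⁻¹ : K)) (b := ⟨c, hc⟩)
    simp only [Subgroup.mem_subgroupOf, Subgroup.coe_mul, Subgroup.coe_inv, inv_mem_iff] at h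
    exact h.2 (iff_of_false hbZ hcZ)
  haveI : Fact (Nat.Prime 7) := ⟨by norm_num⟩
  obtain ⟨l, hl⟩ := exists_prime_orderOf_dvd_card' (G := L) 7 (by rw [hL]; norm_num)
  let C := Subgroup.zpowers l
  have hCp : IsPGroup 7 C := IsPGroup.of_card (n := 1) (by rw [Nat.card_zpowers, hl]; rfl)
  obtain ⟨d, hd⟩ := hS.surj l
  -- only the identity is fixed in `Z`
  have hZfix : ∀ z ∈ Z, d * z * d⁻¹ = z → z = 1 := by
    let Fz : Subgroup G :=
      { carrier := {z | z ∈ Z ∧ d * z * d⁻¹ = z}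
        one_mem' := ⟨one_mem _, by group⟩
        mul_mem' := fun {p q} hp hq => ⟨mul_mem hp.1 hq.1, by
          rw [show d * (p * q) * d⁻¹ = d * p * d⁻¹ * (d * q * d⁻¹) by group, hp.2, hq.2]⟩
        inv_mem' := fun {p} hp => ⟨inv_mem hp.1, by
          rw [show d * p⁻¹ * d⁻¹ = (d * p * d⁻¹)⁻¹ by group, hp.2]⟩ }
    by_contra hc
    push Not at hc
    obtain ⟨z, hz, hdz, hz1⟩ := hc
    obtain ⟨e, heinj, hadd, he⟩ := hZ.exists_act d
    -- the fixed points have order congruent to eight modulo seven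
    let Zl : Subgroup K := Z.subgroupOf K
    letI : MulAction C Zl :=
      { smul := fun c v => ⟨(c : L) • (v : K), by
          obtain ⟨y, hy⟩ := hS.surj (c : L)
          rw [Subgroup.mem_subgroupOf, ← hy, hsmul]
          exact Subgroup.Normal.conj_mem inferInstance _ (Subgroup.mem_subgroupOf.1 v.2) y⟩
        one_smul := fun v => Subtype.ext (by show ((1 : C) : L) • (v : K) = v; rw [OneMemClass.coe_one, one_smul])
        mul_smul := fun c c' v => Subtype.ext (by
          show ((c * c' : C) : L) • (v : K) = (c : L) • ((c' : L) • (v : K)); rw [Subgroup.coe_mul, mul_smul]) }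
    have hmod := hCp.card_modEq_card_fixedPoints Zl
    have hall : Fz.subgroupOf Z ≠ ⊤ := by
      intro h
      have hd' : d ∈ π.ker := hZ.faith π hS.surj (fun y hy r hr => by
        rw [Subgroup.mem_bot, hker y hy r (hZK hr), mul_inv_cancel]) d fun r hr => by
          have h2 : (⟨r, hr⟩ : Z) ∈ Fz.subgroupOf Z := h ▸ Subgroup.mem_top _
          rw [Subgroup.mem_bot, (Subgroup.mem_subgroupOf.1 h2).2, mul_inv_cancel]
      rw [MonoidHom.mem_ker, hd] at hd'
      rw [hd', orderOf_one] at hl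
      omega
    have hcardF : Nat.card (MulAction.fixedPoints C Zl) = Nat.card (Fz.subgroupOf Z) := by
      refine Nat.card_congr
        { toFun := fun v => ⟨⟨((v : Zl) : K), Subgroup.mem_subgroupOf.1 (v : Zl).2⟩, Subgroup.mem_subgroupOf.2
            ⟨Subgroup.mem_subgroupOf.1 (v : Zl).2, ?_⟩⟩
          invFun := fun v => ⟨⟨⟨(v : Z), hZK (v : Z).2⟩, Subgroup.mem_subgroupOf.2 (v : Z).2⟩, ?_⟩
          left_inv := fun v => rfl
          right_inv := fun v => rfl }
      · rw [← hsmul, hd]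
        exact congrArg (fun w : Zl => ((w : K) : G)) (v.2 ⟨l, Subgroup.mem_zpowers l⟩)
      · intro c
        obtain ⟨n, hn⟩ := c.2
        refine Subtype.ext ?_
        show (c : L) • (⟨(v : Z), hZK (v : Z).2⟩ : K) = ⟨(v : Z), hZK (v : Z).2⟩
        rw [← hn]
        exact (Subgroup.zpowers_le (H := MulAction.stabilizer L (⟨(v : Z), hZK (v : Z).2⟩ : K))).2
          (MulAction.mem_stabilizer_iff.2 (Subtype.ext (by
            rw [← hd, hsmul]; exact (Subgroup.mem_subgroupOf.1 v.2).2))) (Subgroup.zpow_mem_zpowers l n)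
    rw [hcardF, Nat.card_congr (Subgroup.subgroupOfEquivOfLe hZK).toEquiv, hZ.card_bot rfl] at hmod
    have hdvd := Subgroup.card_subgroup_dvd_card (Fz.subgroupOf Z)
    rw [hZ.card_bot rfl] at hdvd
    have h8 : Nat.card (Fz.subgroupOf Z) ≠ 8 := fun h =>
      hall (Subgroup.eq_top_of_card_eq _ (by rw [h, hZ.card_bot rfl]))
    have h1 : Nat.card (Fz.subgroupOf Z) ≠ 1 := fun h => by
      have : (⟨z, hz⟩ : Z) ∈ Fz.subgroupOf Z := Subgroup.mem_subgroupOf.2 ⟨hz, hdz⟩
      rw [Subgroup.eq_bot_of_card_eq _ h, Subgroup.mem_bot] at this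
      exact hz1 (congrArg Subtype.val this)
    have hmem : Nat.card (Fz.subgroupOf Z) ∈ Nat.divisors 8 := Nat.mem_divisors.2 ⟨hdvd, by norm_num⟩
    rw [show Nat.divisors 8 = {1, 2, 4, 8} by decide] at hmem
    simp only [Finset.mem_insert, Finset.mem_singleton] at hmem
    rcases hmem with h | h | h | h <;> rw [h] at hmod h1 h8 <;> simp [Nat.ModEq] at hmod h1 h8
  let aK : K := ⟨a, haK⟩
  set O := MulAction.orbit L aK with hO
  have hOout : ∀ b ∈ O, (b : G) ∉ Z := by
    rintro _ ⟨k, rfl⟩ hb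
    obtain ⟨y, rfl⟩ := hS.surj k
    have hb' : ((π y • aK : K) : G) ∈ Z := hb
    rw [hsmul] at hb'
    have := Subgroup.Normal.conj_mem' inferInstance _ hb' y
    rw [show y⁻¹ * (y * ((aK : K) : G) * y⁻¹) * y = a by show _ = ((aK : K) : G); group] at this
    exact haZ this
  have hOle : Nat.card O ≤ 8 := by
    rw [← hZ.card_bot rfl]
    refine Nat.card_le_card_of_injective
      (fun b => (⟨a⁻¹ * (b : K), hcos a haK haZ _ (b : K).2 (hOout b b.2)⟩ : Z)) fun b c h => ?_
    exact Subtype.ext (Subtype.ext (mul_left_cancel (congrArg Subtype.val h)))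
  haveI : Fact (Nat.Prime 2) := ⟨Nat.prime_two⟩
  have hcard : Nat.card O * Nat.card (MulAction.stabilizer L aK) = 168 := by
    rw [← hL, ← Nat.card_prod]
    exact Nat.card_congr (MulAction.orbitProdStabilizerEquivGroup L aK)
  have h2 : 2 ∣ Nat.card (MulAction.stabilizer L aK) := by
    have ho : orderOf (π x) = 2 := orderOf_eq_prime (by rw [pow_two, ← map_mul]; exact hxx) hxQ
    rw [← ho, ← Nat.card_zpowers]
    exact Subgroup.card_dvd_of_le (Subgroup.zpowers_le.2 (MulAction.mem_stabilizer_iff.2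
      (Subtype.ext ((hsmul x aK).trans hxa))))
  have hno1 : Nat.card O ≠ 1 := by
    intro h
    refine hnofix a haK haZ |>.elim fun y hy => hy ?_
    obtain ⟨⟨b, hb⟩, hbu⟩ := Nat.card_eq_one_iff_exists.1 h
    have e1 := hbu ⟨π y • aK, MulAction.mem_orbit aK (π y)⟩
    have e2 := hbu ⟨aK, MulAction.mem_orbit_self aK⟩
    have e := congrArg (fun w : O => ((w : K) : G)) (e1.trans e2.symm)
    simp only at e
    rw [hsmul] at e
    exact e
  have hmod := hCp.card_modEq_card_fixedPoints O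
  have hfix1 : Nat.card (MulAction.fixedPoints C O) ≤ 1 := by
    by_contra hgt
    haveI : Nontrivial (MulAction.fixedPoints C O) := Finite.one_lt_card_iff_nontrivial.1 (by omega)
    obtain ⟨b, c, hbc⟩ := exists_pair_ne (MulAction.fixedPoints C O)
    have hfx : ∀ w : MulAction.fixedPoints C O,
        d * (((w : O) : K) : G) * d⁻¹ = (((w : O) : K) : G) := by
      intro w
      rw [← hsmul, hd]
      exact congrArg (fun u : O => ((u : K) : G)) (w.2 ⟨l, Subgroup.mem_zpowers l⟩)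
    have hz := hZfix _ (hcos _ ((b : O) : K).2 (hOout _ (b : O).2) _ ((c : O) : K).2 (hOout _ (c : O).2)) (by
      rw [show ∀ p q : G, d * (p⁻¹ * q) * d⁻¹ = (d * p * d⁻¹)⁻¹ * (d * q * d⁻¹) by intros; group, hfx, hfx])
    exact hbc (Subtype.ext (Subtype.ext (Subtype.ext (inv_mul_eq_one.1 hz))))
  obtain ⟨m, hm⟩ := h2
  have hd84 : Nat.card O ∣ 84 := ⟨m, by rw [hm] at hcard; nlinarith⟩
  have hmem : Nat.card O ∈ Nat.divisors 84 := Nat.mem_divisors.2 ⟨hd84, by norm_num⟩
  rw [show Nat.divisors 84 = {1, 2, 3, 4, 6, 7, 12, 14, 21, 28, 42, 84} by decide] at hmem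
  simp only [Finset.mem_insert, Finset.mem_singleton] at hmem
  rcases hmem with h | h | h | h | h | h | h | h | h | h | h | h <;> rw [h] at hmod hno1 hOle <;>
    first
      | omega
      | exact absurd rfl hno1
      | skip
  all_goals first
    | (simp only [Nat.ModEq] at hmod; omega)
    | skip
  -- an orbit of seven points has one more point left, fixed by everything
  let Kf : Finset K := by classical exact (Set.toFinite {b : K | (b : G) ∉ Z ∧ b ∉ O}).toFinset
  have hO7 : Nat.card O = 7 := h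
  obtain ⟨b, hb, hbO⟩ : ∃ b : K, (b : G) ∉ Z ∧ b ∉ O := by
    by_contra hc
    push Not at hc
    have h8 := hZ.card_bot rfl
    have : Nat.card Z ≤ Nat.card O := Nat.card_le_card_of_injective
      (fun z : Z => (⟨⟨a * z, mul_mem haK (hZK z.2)⟩, hc _ (fun h' => haZ ((Subgroup.mul_mem_cancel_right Z z.2).1 h'))⟩ : O))
      fun z w e => Subtype.ext (mul_left_cancel (congrArg (fun u : O => ((u : K) : G)) e))
    omega
  obtain ⟨y, hy⟩ := hnofix b b.2 hb
  apply hy
  by_contra hne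
  set b' : K := π y • b with hb'
  have hb'Z : (b' : G) ∉ Z := fun h' => by
    rw [hb', hsmul] at h'
    have := Subgroup.Normal.conj_mem' inferInstance _ h' y
    rw [show y⁻¹ * (y * (b : G) * y⁻¹) * y = b by group] at this
    exact hb this
  have hb'O : b' ∉ O := fun ⟨k, hk⟩ => hbO ⟨(π y)⁻¹ * k, by
    have hk' : k • aK = b' := hk
    show ((π y)⁻¹ * k) • aK = b
    rw [mul_smul, hk', hb', inv_smul_smul]⟩
  have : Nat.card (O ⊕ Bool) ≤ Nat.card Z := by
    refine Nat.card_le_card_of_injective (fun w => (Sum.elim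
      (fun o : O => (⟨a⁻¹ * (o : K), hcos a haK haZ _ (o : K).2 (hOout o o.2)⟩ : Z))
      (fun c : Bool => if c then ⟨a⁻¹ * b, hcos a haK haZ _ b.2 hb⟩ else ⟨a⁻¹ * b', hcos a haK haZ _ b'.2 hb'Z⟩) w)) ?_
    have hbb : (b : G) ≠ b' := fun e => hne (by rw [← hsmul]; exact e.symm)
    rintro (o | c) (o' | c') e
    · exact congrArg Sum.inl (Subtype.ext (Subtype.ext (mul_left_cancel (congrArg Subtype.val e))))
    · exfalso
      cases c'
      · exact hb'O ((Subtype.ext (mul_left_cancel (congrArg Subtype.val e)) : (o : K) = b') ▸ o.2)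
      · exact hbO ((Subtype.ext (mul_left_cancel (congrArg Subtype.val e)) : (o : K) = b) ▸ o.2)
    · exfalso
      cases c
      · exact hb'O ((Subtype.ext (mul_left_cancel (congrArg Subtype.val e)).symm : (o' : K) = b') ▸ o'.2)
      · exact hbO ((Subtype.ext (mul_left_cancel (congrArg Subtype.val e)).symm : (o' : K) = b) ▸ o'.2)
    · cases c <;> cases c' <;> simp [Subtype.ext_iff, hbb, Ne.symm hbb] at e ⊢
  rw [Nat.card_sum, hO7, hZ.card_bot rfl, show Nat.card Bool = 2 by simp] at this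
  omega

/-- An abelian `Q` of exponent four over a natural module is impossible. -/
theorem Setting.abelian_ker_false (hS : Setting π) (hL : Nat.card L = 168) (Z : Subgroup G) [Z.Normal]
    {ζ : G → V3} (hZ : Coord Z ⊥ ζ) (hZQ : Z ≤ π.ker) (hPhi : Phi π.ker = Z)
    (hab : ∀ a ∈ π.ker, ∀ b ∈ π.ker, a * b = b * a) : False := by
  have hsq : ∀ a ∈ π.ker, a * a ∈ Z := fun a ha => hPhi ▸ sq_mem_phi ha
  have hsurj : ∀ z ∈ Z, ∃ a ∈ π.ker, a * a = z := fun z hz => exists_square hab z (hPhi.symm ▸ hz)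
  have hZ2 : ∀ z ∈ Z, z * z = 1 := fun z hz => Subgroup.mem_bot.1 (hZ.sq_mem hz)
  let K : Subgroup G :=
    { carrier := {a | a ∈ π.ker ∧ a * a = 1}
      one_mem' := ⟨one_mem _, one_mul 1⟩
      mul_mem' := fun {a b} ha hb => ⟨mul_mem ha.1 hb.1, by
        rw [mul_assoc a b, ← mul_assoc b a, hab b hb.1 a ha.1, mul_assoc a b b, hb.2, mul_one, ha.2]⟩
      inv_mem' := fun {a} ha => ⟨inv_mem ha.1, by rw [← mul_inv_rev, ha.2, inv_one]⟩ }
  haveI hKn : K.Normal := ⟨fun z hz x => ⟨Subgroup.Normal.conj_mem inferInstance z hz.1 x, by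
    rw [show x * z * x⁻¹ * (x * z * x⁻¹) = x * (z * z) * x⁻¹ by group, hz.2]; group⟩⟩
  have hZcen : ∀ q ∈ π.ker, ∀ z ∈ Z, q * z = z * q := fun q hq z hz => hab q hq z (hZQ hz)
  rcases hS.coset_dichotomy hL K Z hZ (fun z hz => ⟨hZQ hz, hZ2 z hz⟩) (fun k hk => hk.2)
    (fun q hq k hk => hab q hq k hk.1) with ⟨t, ⟨htQ, ht2⟩, htZ, htx⟩ | hno
  · -- pass to the quotient by the fixed involution
    set M := Subgroup.zpowers t with hMdef
    have hMcases : ∀ w ∈ M, w = 1 ∨ w = t := by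
      rintro _ ⟨n, rfl⟩
      rcases Int.even_or_odd n with ⟨j, rfl⟩ | ⟨j, rfl⟩
      · left; show t ^ (j + j) = 1; rw [← two_mul, zpow_mul, zpow_two, ht2, one_zpow]
      · right; show t ^ (2 * j + 1) = t; rw [zpow_add, zpow_mul, zpow_two, ht2, one_zpow, one_mul, zpow_one]
    haveI hMn : M.Normal := ⟨fun w hw x => by
      rcases hMcases w hw with rfl | rfl
      · simp
      · rw [htx x]; exact Subgroup.mem_zpowers _⟩
    have hMQ : M ≤ π.ker := Subgroup.zpowers_le.2 htQ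
    let π' : G ⧸ M →* L := QuotientGroup.lift M π hMQ
    set p := QuotientGroup.mk' M with hp
    have hk' : π'.ker = π.ker.map p := QuotientGroup.ker_lift _ _ _
    have hone : ∀ x : G, p x = 1 ↔ x ∈ M := fun x => QuotientGroup.eq_one_iff x
    have hcomm' : ∀ a ∈ π'.ker, ∀ b ∈ π'.ker, a * b = b * a := by
      rw [hk']
      rintro _ ⟨a, ha, rfl⟩ _ ⟨b, hb, rfl⟩
      rw [← map_mul, hab a ha b hb, map_mul]
    have hinj : ∀ z ∈ Z, p z = 1 → z = 1 := fun z hz h =>
      ((hMcases z ((hone z).1 h)).resolve_right fun e => htZ (e ▸ hz))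
    obtain ⟨ζ', hζ', -⟩ := hZ.map p hinj
    haveI : (Z.map p).Normal := Subgroup.Normal.map inferInstance p (QuotientGroup.mk'_surjective M)
    have hS' : Setting π' := by
      refine ⟨fun l => ?_, ?_, sectional_quot hS.rank M, fun x hx => ?_⟩
      · obtain ⟨x, rfl⟩ := hS.surj l; exact ⟨x, rfl⟩
      · rw [hk']; exact hS.two.map p
      · obtain ⟨g, rfl⟩ := QuotientGroup.mk'_surjective M x
        by_contra hg
        have hgQ : g ∉ π.ker := fun h => hg h
        refine hgQ (hZ.faith π hS.surj (fun y hy r hr => ?_) g fun r hr => ?_)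
        · rw [Subgroup.mem_bot, hZcen y hy r hr]; group
        · obtain ⟨q, hq, rfl⟩ := hsurj r hr
          have h1 := hx (p q) (hk' ▸ Subgroup.mem_map_of_mem p hq)
          rw [hk', phi_map, hPhi] at h1
          obtain ⟨w, hw, hwe⟩ := h1
          rw [← map_inv, ← map_inv, ← map_mul, ← map_mul, ← map_mul] at hwe
          have h2 : w⁻¹ * (g * q * g⁻¹ * q⁻¹) ∈ M := QuotientGroup.eq.1 hwe
          rw [Subgroup.mem_bot]
          obtain ⟨u, hu, hu2, hue⟩ : ∃ u ∈ π.ker, u * u = 1 ∧ g * q * g⁻¹ = u * q := by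
            refine ⟨g * q * g⁻¹ * q⁻¹, ?_, ?_, by group⟩
            · exact mul_mem (Subgroup.Normal.conj_mem inferInstance q hq g) (inv_mem hq)
            · have hwK : w ∈ K := ⟨hZQ hw, hZ2 w hw⟩
              have hmK : w⁻¹ * (g * q * g⁻¹ * q⁻¹) ∈ K := by
                rcases hMcases _ h2 with e | e <;> rw [e]
                · exact one_mem K
                · exact ⟨htQ, ht2⟩
              have h3 := mul_mem hwK hmK
              rw [mul_inv_cancel_left] at h3
              exact h3.2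
          rw [show g * (q * q) * g⁻¹ * (q * q)⁻¹ = g * q * g⁻¹ * (g * q * g⁻¹) * (q * q)⁻¹ by group, hue,
            show u * q * (u * q) = u * (q * u) * q by group, hab q hq u hu,
            show u * (u * q) * q * (q * q)⁻¹ = u * u by group, hu2]
    refine hS'.abelian_false π'.ker (Z.map p) hζ' le_rfl (hk' ▸ Subgroup.map_mono hZQ)
      (fun q hq z hz => hcomm' q hq z (hk' ▸ Subgroup.map_mono hZQ hz)) hcomm' ?_ ?_ ?_ (Or.inl rfl)
    · rw [hk']; rintro _ ⟨a, ha, rfl⟩
      exact ⟨a * a, hsq a ha, map_mul p a a⟩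
    · rintro _ ⟨z, hz, rfl⟩
      obtain ⟨a, ha, rfl⟩ := hsurj z hz
      exact ⟨p a, hk' ▸ Subgroup.mem_map_of_mem p ha, (map_mul p a a).symm⟩
    · intro x _ _ w hw hw2 _
      rw [hk'] at hw
      obtain ⟨a, ha, rfl⟩ := hw
      rw [← map_mul, hone] at hw2
      have ha2 : a * a = 1 := (hMcases _ hw2).resolve_right fun e => htZ (e ▸ hsq a ha)
      by_cases haZ : a ∈ Z
      · exact Subgroup.mem_map_of_mem p haZ
      · refine ⟨t⁻¹ * a, ?_, ?_⟩
        · have hidx : t⁻¹ * a ∈ Z := by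
            by_contra hta
            have hKc : 16 ≥ Nat.card K := elementary_le hS.rank K fun k hk => hk.2
            have h8 := hZ.card_bot rfl
            have hge := card_closure_ge K Z (fun z hz => ⟨hZQ hz, hZ2 z hz⟩)
              (fun i : Fin 3 => if i = 0 then 1 else if i = 1 then t else a) (fun i => by
                split_ifs
                exacts [one_mem K, ⟨htQ, ht2⟩, ⟨ha, ha2⟩]) (fun i j h => by
                have ht' : t⁻¹ = t := inv_eq_of_mul_eq_one_right ht2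
                have ha' : a⁻¹ = a := inv_eq_of_mul_eq_one_right ha2
                have hat : a * t ∉ Z := fun h' => hta (by rw [ht', hab t htQ a ha]; exact h')
                fin_cases i <;> fin_cases j <;> simp_all)
            rw [Nat.card_fin] at hge
            omega
          exact hidx
        · rw [map_mul, map_inv, show p t = 1 from (hone t).2 (Subgroup.mem_zpowers t)]; simp
  · exact hS.abelian_false π.ker Z hZ le_rfl hZQ hZcen hab hsq hsurj
      (fun x hxx hxQ a ha ha2 hxa => hno x hxx hxQ a ⟨ha, ha2⟩ hxa) (Or.inl rfl)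

end CfsgLib.RadicalRankFour
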