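/-
RadicalRankFour: the 2-radical under a simple group of order 168 in sectional rank four.
-/
import Mathlib
import Cfsg.Agent.Lib.RadicalRankFour.LThreeAux

set_option autoImplicit false

namespace CfsgLib.RadicalRankFour

variable {G : Type*} [Group G] [Finite G] {L : Type*} [Group L] [IsSimpleGroup L] {π : G →* L}

namespace Setting

variable (hS : Setting π)
include hS

/-- The natural case with a normal subgroup of index at most two. -/
theorem natural_R_false (hL : Nat.card L = 168) {Z : Subgroup G} [Z.Normal] {ζ : G → V3} (hZ : Coord Z ⊥ ζ)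
    (hPhi : Phi π.ker = Z) (hcen : ∀ q ∈ π.ker, ∀ z ∈ Z, q * z = z * q) {R : Subgroup G} [R.Normal]
    {ν : G → V3} (hR : Coord R Z ν) (hRQ : R ≤ π.ker)
    (hidx : R = π.ker ∨ ∃ τ ∈ π.ker, τ ∉ R ∧ ∀ q ∈ π.ker, q ∈ R ∨ τ⁻¹ * q ∈ R) : False := by
  have hRn : R.Normal := inferInstance
  have hZn : Z.Normal := inferInstance
  have hZ2 : ∀ z ∈ Z, z * z = 1 := fun z hz => Subgroup.mem_bot.1 (hZ.sq_mem hz)
  have hZQ : Z ≤ π.ker := hR.le.trans hRQ
  have hsq : ∀ r ∈ R, r * r ∈ Z := fun r hr => hR.sq_mem hr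
  rcases natural_sq hR hZ (fun n hn r hr => (hcen r (hRQ hr) n hn).symm) hZ2 hsq with helem | ⟨hab, hker⟩
  · have h1 := elementary_le hS.rank R helem
    have h2 := hR.card_ge
    rw [hZ.card_bot rfl] at h2
    omega
  -- the coordinates of `R` given by squaring
  let ν₂ : G → V3 := fun r => ζ (r * r)
  have hmul2 : ∀ r ∈ R, ∀ s ∈ R, r * s * (r * s) = r * r * (s * s) := fun r hr s hs => by
    rw [mul_assoc r s, ← mul_assoc s r s, hab s hs r hr]; group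
  have hν₂mul : ∀ r ∈ R, ∀ s ∈ R, ν₂ (r * s) = ν₂ r + ν₂ s := fun r hr s hs => by
    show ζ _ = ζ _ + ζ _
    rw [← hZ.mul _ (hsq r hr) _ (hsq s hs), hmul2 r hr s hs]
  have hν₂ker : ∀ r ∈ R, ν₂ r = 0 ↔ r ∈ Z := fun r hr => by
    show ζ _ = 0 ↔ _
    rw [hZ.ker _ (hsq r hr), Subgroup.mem_bot]
    exact ⟨hker r hr, hZ2 r⟩
  -- squares fill `Z`
  have hsurj : ∀ z ∈ Z, ∃ r ∈ R, r * r = z := by
    choose s hs hs' using hR.surj
    intro z hz
    let f : V3 → V3 := fun v => ν₂ (s v)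
    have hinj : Function.Injective f := fun v w h => by
      have h1 : ν₂ ((s v)⁻¹ * s w) = 0 := by
        rw [hν₂mul _ (inv_mem (hs v)) _ (hs w)]
        have hi : ν₂ (s v)⁻¹ = ν₂ (s v) := by
          show ζ _ = ζ _
          rw [← mul_inv_rev, hZ.inv (hsq _ (hs v))]
        rw [hi]
        show f v + f w = 0
        rw [h]; exact V3_add_self _
      have h2 := (hν₂ker _ (mul_mem (inv_mem (hs v)) (hs w))).1 h1
      rw [← hR.eq_iff (hs v) (hs w), hs', hs'] at h2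
      exact h2
    obtain ⟨v, hv⟩ := Finite.injective_iff_surjective.1 hinj (ζ z)
    refine ⟨s v, hs v, ?_⟩
    have := (hZ.eq_iff (hsq _ (hs v)) hz).1 hv
    rwa [Subgroup.mem_bot, inv_mul_eq_one] at this
  have hC₂ : Coord R Z ν₂ := ⟨hR.le, hν₂mul, hν₂ker, fun v => by
      obtain ⟨z, hz, hzv⟩ := hZ.surj v
      obtain ⟨r, hr, rfl⟩ := hsurj z hz
      exact ⟨r, hr, hzv⟩, fun e he hadd => by
      obtain ⟨x, hx⟩ := hZ.full e he hadd
      refine ⟨x, fun r hr => ?_⟩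
      show ζ _ = e (ζ _)
      rw [← hx _ (hsq r hr)]; congr 1; group⟩
  rcases hidx with hRe | ⟨τ, hτ, hτR, hτq⟩
  · exact hS.abelian_ker_false hL Z hZ hZQ hPhi (hRe ▸ hab)
  -- commutation with `τ`
  have hc : ∀ q ∈ π.ker, ∀ r ∈ R, q * r * q⁻¹ * r⁻¹ ∈ Z := fun q hq r hr =>
    hPhi ▸ comm_mem_phi hq (hRQ hr)
  have hcm : ∀ q ∈ π.ker, ∀ r ∈ R, ∀ s ∈ R,
      q * (r * s) * q⁻¹ * (r * s)⁻¹ = q * r * q⁻¹ * r⁻¹ * (q * s * q⁻¹ * s⁻¹) := fun q hq r hr s hs => by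
    have h := hcen r (hRQ hr) _ (hc q hq s hs)
    calc q * (r * s) * q⁻¹ * (r * s)⁻¹ = q * r * q⁻¹ * r⁻¹ * (r * (q * s * q⁻¹ * s⁻¹)) * r⁻¹ := by group
      _ = _ := by rw [h]; group
  have hτeq : ∀ q ∈ π.ker, q ∉ R → ∀ r ∈ R, q * r * q⁻¹ * r⁻¹ = τ * r * τ⁻¹ * r⁻¹ := by
    intro q hq hqR r hr
    have hu := (hτq q hq).resolve_left hqR
    calc q * r * q⁻¹ * r⁻¹ = τ * ((τ⁻¹ * q) * r * (τ⁻¹ * q)⁻¹) * τ⁻¹ * r⁻¹ := by group
      _ = _ := by rw [hab _ hu r hr]; group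
  choose s hs hs' using hC₂.surj
  let ψ : V3 → V3 := fun v => ζ (τ * s v * τ⁻¹ * (s v)⁻¹)
  have hψ : ∀ r ∈ R, ζ (τ * r * τ⁻¹ * r⁻¹) = ψ (ν₂ r) := by
    intro r hr
    have hn := (hC₂.eq_iff (hs _) hr).1 (hs' (ν₂ r))
    have e : r = s (ν₂ r) * ((s (ν₂ r))⁻¹ * r) := by group
    conv_lhs => rw [e, hcm τ hτ _ (hs _) _ (hR.le hn), hcen τ hτ _ hn, mul_inv_cancel_right, mul_inv_cancel, mul_one]
  have hψadd : ∀ v w, ψ (v + w) = ψ v + ψ w := fun v w => by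
    show _ = ζ _ + ζ _
    rw [← hZ.mul _ (hc τ hτ _ (hs v)) _ (hc τ hτ _ (hs w)), ← hcm τ hτ _ (hs v) _ (hs w),
      hψ _ (mul_mem (hs v) (hs w)), hC₂.mul _ (hs v) _ (hs w), hs', hs']
  have hψeq : ∀ (x : G) (e : V3 → V3), (∀ r ∈ R, ν₂ (x * r * x⁻¹) = e (ν₂ r)) → ∀ v, ψ (e v) = e (ψ v) := by
    intro x e he v
    obtain ⟨r, hr, rfl⟩ := hC₂.surj v
    have hxr := hRn.conj_mem r hr x
    rw [← he r hr, ← hψ _ hxr, ← hψ r hr]
    have hx'Q : x * τ * x⁻¹ ∈ π.ker := Subgroup.Normal.conj_mem inferInstance τ hτ x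
    have hx'R : x * τ * x⁻¹ ∉ R := fun h => hτR (by
      have := hRn.conj_mem' _ h x
      rwa [show x⁻¹ * (x * τ * x⁻¹) * x = τ by group] at this)
    rw [← hτeq _ hx'Q hx'R _ hxr,
      show x * τ * x⁻¹ * (x * r * x⁻¹) * (x * τ * x⁻¹)⁻¹ * (x * r * x⁻¹)⁻¹ =
        x * (τ * r * τ⁻¹ * r⁻¹) * x⁻¹ by group]
    obtain ⟨w, hw, hwz⟩ := hsurj _ (hc τ hτ r hr)
    rw [← hwz, show x * (w * w) * x⁻¹ = x * w * x⁻¹ * (x * w * x⁻¹) by group]
    exact he w hw
  rcases endo_natural hC₂ ψ hψadd hψeq with h0 | hid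
  · have hτc : ∀ r ∈ R, τ * r = r * τ := fun r hr => by
      have := hψ r hr
      rw [h0, hZ.ker _ (hc τ hτ r hr), Subgroup.mem_bot, mul_inv_eq_one, mul_inv_eq_iff_eq_mul] at this
      exact this
    refine hS.abelian_ker_false hL Z hZ hZQ hPhi fun a ha b hb => ?_
    rcases hτq a ha with ha' | ha' <;> rcases hτq b hb with hb' | hb'
    · exact hab a ha' b hb'
    · calc a * b = (a * τ) * (τ⁻¹ * b) := by group
        _ = τ * (a * (τ⁻¹ * b)) := by rw [← hτc a ha']; group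
        _ = τ * ((τ⁻¹ * b) * a) := by rw [hab a ha' _ hb']
        _ = b * a := by group
    · calc a * b = τ * ((τ⁻¹ * a) * b) := by group
        _ = (τ * b) * (τ⁻¹ * a) := by rw [hab _ ha' b hb']; group
        _ = b * a := by rw [hτc b hb']; group
    · calc a * b = τ * ((τ⁻¹ * a) * τ) * (τ⁻¹ * b) := by group
        _ = τ * τ * ((τ⁻¹ * a) * (τ⁻¹ * b)) := by rw [← hτc _ ha']; group
        _ = τ * (τ * (τ⁻¹ * b)) * (τ⁻¹ * a) := by rw [hab _ ha' _ hb']; group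
        _ = τ * ((τ⁻¹ * b) * τ) * (τ⁻¹ * a) := by rw [hτc _ hb']
        _ = b * a := by group
  · -- inversion
    refine hS.abelian_false R Z hZ hRQ hR.le hcen hab hsq hsurj (fun x _ _ a ha ha2 _ => hker a ha ha2)
      (Or.inr ⟨fun q hq hqR r hr => ?_, hker⟩)
    have h := hψ r hr
    rw [hid] at h
    have h' : τ * r * τ⁻¹ * r⁻¹ = r * r := by
      have := (hZ.eq_iff (hc τ hτ r hr) (hsq r hr)).1 h
      rwa [Subgroup.mem_bot, inv_mul_eq_one] at this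
    have h4 : r * r * (r * r) = 1 := hZ2 _ (hsq r hr)
    rw [← hτeq q hq hqR r hr] at h'
    calc q * r * q⁻¹ = q * r * q⁻¹ * r⁻¹ * r := by group
      _ = r * r * r := by rw [h']
      _ = r * r * (r * r) * r⁻¹ := by group
      _ = r⁻¹ := by rw [h4, one_mul]

/-- The natural case is impossible. -/
theorem natural_false (hL : Nat.card L = 168) {Z : Subgroup G} [Z.Normal] {ζ : G → V3} (hZ : Coord Z ⊥ ζ)
    (hPhi : Phi π.ker = Z) (hcen : ∀ q ∈ π.ker, ∀ z ∈ Z, q * z = z * q) : False := by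
  have hQn : π.ker.Normal := inferInstance
  have hZn : Z.Normal := inferInstance
  have hZ2 : ∀ z ∈ Z, z * z = 1 := fun z hz => Subgroup.mem_bot.1 (hZ.sq_mem hz)
  rcases hS.top_cases hL with ⟨ν, hν⟩ | ⟨R, ν, τ, hRn, hRQ, hτ, hτR, hν, hidx⟩ |
    ⟨t, N, ν, hNn, htN, htZ, hle, hN, htx, hν⟩
  · rw [hPhi] at hν
    exact hS.natural_R_false hL hZ hPhi hcen hν le_rfl (Or.inl rfl)
  · rw [hPhi] at hν
    exact hS.natural_R_false hL hZ hPhi hcen hν hRQ (Or.inr ⟨τ, hτ, hτR, hidx⟩)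
  rw [hPhi] at htZ hle hN htx
  have htQ : t ∈ π.ker := hν.le htN
  have hsq : ∀ r ∈ π.ker, r * r ∈ Z := fun r hr => hPhi ▸ sq_mem_phi hr
  have hc : ∀ a ∈ π.ker, ∀ b ∈ π.ker, a * b * a⁻¹ * b⁻¹ ∈ Z := fun a ha b hb => hPhi ▸ comm_mem_phi ha hb
  -- `t` is an involution
  have ht2 : t * t = 1 := by
    rw [← Subgroup.mem_bot]
    refine hZ.fixed_mem (hsq t htQ) fun x => ?_
    congr 1
    have hz := htx x
    rw [show x * (t * t) * x⁻¹ = (x * t * x⁻¹ * t⁻¹) * (t * (x * t * x⁻¹ * t⁻¹)) * t by group, hcen t htQ _ hz,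
      show (x * t * x⁻¹ * t⁻¹) * (x * t * x⁻¹ * t⁻¹ * t) * t =
        (x * t * x⁻¹ * t⁻¹) * (x * t * x⁻¹ * t⁻¹) * (t * t) by group, hZ2 _ hz, one_mul]
  let f : G → V3 := fun r => ζ (t * r * t⁻¹ * r⁻¹)
  have hcmul : ∀ r ∈ π.ker, ∀ s ∈ π.ker,
      t * (r * s) * t⁻¹ * (r * s)⁻¹ = t * r * t⁻¹ * r⁻¹ * (t * s * t⁻¹ * s⁻¹) := fun r hr s hs => by
    have h := hcen r hr _ (hc t htQ s hs)
    calc t * (r * s) * t⁻¹ * (r * s)⁻¹ = t * r * t⁻¹ * r⁻¹ * (r * (t * s * t⁻¹ * s⁻¹)) * r⁻¹ := by group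
      _ = _ := by rw [h]; group
  have hfmul : ∀ r ∈ π.ker, ∀ s ∈ π.ker, f (r * s) = f r + f s := fun r hr s hs => by
    show ζ _ = ζ _ + ζ _
    rw [← hZ.mul _ (hc t htQ r hr) _ (hc t htQ s hs), hcmul r hr s hs]
  have htn : ∀ n ∈ N, t * n = n * t := fun n hn => by
    rcases hN n hn with h | h
    · exact hcen t htQ n h
    · calc t * n = t * (t * (t⁻¹ * n)) := by group
        _ = t * ((t⁻¹ * n) * t) := by rw [hcen t htQ _ h]
        _ = n * t := by group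
  have hfN : ∀ n ∈ N, f n = 0 := fun n hn => by
    show ζ _ = 0
    rw [htn n hn, show n * t * t⁻¹ * n⁻¹ = 1 by group, hZ.one]
  have hfx : ∀ (x : G) (e' : V3 → V3), (∀ z ∈ Z, ζ (x * z * x⁻¹) = e' (ζ z)) → ∀ r ∈ π.ker,
      f (x * r * x⁻¹) = e' (f r) := by
    intro x e' he r hr
    show ζ _ = e' (ζ _)
    rw [← he _ (hc t htQ r hr)]
    congr 1
    have hz := htx x
    have hxr := hQn.conj_mem r hr x
    have h1 := hcen _ hxr _ hz
    calc t * (x * r * x⁻¹) * t⁻¹ * (x * r * x⁻¹)⁻¹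
        = t * (x * t⁻¹ * x⁻¹) * ((x * (t * r * t⁻¹) * x⁻¹) * ((x * t * x⁻¹) * t⁻¹)) * (x * r * x⁻¹)⁻¹ := by group
      _ = t * (x * t⁻¹ * x⁻¹) * ((x * t * x⁻¹ * t⁻¹) * (x * (t * r * t⁻¹) * x⁻¹)) * (x * r * x⁻¹)⁻¹ := by
          rw [hcen _ (hQn.conj_mem _ (hQn.conj_mem r hr t) x) _ hz]
      _ = t * ((t⁻¹) * (x * (t * r * t⁻¹) * x⁻¹)) * (x * r * x⁻¹)⁻¹ := by
          have hzc := hcen t⁻¹ (inv_mem htQ) _ hz
          have : (x * t⁻¹ * x⁻¹) * (x * t * x⁻¹ * t⁻¹) = t⁻¹ := by group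
          rw [show t * (x * t⁻¹ * x⁻¹) * ((x * t * x⁻¹ * t⁻¹) * (x * (t * r * t⁻¹) * x⁻¹)) =
            t * ((x * t⁻¹ * x⁻¹) * (x * t * x⁻¹ * t⁻¹)) * (x * (t * r * t⁻¹) * x⁻¹) by group, this]
          group
      _ = x * (t * r * t⁻¹ * r⁻¹) * x⁻¹ := by group
  choose s hs hs' using hν.surj
  have hf : ∀ r ∈ π.ker, f r = f (s (ν r)) := fun r hr => by
    have hn := (hν.eq_iff (hs _) hr).1 (hs' (ν r))
    conv_lhs => rw [show r = s (ν r) * ((s (ν r))⁻¹ * r) by group]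
    rw [hfmul _ (hs _) _ (hν.le hn), hfN _ hn, add_zero]
  rcases hom_natural hν hZ (fun v => f (s v)) (fun v w => by
      rw [← hfmul _ (hs v) _ (hs w), hf _ (mul_mem (hs v) (hs w)), hν.mul _ (hs v) _ (hs w), hs', hs'])
    (fun x e e' he he' v => by
      rw [← hfx x e' he' _ (hs v), hf _ (hQn.conj_mem _ (hs v) x), he _ (hs v), hs']) with hzero | hinj
  · -- `t` is central in `Q`
    have htc : ∀ q ∈ π.ker, t * q = q * t := fun q hq => by
      have h : f q = 0 := (hf q hq).trans (hzero _)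
      rw [hZ.ker _ (hc t htQ q hq), Subgroup.mem_bot, mul_inv_eq_one, mul_inv_eq_iff_eq_mul] at h
      exact h
    have hNc : ∀ n ∈ N, ∀ r ∈ π.ker, n * r = r * n := fun n hn r hr => by
      rcases hN n hn with h | h
      · exact (hcen r hr n h).symm
      · calc n * r = t * ((t⁻¹ * n) * r) := by group
          _ = (t * r) * (t⁻¹ * n) := by rw [← hcen r hr _ h]; group
          _ = r * n := by rw [htc r hr]; group
    have hN2 : ∀ n ∈ N, n * n = 1 := fun n hn => by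
      rcases hN n hn with h | h
      · exact hZ2 n h
      · calc n * n = t * ((t⁻¹ * n) * t) * (t⁻¹ * n) := by group
          _ = t * t * ((t⁻¹ * n) * (t⁻¹ * n)) := by rw [← hcen t htQ _ h]; group
          _ = 1 := by rw [ht2, hZ2 _ h, one_mul]
    rcases natural_sq hν hZ hNc hN2 hsq with helem | ⟨hab, -⟩
    · have : Phi π.ker = ⊥ := eq_bot_iff.2 ((Subgroup.closure_le _).2 (by
        rintro _ ⟨k, hk, rfl⟩; exact helem k hk))
      have h8 := hZ.card_bot rfl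
      rw [← hPhi, this, Subgroup.card_bot] at h8
      omega
    · exact hS.abelian_ker_false hL Z hZ (hPhi ▸ phi_le _) hPhi hab
  -- coordinates given by commutation with `t`
  have hfker : ∀ r ∈ π.ker, f r = 0 ↔ r ∈ N := fun r hr => by
    refine ⟨fun h => ?_, hfN r⟩
    rw [← hν.ker r hr]
    apply hinj
    show f (s (ν r)) = f (s 0)
    rw [← hf r hr, h, eq_comm]
    exact hfN _ ((hν.ker _ (hs 0)).1 (hs' 0))
  have hμ : Coord π.ker N f := ⟨hν.le, hfmul, hfker, fun v => by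
      obtain ⟨w, hw⟩ := Finite.injective_iff_surjective.1 hinj v
      exact ⟨s w, hs w, hw⟩, fun e he hadd => by
      obtain ⟨x, hx⟩ := hZ.full e he hadd
      exact ⟨x, fun r hr => hfx x e hx r hr⟩⟩
  have hrt : ∀ r ∈ π.ker, r * t * (r * t) = r * r * (t * r * t⁻¹ * r⁻¹) := fun r hr => by
    have h := hcen r hr _ (hc t htQ r hr)
    calc r * t * (r * t) = r * (t * r * t⁻¹ * r⁻¹) * r * (t * t) := by group
      _ = r * r * (t * r * t⁻¹ * r⁻¹) := by rw [ht2, mul_one, mul_assoc r _ r, ← h]; group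
  have hsqc : ∀ r ∈ π.ker, ∀ r' ∈ π.ker, f r = f r' →
      ζ (r' * r') = ζ (r * r) ∨ ζ (r' * r') = ζ (r * r) + f r := by
    intro r hr r' hr' h
    rcases hN _ ((hμ.eq_iff hr hr').1 h) with hz | hz
    · left
      congr 1
      calc r' * r' = r * (r⁻¹ * r') * r * (r⁻¹ * r') := by group
        _ = r * r * ((r⁻¹ * r') * (r⁻¹ * r')) := by rw [mul_assoc r _ r, ← hcen r hr _ hz]; group
        _ = r * r := by rw [hZ2 _ hz, mul_one]
    · right
      set u := t⁻¹ * (r⁻¹ * r') with hu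
      have : r' * r' = r * t * (r * t) := by
        calc r' * r' = (r * t) * (u * (r * t)) * u := by rw [hu]; group
          _ = r * t * (r * t) * (u * u) := by rw [← hcen _ (mul_mem hr htQ) _ hz]; group
          _ = _ := by rw [hZ2 _ hz, mul_one]
      rw [this, hrt r hr, hZ.mul _ (hsq r hr) _ (hc t htQ r hr)]
  -- the pair of squares
  have hpair : ∀ r ∈ π.ker, ζ (r * r) = 0 ∨ ζ (r * r) = f r ∨ f r = 0 := by
    intro r hr
    by_cases h0 : f r = 0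
    · exact Or.inr (Or.inr h0)
    obtain ⟨x, e, hx, he⟩ := hμ.trans_one h0 (show ((1, 0, 0) : V3) ≠ 0 by decide)
    obtain ⟨e', he'inj, he'add, he'⟩ := hZ.exists_act x
    have hef : ∀ r ∈ π.ker, f (x * r * x⁻¹) = e' (f r) := hfx x e' he'
    have hfr' : f (x * r * x⁻¹) = (1, 0, 0) := by rw [hx r hr, he]
    have hmain : ∀ u ∈ π.ker, f u = (1, 0, 0) → ζ (u * u) = 0 ∨ ζ (u * u) = (1, 0, 0) := by
      intro u hu hfu
      have hfix : ∀ a b c : V3, Indep3 a b c → a = (1, 0, 0) →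
          lin3 a b c (ζ (u * u)) = ζ (u * u) ∨ lin3 a b c (ζ (u * u)) = ζ (u * u) + (1, 0, 0) := by
        intro a b c habc ha
        obtain ⟨y, hy⟩ := hZ.realize habc
        have h1 := hsqc u hu _ (hQn.conj_mem u hu y) (by
          rw [hfx y _ hy u hu, hfu, ha]; simp [lin3])
        rw [show y * u * y⁻¹ * (y * u * y⁻¹) = y * (u * u) * y⁻¹ by group, hy _ (hsq u hu), hfu] at h1
        exact h1
      have g1 := hfix (1, 0, 0) (0, 0, 1) (0, 1, 1) (by decide) rfl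
      have g2 := hfix (1, 0, 0) (1, 1, 0) (0, 0, 1) (by decide) rfl
      revert g1 g2; generalize ζ (u * u) = w; revert w; decide
    have := hmain _ (hQn.conj_mem r hr x) hfr'
    rw [show x * r * x⁻¹ * (x * r * x⁻¹) = x * (r * r) * x⁻¹ by group, he' _ (hsq r hr)] at this
    have h00 : e' 0 = 0 := by
      have h := he'add 0 0
      rw [add_zero] at h
      exact left_eq_add.1 h
    rcases this with e1 | e1
    · exact Or.inl (he'inj (e1.trans h00.symm))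
    · exact Or.inr (Or.inl (he'inj (e1.trans (by rw [← hef r hr, hfr']))))
  obtain ⟨R, hRn, hRQ, htR, hRC, hidx⟩ := class_section hμ hle htN htZ hN hsq hc (fun r => r * r = 1)
    (fun r hr _ z hz => by
      show r * z * (r * z) = 1 ↔ r * r = 1
      rw [show r * z * (r * z) = r * (z * r) * z by group, ← hcen r hr z hz,
        show r * (r * z) * z = r * r * (z * z) by group, hZ2 z hz, mul_one])
    (fun r hr hrN => by
      show r * t * (r * t) = 1 ↔ ¬ r * r = 1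
      have hfr : f r ≠ 0 := fun h => hrN ((hfker r hr).1 h)
      rw [hrt r hr]
      constructor
      · intro h h1
        rw [h1, one_mul] at h
        exact hfr (by show ζ _ = 0; rw [h, hZ.one])
      · intro h1
        rcases hpair r hr with e | e | e
        · exact absurd (Subgroup.mem_bot.1 ((hZ.ker _ (hsq r hr)).1 e)) h1
        · rw [← Subgroup.mem_bot, ← hZ.ker _ (mul_mem (hsq r hr) (hc t htQ r hr)),
            hZ.mul _ (hsq r hr) _ (hc t htQ r hr), e]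
          exact V3_add_self _
        · exact absurd e hfr)
    (fun r _ _ x => by
      show x * r * x⁻¹ * (x * r * x⁻¹) = 1 ↔ r * r = 1
      rw [show x * r * x⁻¹ * (x * r * x⁻¹) = x * (r * r) * x⁻¹ by group, conj_eq_one_iff])
  haveI := hRn
  exact hS.natural_R_false hL hZ hPhi hcen hRC hRQ (Or.inr ⟨t, htQ, htR, hidx⟩)

/-- Minimal nontrivial Frattini subgroup: the only possible structure. -/
theorem layer (hL : Nat.card L = 168) (hne : Phi π.ker ≠ ⊥)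
    (hmin : ∀ N : Subgroup G, N.Normal → N ≤ Phi π.ker → N = ⊥ ∨ N = Phi π.ker) :
    Nat.card (Phi π.ker) = 2 ∧ (∀ a ∈ π.ker, ∀ b ∈ π.ker, a * b = b * a) ∧
      ∃ (R : Subgroup G) (ν : G → V3) (τ : G), R.Normal ∧ R ≤ π.ker ∧ τ ∈ π.ker ∧ τ ∉ R ∧
        Coord R (Phi π.ker) ν ∧ (∀ q ∈ π.ker, q ∈ R ∨ τ⁻¹ * q ∈ R) ∧ (∀ r ∈ R, r * r = 1) ∧
        τ * τ ≠ 1 := by
  set Z := Phi π.ker with hZdef
  have hQn : π.ker.Normal := inferInstance
  obtain ⟨hcen, hZ2⟩ := hS.minimal_facts Z (phi_le _) hne hmin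
  rcases hS.minimal_cases hL Z (phi_le _) hne hmin with ⟨hc2, hZc⟩ | ⟨ζ, hζ⟩
  swap
  · exact (hS.natural_false hL hζ rfl hcen).elim
  refine ⟨hc2, ?_⟩
  have hsq : ∀ r ∈ π.ker, r * r ∈ Z := fun r hr => sq_mem_phi hr
  have hc : ∀ a ∈ π.ker, ∀ b ∈ π.ker, a * b * a⁻¹ * b⁻¹ ∈ Z := fun a ha b hb => comm_mem_phi ha hb
  have hsgnconj : ∀ (x : G) (a : G), a ∈ Z → x * a * x⁻¹ = a := fun x a ha => by
    rw [hZc a ha x, mul_inv_cancel_right]
  have hnotelem : ¬ ∀ r ∈ π.ker, r * r = 1 := fun h => hne (eq_bot_iff.2 ((Subgroup.closure_le _).2 (by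
    rintro _ ⟨k, hk, rfl⟩; exact h k hk)))
  -- the case with an invariant subgroup of index two
  have hRcase : ∀ (R : Subgroup G) (ν : G → V3) (τ : G), R.Normal → R ≤ π.ker → τ ∈ π.ker → τ ∉ R →
      Coord R Z ν → (∀ q ∈ π.ker, q ∈ R ∨ τ⁻¹ * q ∈ R) →
      (∀ a ∈ π.ker, ∀ b ∈ π.ker, a * b = b * a) ∧
      ∃ (R : Subgroup G) (ν : G → V3) (τ : G), R.Normal ∧ R ≤ π.ker ∧ τ ∈ π.ker ∧ τ ∉ R ∧
        Coord R Z ν ∧ (∀ q ∈ π.ker, q ∈ R ∨ τ⁻¹ * q ∈ R) ∧ (∀ r ∈ R, r * r = 1) ∧ τ * τ ≠ 1 := by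
    intro R ν τ hRn hRQ hτ hτR hν hidx
    haveI := hRn
    have hab := natural_trivial_comm hν hc2 hZc (fun n hn r hr => (hcen r (hRQ hr) n hn).symm)
      (fun r hr s hs => hc r (hRQ hr) s (hRQ hs))
    have helem := natural_trivial_sq hν hc2 hZc hZ2 hab (fun r hr => hsq r (hRQ hr))
    have hcm : ∀ r ∈ R, ∀ s ∈ R,
        τ * (r * s) * τ⁻¹ * (r * s)⁻¹ = τ * r * τ⁻¹ * r⁻¹ * (τ * s * τ⁻¹ * s⁻¹) := fun r hr s hs => by
      have h := hcen r (hRQ hr) _ (hc τ hτ s (hRQ hs))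
      calc τ * (r * s) * τ⁻¹ * (r * s)⁻¹ = τ * r * τ⁻¹ * r⁻¹ * (r * (τ * s * τ⁻¹ * s⁻¹)) * r⁻¹ := by group
        _ = _ := by rw [h]; group
    choose s hs hs' using hν.surj
    have hwd : ∀ r ∈ R, τ * r * τ⁻¹ * r⁻¹ = τ * s (ν r) * τ⁻¹ * (s (ν r))⁻¹ := fun r hr => by
      have hn := (hν.eq_iff (hs _) hr).1 (hs' (ν r))
      conv_lhs => rw [show r = s (ν r) * ((s (ν r))⁻¹ * r) by group, hcm _ (hs _) _ (hν.le hn),
        hcen τ hτ _ hn, mul_inv_cancel_right, mul_inv_cancel, mul_one]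
    have hτc : ∀ r ∈ R, τ * r = r * τ := by
      have h0 := hom_trivial hν (fun v => sgn (τ * s v * τ⁻¹ * (s v)⁻¹)) (fun v w => by
        rw [← sgn_mul hc2 (hc τ hτ _ (hRQ (hs v))) (hc τ hτ _ (hRQ (hs w))), ← hcm _ (hs v) _ (hs w),
          hwd _ (mul_mem (hs v) (hs w)), hν.mul _ (hs v) _ (hs w), hs', hs']) fun x e he v => by
        have hxs := hRn.conj_mem _ (hs v) x
        conv_lhs => rw [← hs' v, ← he _ (hs v), ← hwd _ hxs]
        congr 1
        have hτ'Q : x⁻¹ * τ * x ∈ π.ker := hQn.conj_mem' τ hτ x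
        have hτ'R : x⁻¹ * τ * x ∉ R := fun h => hτR (by
          have := hRn.conj_mem _ h x
          rwa [show x * (x⁻¹ * τ * x) * x⁻¹ = τ by group] at this)
        have hu := (hidx _ hτ'Q).resolve_left hτ'R
        calc τ * (x * s v * x⁻¹) * τ⁻¹ * (x * s v * x⁻¹)⁻¹
            = x * ((x⁻¹ * τ * x) * s v * (x⁻¹ * τ * x)⁻¹ * (s v)⁻¹) * x⁻¹ := by group
          _ = x * (τ * ((τ⁻¹ * (x⁻¹ * τ * x)) * s v * (τ⁻¹ * (x⁻¹ * τ * x))⁻¹) * τ⁻¹ * (s v)⁻¹) * x⁻¹ := by group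
          _ = x * (τ * s v * τ⁻¹ * (s v)⁻¹) * x⁻¹ := by rw [hab _ hu _ (hs v)]; group
          _ = _ := hsgnconj x _ (hc τ hτ _ (hRQ (hs v)))
      intro r hr
      have := sgn_eq_zero.1 (h0 (ν r))
      rw [← hwd r hr, mul_inv_eq_one, mul_inv_eq_iff_eq_mul] at this
      exact this
    have hQab : ∀ a ∈ π.ker, ∀ b ∈ π.ker, a * b = b * a := by
      intro a ha b hb
      rcases hidx a ha with ha' | ha' <;> rcases hidx b hb with hb' | hb'
      · exact hab a ha' b hb'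
      · calc a * b = (a * τ) * (τ⁻¹ * b) := by group
          _ = τ * (a * (τ⁻¹ * b)) := by rw [← hτc a ha']; group
          _ = τ * ((τ⁻¹ * b) * a) := by rw [hab a ha' _ hb']
          _ = b * a := by group
      · calc a * b = τ * ((τ⁻¹ * a) * b) := by group
          _ = (τ * b) * (τ⁻¹ * a) := by rw [hab _ ha' b hb']; group
          _ = b * a := by rw [hτc b hb']; group
      · calc a * b = τ * ((τ⁻¹ * a) * τ) * (τ⁻¹ * b) := by group
          _ = τ * τ * ((τ⁻¹ * a) * (τ⁻¹ * b)) := by rw [← hτc _ ha']; group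
          _ = τ * (τ * (τ⁻¹ * b)) * (τ⁻¹ * a) := by rw [hab _ ha' _ hb']; group
          _ = τ * ((τ⁻¹ * b) * τ) * (τ⁻¹ * a) := by rw [hτc _ hb']
          _ = b * a := by group
    refine ⟨hQab, R, ν, τ, hRn, hRQ, hτ, hτR, hν, hidx, helem, fun hτ2 => hnotelem fun q hq => ?_⟩
    rcases hidx q hq with h | h
    · exact helem q h
    · calc q * q = τ * ((τ⁻¹ * q) * τ) * (τ⁻¹ * q) := by group
        _ = τ * τ * ((τ⁻¹ * q) * (τ⁻¹ * q)) := by rw [← hτc _ h]; group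
        _ = 1 := by rw [hτ2, helem _ h, one_mul]
  rcases hS.top_cases hL with ⟨ν, hν⟩ | ⟨R, ν, τ, hRn, hRQ, hτ, hτR, hν, hidx⟩ |
    ⟨t, N, ν, hNn, htN, htZ, hle, hN, htx, hν⟩
  · exfalso
    have hab := natural_trivial_comm hν hc2 hZc (fun n hn r hr => (hcen r hr n hn).symm) hc
    exact hnotelem (natural_trivial_sq hν hc2 hZc hZ2 hab hsq)
  · exact hRcase R ν τ hRn hRQ hτ hτR hν hidx
  have htQ : t ∈ π.ker := hν.le htN
  choose s hs hs' using hν.surj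
  have htn : ∀ n ∈ N, t * n = n * t := fun n hn => by
    rcases hN n hn with h | h
    · exact hcen t htQ n h
    · calc t * n = t * (t * (t⁻¹ * n)) := by group
        _ = t * ((t⁻¹ * n) * t) := by rw [hcen t htQ _ h]
        _ = n * t := by group
  have hcmul : ∀ r ∈ π.ker, ∀ s ∈ π.ker,
      t * (r * s) * t⁻¹ * (r * s)⁻¹ = t * r * t⁻¹ * r⁻¹ * (t * s * t⁻¹ * s⁻¹) := fun r hr s hs => by
    have h := hcen r hr _ (hc t htQ s hs)
    calc t * (r * s) * t⁻¹ * (r * s)⁻¹ = t * r * t⁻¹ * r⁻¹ * (r * (t * s * t⁻¹ * s⁻¹)) * r⁻¹ := by group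
      _ = _ := by rw [h]; group
  have hwd : ∀ r ∈ π.ker, t * r * t⁻¹ * r⁻¹ = t * s (ν r) * t⁻¹ * (s (ν r))⁻¹ := fun r hr => by
    have hn := (hν.eq_iff (hs _) hr).1 (hs' (ν r))
    conv_lhs => rw [show r = s (ν r) * ((s (ν r))⁻¹ * r) by group, hcmul _ (hs _) _ (hν.le hn),
      htn _ hn, mul_inv_cancel_right, mul_inv_cancel, mul_one]
  have htc : ∀ q ∈ π.ker, t * q = q * t := by
    have h0 := hom_trivial hν (fun v => sgn (t * s v * t⁻¹ * (s v)⁻¹)) (fun v w => by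
      rw [← sgn_mul hc2 (hc t htQ _ (hs v)) (hc t htQ _ (hs w)), ← hcmul _ (hs v) _ (hs w),
        hwd _ (mul_mem (hs v) (hs w)), hν.mul _ (hs v) _ (hs w), hs', hs']) fun x e he v => by
      have hxs := hQn.conj_mem _ (hs v) x
      conv_lhs => rw [← hs' v, ← he _ (hs v), ← hwd _ hxs]
      congr 1
      have hz := htx x⁻¹
      rw [inv_inv] at hz
      calc t * (x * s v * x⁻¹) * t⁻¹ * (x * s v * x⁻¹)⁻¹
          = x * ((x⁻¹ * t * x) * s v * (x⁻¹ * t * x)⁻¹ * (s v)⁻¹) * x⁻¹ := by group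
        _ = x * ((x⁻¹ * t * x * t⁻¹) * (t * s v * t⁻¹) * (x⁻¹ * t * x * t⁻¹)⁻¹ * (s v)⁻¹) * x⁻¹ := by group
        _ = x * (t * s v * t⁻¹ * (s v)⁻¹) * x⁻¹ := by
            rw [← hcen _ (hQn.conj_mem _ (hs v) t) _ hz]; group
        _ = _ := hsgnconj x _ (hc t htQ _ (hs v))
    intro q hq
    have := sgn_eq_zero.1 (h0 (ν q))
    rw [← hwd q hq, mul_inv_eq_one, mul_inv_eq_iff_eq_mul] at this
    exact this
  have hNc : ∀ n ∈ N, ∀ r ∈ π.ker, n * r = r * n := fun n hn r hr => by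
    rcases hN n hn with h | h
    · exact (hcen r hr n h).symm
    · calc n * r = t * ((t⁻¹ * n) * r) := by group
        _ = (t * r) * (t⁻¹ * n) := by rw [← hcen r hr _ h]; group
        _ = r * n := by rw [htc r hr]; group
  have hab := natural_trivial_comm hν hc2 hZc hNc hc
  have hmul2 : ∀ a ∈ π.ker, ∀ b ∈ π.ker, a * b * (a * b) = a * a * (b * b) := fun a ha b hb => by
    rw [mul_assoc a b, ← mul_assoc b a b, hab b hb a ha]; group
  by_cases ht2 : t * t = 1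
  · exfalso
    refine hnotelem (natural_trivial_sq hν hc2 hZc (fun n hn => ?_) hab hsq)
    rcases hN n hn with h | h
    · exact hZ2 n h
    · have := hmul2 t htQ (t⁻¹ * n) (mul_mem (inv_mem htQ) (hν.le hn))
      rw [mul_inv_cancel_left] at this
      rw [this, ht2, hZ2 _ h, one_mul]
  obtain ⟨R, hRn, hRQ, htR, hRC, hidx⟩ := class_section hν hle htN htZ hN hsq hc (fun r => r * r = 1)
    (fun r hr _ z hz => by
      show r * z * (r * z) = 1 ↔ r * r = 1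
      rw [hmul2 r hr z (phi_le _ hz), hZ2 z hz, mul_one])
    (fun r hr _ => by
      show r * t * (r * t) = 1 ↔ ¬ r * r = 1
      rw [hmul2 r hr t htQ]
      constructor
      · intro h h1; rw [h1, one_mul] at h; exact ht2 h
      · intro h1
        rw [two_cases hc2 (hsq r hr) (hsq t htQ) h1 ht2]
        exact hZ2 _ (hsq t htQ))
    (fun r _ _ x => by
      show x * r * x⁻¹ * (x * r * x⁻¹) = 1 ↔ r * r = 1
      rw [show x * r * x⁻¹ * (x * r * x⁻¹) = x * (r * r) * x⁻¹ by group, conj_eq_one_iff])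
  exact hRcase R ν t hRn hRQ htQ htR hRC hidx

end Setting

end CfsgLib.RadicalRankFour
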