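/-
RadicalRankFour: the Frattini subgroup has order at most two under a simple group of order 168.
-/
import Mathlib
import Cfsg.Agent.Lib.RadicalRankFour.LThree

set_option autoImplicit false

namespace CfsgLib.RadicalRankFour

variable {G : Type*} [Group G] [Finite G] {L : Type*} [Group L] [IsSimpleGroup L] {π : G →* L}

namespace Setting

variable (hS : Setting π)
include hS

/-- A second layer over a natural module is impossible. -/
theorem second_natural_false (hL : Nat.card L = 168) {Z F R : Subgroup G} [Z.Normal] [F.Normal] [R.Normal]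
    {ζ ν : G → V3} (hZ : Coord Z ⊥ ζ) (hν : Coord R F ν) {τ : G} (hτ : τ ∈ π.ker) (hτR : τ ∉ R)
    (hRQ : R ≤ π.ker) (hidx : ∀ q ∈ π.ker, q ∈ R ∨ τ⁻¹ * q ∈ R) (hF : Phi π.ker = F) (hZF : Z ≤ F)
    (hFcard : Nat.card F = 2 * Nat.card Z) (hτZ : τ * τ ∉ Z)
    (hFZ : ∀ f ∈ F, f ∈ Z ∨ (τ * τ)⁻¹ * f ∈ Z) (hc : ∀ a ∈ π.ker, ∀ b ∈ π.ker, a * b * a⁻¹ * b⁻¹ ∈ Z)
    (hsqR : ∀ r ∈ R, r * r ∈ Z) (hFc : ∀ q ∈ π.ker, ∀ f ∈ F, q * f = f * q) : False := by
  classical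
  have hRn : R.Normal := inferInstance
  have hQn : π.ker.Normal := inferInstance
  have hZ2 : ∀ z ∈ Z, z * z = 1 := fun z hz => Subgroup.mem_bot.1 (hZ.sq_mem hz)
  have hZ8 := hZ.card_bot rfl
  have hττF : τ * τ ∈ F := hF ▸ sq_mem_phi hτ
  have hFQ : F ≤ π.ker := hν.le.trans hRQ
  set f := τ * τ with hfdef
  have hf2 : f * f = 1 := by
    have hmem : f * f ∈ Z := hsqR f (hν.le hττF)
    rw [← Subgroup.mem_bot]
    refine hZ.fixed_mem hmem fun x => ?_
    congr 1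
    obtain ⟨w, hw, hwe⟩ : ∃ w ∈ Z, x * f * x⁻¹ = f * w := by
      rcases hFZ _ (Subgroup.Normal.conj_mem inferInstance f hττF x) with h | h
      · exfalso
        refine hτZ ?_
        have h' := (inferInstance : Z.Normal).conj_mem' _ h x
        rwa [show x⁻¹ * (x * f * x⁻¹) * x = f by group] at h'
      · exact ⟨_, h, by group⟩
    rw [show x * (f * f) * x⁻¹ = x * f * x⁻¹ * (x * f * x⁻¹) by group, hwe,
      show f * w * (f * w) = f * (w * f) * w by group, ← hFc f (hFQ hττF) w (hZF hw),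
      show f * (f * w) * w = f * f * (w * w) by group, hZ2 w hw, mul_one]
  have hF2 : ∀ n ∈ F, n * n = 1 := by
    intro n hn
    rcases hFZ n hn with h | h
    · exact hZ2 n h
    · calc n * n = f * ((f⁻¹ * n) * f) * (f⁻¹ * n) := by group
        _ = f * f * ((f⁻¹ * n) * (f⁻¹ * n)) := by rw [← hFc f (hFQ hττF) _ (hZF h)]; group
        _ = 1 := by rw [hf2, hZ2 _ h, one_mul]
  rcases natural_sq hν hZ (fun n hn r hr => (hFc r (hRQ hr) n hn).symm) hF2 hsqR with helem | ⟨hab, hker⟩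
  · have h1 := elementary_le hS.rank R helem
    have h2 := hν.card_ge
    omega
  -- the fixed-point case reduces to a single layer
  have hnofix : ¬ ∃ t ∈ F, t ∉ Z ∧ ∀ x : G, x * t * x⁻¹ = t := by
    rintro ⟨t, ht, htZ, htx⟩
    set M := Subgroup.zpowers t with hMdef
    have ht2 := hF2 t ht
    have hMcases : ∀ w ∈ M, w = 1 ∨ w = t := by
      rintro _ ⟨n, rfl⟩
      rcases Int.even_or_odd n with ⟨j, rfl⟩ | ⟨j, rfl⟩
      · left; show t ^ (j + j) = 1; rw [← two_mul, zpow_mul, zpow_two, ht2, one_zpow]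
      · right; show t ^ (2 * j + 1) = t; rw [zpow_add, zpow_mul, zpow_two, ht2, one_zpow, one_mul, zpow_one]
    haveI hMn : M.Normal := ⟨fun w hw x => by
      rcases hMcases w hw with rfl | rfl
      · simp
      · rw [htx x]; exact Subgroup.mem_zpowers _⟩
    have hMF : M ≤ Phi π.ker := hF.symm ▸ Subgroup.zpowers_le.2 ht
    obtain ⟨hS', hk'⟩ := hS.quot M hMF
    set p := QuotientGroup.mk' M with hp
    set π' := QuotientGroup.lift M π (hMF.trans (phi_le _)) with hπ'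
    have hone : ∀ x : G, p x = 1 ↔ x ∈ M := fun x => QuotientGroup.eq_one_iff x
    have hFt : F.map p = Z.map p := by
      refine le_antisymm ?_ (Subgroup.map_mono hZF)
      rintro _ ⟨w, hw, rfl⟩
      have hpt : p t = 1 := (hone t).2 (Subgroup.mem_zpowers t)
      rcases hFZ w hw with h | h
      · exact Subgroup.mem_map_of_mem p h
      rcases hFZ t ht with h' | h'
      · exact absurd h' htZ
      refine ⟨(f⁻¹ * t)⁻¹ * (f⁻¹ * w), mul_mem (inv_mem h') h, ?_⟩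
      rw [show (f⁻¹ * t)⁻¹ * (f⁻¹ * w) = t⁻¹ * w by group, map_mul, map_inv, hpt, inv_one, one_mul]
    obtain ⟨ζ', hζ', -⟩ := hZ.map p (fun z hz h => (hMcases z ((hone z).1 h)).resolve_right fun e => htZ (e ▸ hz))
    haveI : (Z.map p).Normal := Subgroup.Normal.map inferInstance p (QuotientGroup.mk'_surjective M)
    refine hS'.natural_false hL hζ' (by rw [hk', phi_map, hF, hFt]) fun q hq z hz => ?_
    rw [hk'] at hq
    obtain ⟨a, ha, rfl⟩ := hq
    obtain ⟨b, hb, rfl⟩ := hz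
    rw [← map_mul, hFc a ha b (hZF hb), map_mul]
  -- commutation with `τ`
  let ν₂ : G → V3 := fun r => ζ (r * r)
  have hmul2 : ∀ r ∈ R, ∀ s ∈ R, r * s * (r * s) = r * r * (s * s) := fun r hr s hs => by
    rw [mul_assoc r s, ← mul_assoc s r s, hab s hs r hr]; group
  have hν₂mul : ∀ r ∈ R, ∀ s ∈ R, ν₂ (r * s) = ν₂ r + ν₂ s := fun r hr s hs => by
    show ζ _ = ζ _ + ζ _
    rw [← hZ.mul _ (hsqR r hr) _ (hsqR s hs), hmul2 r hr s hs]
  have hν₂ker : ∀ r ∈ R, ν₂ r = 0 ↔ r ∈ F := fun r hr => by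
    show ζ _ = 0 ↔ _
    rw [hZ.ker _ (hsqR r hr), Subgroup.mem_bot]
    exact ⟨hker r hr, hF2 r⟩
  have hsurj : ∀ z ∈ Z, ∃ r ∈ R, r * r = z := by
    choose s hs hs' using hν.surj
    intro z hz
    let g : V3 → V3 := fun v => ν₂ (s v)
    have hinj : Function.Injective g := fun v w h => by
      have h1 : ν₂ ((s v)⁻¹ * s w) = 0 := by
        rw [hν₂mul _ (inv_mem (hs v)) _ (hs w)]
        have hi : ν₂ (s v)⁻¹ = ν₂ (s v) := by
          show ζ _ = ζ _
          rw [← mul_inv_rev, hZ.inv (hsqR _ (hs v))]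
        rw [hi]
        show g v + g w = 0
        rw [h]; exact V3_add_self _
      have h2 := (hν₂ker _ (mul_mem (inv_mem (hs v)) (hs w))).1 h1
      rw [← hν.eq_iff (hs v) (hs w), hs', hs'] at h2
      exact h2
    obtain ⟨v, hv⟩ := Finite.injective_iff_surjective.1 hinj (ζ z)
    refine ⟨s v, hs v, ?_⟩
    have := (hZ.eq_iff (hsqR _ (hs v)) hz).1 hv
    rwa [Subgroup.mem_bot, inv_mul_eq_one] at this
  have hC₂ : Coord R F ν₂ := ⟨hν.le, hν₂mul, hν₂ker, fun v => by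
      obtain ⟨z, hz, hzv⟩ := hZ.surj v
      obtain ⟨r, hr, rfl⟩ := hsurj z hz
      exact ⟨r, hr, hzv⟩, fun e he hadd => by
      obtain ⟨x, hx⟩ := hZ.full e he hadd
      refine ⟨x, fun r hr => ?_⟩
      show ζ _ = e (ζ _)
      rw [← hx _ (hsqR r hr)]; congr 1; group⟩
  have hcm : ∀ r ∈ R, ∀ s ∈ R,
      τ * (r * s) * τ⁻¹ * (r * s)⁻¹ = τ * r * τ⁻¹ * r⁻¹ * (τ * s * τ⁻¹ * s⁻¹) := fun r hr s hs => by
    have h := hFc r (hRQ hr) _ (hZF (hc τ hτ s (hRQ hs)))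
    calc τ * (r * s) * τ⁻¹ * (r * s)⁻¹ = τ * r * τ⁻¹ * r⁻¹ * (r * (τ * s * τ⁻¹ * s⁻¹)) * r⁻¹ := by group
      _ = _ := by rw [h]; group
  have hτeq : ∀ q ∈ π.ker, q ∉ R → ∀ r ∈ R, q * r * q⁻¹ * r⁻¹ = τ * r * τ⁻¹ * r⁻¹ := by
    intro q hq hqR r hr
    have hu := (hidx q hq).resolve_left hqR
    calc q * r * q⁻¹ * r⁻¹ = τ * ((τ⁻¹ * q) * r * (τ⁻¹ * q)⁻¹) * τ⁻¹ * r⁻¹ := by group
      _ = _ := by rw [hab _ hu r hr]; group
  choose s hs hs' using hC₂.surj
  let ψ : V3 → V3 := fun v => ζ (τ * s v * τ⁻¹ * (s v)⁻¹)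
  have hψ : ∀ r ∈ R, ζ (τ * r * τ⁻¹ * r⁻¹) = ψ (ν₂ r) := by
    intro r hr
    have hn := (hC₂.eq_iff (hs _) hr).1 (hs' (ν₂ r))
    have e : r = s (ν₂ r) * ((s (ν₂ r))⁻¹ * r) := by group
    conv_lhs => rw [e, hcm _ (hs _) _ (hν.le hn), hFc τ hτ _ hn, mul_inv_cancel_right, mul_inv_cancel, mul_one]
  have hψadd : ∀ v w, ψ (v + w) = ψ v + ψ w := fun v w => by
    show _ = ζ _ + ζ _
    rw [← hZ.mul _ (hc τ hτ _ (hRQ (hs v))) _ (hc τ hτ _ (hRQ (hs w))), ← hcm _ (hs v) _ (hs w),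
      hψ _ (mul_mem (hs v) (hs w)), hC₂.mul _ (hs v) _ (hs w), hs', hs']
  have hψeq : ∀ (x : G) (e : V3 → V3), (∀ r ∈ R, ν₂ (x * r * x⁻¹) = e (ν₂ r)) → ∀ v, ψ (e v) = e (ψ v) := by
    intro x e he v
    obtain ⟨r, hr, rfl⟩ := hC₂.surj v
    have hxr := hRn.conj_mem r hr x
    rw [← he r hr, ← hψ _ hxr, ← hψ r hr]
    have hx'R : x * τ * x⁻¹ ∉ R := fun h => hτR (by
      have := hRn.conj_mem' _ h x
      rwa [show x⁻¹ * (x * τ * x⁻¹) * x = τ by group] at this)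
    rw [← hτeq _ (hQn.conj_mem τ hτ x) hx'R _ hxr,
      show x * τ * x⁻¹ * (x * r * x⁻¹) * (x * τ * x⁻¹)⁻¹ * (x * r * x⁻¹)⁻¹ =
        x * (τ * r * τ⁻¹ * r⁻¹) * x⁻¹ by group]
    obtain ⟨w, hw, hwz⟩ := hsurj _ (hc τ hτ r (hRQ hr))
    rw [← hwz, show x * (w * w) * x⁻¹ = x * w * x⁻¹ * (x * w * x⁻¹) by group]
    exact he w hw
  rcases endo_natural hC₂ ψ hψadd hψeq with h0 | hid
  swap
  · -- inversion: the square of the outer elements is constant
    refine hnofix ⟨f, hττF, hτZ, fun x => ?_⟩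
    have hinv : ∀ r ∈ R, τ * r * τ⁻¹ = r⁻¹ := fun r hr => by
      have h := hψ r hr
      rw [hid] at h
      have h' : τ * r * τ⁻¹ * r⁻¹ = r * r := by
        have := (hZ.eq_iff (hc τ hτ r (hRQ hr)) (hsqR r hr)).1 h
        rwa [Subgroup.mem_bot, inv_mul_eq_one] at this
      calc τ * r * τ⁻¹ = τ * r * τ⁻¹ * r⁻¹ * r := by group
        _ = r * r * r := by rw [h']
        _ = r * r * (r * r) * r⁻¹ := by group
        _ = r⁻¹ := by rw [hZ2 _ (hsqR r hr), one_mul]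
    have hxQ : x * τ * x⁻¹ ∈ π.ker := hQn.conj_mem τ hτ x
    have hx'R : x * τ * x⁻¹ ∉ R := fun h => hτR (by
      have := hRn.conj_mem' _ h x
      rwa [show x⁻¹ * (x * τ * x⁻¹) * x = τ by group] at this)
    have hu := (hidx _ hxQ).resolve_left hx'R
    set u := τ⁻¹ * (x * τ * x⁻¹) with hudef
    calc x * f * x⁻¹ = (x * τ * x⁻¹) * (x * τ * x⁻¹) := by rw [hfdef]; group
      _ = (τ * u * τ⁻¹) * (τ * τ) * u := by rw [hudef]; group
      _ = u⁻¹ * (u * f) := by rw [hinv u hu, hFc u (hRQ hu) f hττF, hfdef]; group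
      _ = f := inv_mul_cancel_left _ _
  have hτc : ∀ r ∈ R, τ * r = r * τ := fun r hr => by
    have := hψ r hr
    rw [h0, hZ.ker _ (hc τ hτ r (hRQ hr)), Subgroup.mem_bot, mul_inv_eq_one, mul_inv_eq_iff_eq_mul] at this
    exact this
  have hQab : ∀ a ∈ π.ker, ∀ b ∈ π.ker, a * b = b * a := by
    intro a ha b hb
    rcases hidx a ha with ha' | ha' <;> rcases hidx b hb with hb' | hb'
    · exact hab a ha' b hb'
    · calc a * b = (a * τ) * (τ⁻¹ * b) := by group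
        _ = τ * (a * (τ⁻¹ * b)) := by rw [← hτc a ha']; group
        _ = τ * ((τ⁻¹ * b) * a) := by rw [hab a ha' _ hb']
        _ = b * a := by group
    · calc a * b = τ * ((τ⁻¹ * a) * b) := by group
        _ = (τ * b) * (τ⁻¹ * a) := by rw [hab _ ha' b hb']; group
        _ = b * a := by rw [hτc b hb']; group
    · calc a * b = τ * ((τ⁻¹ * a) * τ) * (τ⁻¹ * b) := by group
        _ = τ * τ * ((τ⁻¹ * a) * (τ⁻¹ * b)) := by rw [← hτc _ ha']; group
        _ = τ * (τ * (τ⁻¹ * b)) * (τ⁻¹ * a) := by rw [hab _ ha' _ hb']; group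
        _ = τ * ((τ⁻¹ * b) * τ) * (τ⁻¹ * a) := by rw [hτc _ hb']
        _ = b * a := by group
  have hinvol : ∀ a ∈ π.ker, a * a = 1 → a ∈ F := by
    intro a ha ha2
    rcases hidx a ha with h | h
    · exact hker a h ha2
    · exfalso
      refine hτZ ?_
      have e : a * a = f * ((τ⁻¹ * a) * (τ⁻¹ * a)) := by
        calc a * a = τ * ((τ⁻¹ * a) * τ) * (τ⁻¹ * a) := by group
          _ = _ := by rw [← hτc _ h, hfdef]; group
      rw [ha2] at e
      rw [eq_inv_of_mul_eq_one_left e.symm]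
      exact inv_mem (hsqR _ h)
  have hQtriv : ∀ x ∈ π.ker, ∀ r ∈ Z, x * r * x⁻¹ * r⁻¹ ∈ (⊥ : Subgroup G) := fun x hx r hr => by
    rw [Subgroup.mem_bot, hFc x hx r (hZF hr)]; group
  obtain ⟨θ, g₀, hθ, -, hgν, hgg⟩ :=
    hZ.exists_theta_g π hS.two hQtriv (hZ.faith π hS.surj hQtriv)
  set g := g₀⁻¹ * θ * g₀ * θ⁻¹ with hgdef
  have hgQ : g ∉ π.ker := fun h => by
    obtain ⟨r, hr, hrv⟩ := hZ.surj (0, 0, 1)
    have h1 := hgν r hr
    rw [hFc g h r (hZF hr), mul_inv_cancel_right, hrv] at h1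
    exact absurd h1 (by decide)
  rcases hS.coset_dichotomy hL F Z hZ hZF hF2 hFc with hfx | hno
  · exact hnofix hfx
  have hsqQ : ∀ z ∈ F, ∃ a ∈ π.ker, a * a = z := fun z hz => exists_square hQab z (hF.symm ▸ hz)
  refine false_of_free hS.rank π.ker hQab (fun a ha => hF2 _ (hF ▸ sq_mem_phi ha))
    (fun w hw hw2 => hsqQ w (hinvol w hw hw2)) ?_ g (fun a ha => hQn.conj_mem a ha g) hgg hgQ ?_
  · rw [show 16 = Nat.card F by omega]
    exact Nat.card_congr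
      { toFun := fun a => ⟨(a : π.ker), hinvol _ (a : π.ker).2 (congrArg Subtype.val a.2)⟩
        invFun := fun w => ⟨⟨w, hFQ w.2⟩, Subtype.ext (hF2 _ w.2)⟩
        left_inv := fun a => rfl
        right_inv := fun w => rfl }
  intro d hd hfix
  have hdF : d * d ∈ F := hF ▸ sq_mem_phi hd
  have hdZ := hno g hgg hgQ _ hdF hfix
  have hconjz : ∀ z ∈ Z, g * z * g⁻¹ ∈ Z := fun z hz => Subgroup.Normal.conj_mem inferInstance z hz g
  -- commutators of `g` with `F`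
  have hwfix : g * f * g⁻¹ * f⁻¹ ∈ Z := by
    rcases hFZ _ (Subgroup.Normal.conj_mem inferInstance f hττF g) with h | h
    · exfalso
      refine hτZ ?_
      have h' := (inferInstance : Z.Normal).conj_mem' _ h g
      rwa [show g⁻¹ * (g * f * g⁻¹) * g = f by group] at h'
    · rw [show g * f * g⁻¹ * f⁻¹ = f * (f⁻¹ * (g * f * g⁻¹)) * f⁻¹ by group]
      exact Subgroup.Normal.conj_mem inferInstance _ h f
  have hwne : ∀ l ∈ Z, ζ (g * f * g⁻¹ * f⁻¹) ≠ Tg (ζ l) + ζ l := by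
    intro l hl h
    have hfl : f * l ∉ Z := fun h' => hτZ ((Subgroup.mul_mem_cancel_right Z hl).1 h')
    apply hfl
    refine hno g hgg hgQ _ (mul_mem hττF (hZF hl)) ?_
    have h' : ζ (g * f * g⁻¹ * f⁻¹) = ζ ((g * l * g⁻¹) * l⁻¹) := by
      rw [h, hZ.mul _ (hconjz l hl) _ (inv_mem hl), hgν l hl, hZ.inv hl]
    have h'' := (hZ.eq_iff hwfix (mul_mem (hconjz l hl) (inv_mem hl))).1 h'
    rw [Subgroup.mem_bot, inv_mul_eq_one] at h''
    have hcm' := hFc f (hFQ hττF) l (hZF hl)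
    calc g * (f * l) * g⁻¹ = (g * f * g⁻¹ * f⁻¹) * f * (g * l * g⁻¹) := by group
      _ = g * l * g⁻¹ * l⁻¹ * f * (g * l * g⁻¹) := by rw [h'']
      _ = g * l * g⁻¹ * (l⁻¹ * (f * (g * l * g⁻¹))) := by group
      _ = g * l * g⁻¹ * (l⁻¹ * ((g * l * g⁻¹) * f)) := by
          rw [hFc f (hFQ hττF) _ (hZF (hconjz l hl))]
      _ = g * l * g⁻¹ * (g * l * g⁻¹) * (l⁻¹ * f) := by
          have : l⁻¹ * (g * l * g⁻¹) = (g * l * g⁻¹) * l⁻¹ :=
            hFc _ (hFQ (hZF (inv_mem hl))) _ (hZF (hconjz l hl))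
          rw [← mul_assoc (l⁻¹), this]; group
      _ = f * l := by
          rw [hZ2 _ (hconjz l hl), one_mul, show l⁻¹ = l from inv_eq_of_mul_eq_one_right (hZ2 l hl), hcm']
  have hwfix2 : Tg (ζ (g * f * g⁻¹ * f⁻¹)) = ζ (g * f * g⁻¹ * f⁻¹) := by
    rw [← hgν _ hwfix]
    congr 1
    have e : g * g * f * (g * g)⁻¹ = f := by rw [hFc _ hgg f hττF, mul_inv_cancel_right]
    calc g * (g * f * g⁻¹ * f⁻¹) * g⁻¹ = (g * g * f * (g * g)⁻¹) * (g * f * g⁻¹)⁻¹ := by group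
      _ = (g * f * g⁻¹ * f⁻¹)⁻¹ := by rw [e]; group
      _ = _ := inv_eq_of_mul_eq_one_right (hZ2 _ hwfix)
  obtain ⟨e, heF, he⟩ : ∃ e ∈ F, ζ (g * e * g⁻¹ * e⁻¹) = ζ (d * d) := by
    have hv : Tg (ζ (d * d)) = ζ (d * d) := by rw [← hgν _ hdZ, hfix]
    obtain ⟨l, hl⟩ : ∃ l : V3, ζ (d * d) = Tg l + l ∨
        ζ (d * d) = ζ (g * f * g⁻¹ * f⁻¹) + (Tg l + l) := by
      have hne : ∀ u, ζ (g * f * g⁻¹ * f⁻¹) ≠ Tg u + u := fun u => by
        obtain ⟨l, hl, rfl⟩ := hZ.surj u; exact hwne l hl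
      revert hv hwfix2 hne
      generalize ζ (d * d) = v
      generalize ζ (g * f * g⁻¹ * f⁻¹) = w
      revert v w
      decide
    obtain ⟨m, hm, rfl⟩ := hZ.surj l
    have hm' : ζ (g * m * g⁻¹ * m⁻¹) = Tg (ζ m) + ζ m := by
      rw [hZ.mul _ (hconjz m hm) _ (inv_mem hm), hgν m hm, hZ.inv hm]
    rcases hl with hl | hl
    · exact ⟨m, hZF hm, by rw [hm', hl]⟩
    · refine ⟨f * m, mul_mem hττF (hZF hm), ?_⟩
      rw [show g * (f * m) * g⁻¹ * (f * m)⁻¹ =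
          (g * f * g⁻¹ * f⁻¹) * (f * (g * m * g⁻¹ * m⁻¹) * f⁻¹) by group,
        hFc f (hFQ hττF) _ (hZF (mul_mem (hconjz m hm) (inv_mem hm))), mul_inv_cancel_right,
        hZ.mul _ hwfix _ (mul_mem (hconjz m hm) (inv_mem hm)), hm', hl]
  obtain ⟨a, ha, rfl⟩ := hsqQ e heF
  refine ⟨a, ha, ?_⟩
  have hmem : g * (a * a) * g⁻¹ * (a * a)⁻¹ ∈ Z := by
    rcases hFZ _ heF with h | h
    · exact mul_mem (hconjz _ h) (inv_mem h)
    · rw [show g * (a * a) * g⁻¹ * (a * a)⁻¹ = (g * f * g⁻¹ * f⁻¹) *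
          (f * ((g * (f⁻¹ * (a * a)) * g⁻¹) * (f⁻¹ * (a * a))⁻¹) * f⁻¹) by group]
      exact mul_mem hwfix (Subgroup.Normal.conj_mem inferInstance _ (mul_mem (hconjz _ h) (inv_mem h)) f)
  have := (hZ.eq_iff hmem hdZ).1 he
  rwa [Subgroup.mem_bot, inv_mul_eq_one] at this

/-- A second layer over a trivial module is impossible. -/
theorem second_trivial_false (hL : Nat.card L = 168) {Z F R : Subgroup G} [Z.Normal] [F.Normal] [R.Normal]
    {ν : G → V3} (hc2 : Nat.card Z = 2) (hZc : ∀ z ∈ Z, ∀ x : G, x * z = z * x) (hν : Coord R F ν)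
    {τ : G} (hτ : τ ∈ π.ker) (hτR : τ ∉ R) (hRQ : R ≤ π.ker)
    (hidx : ∀ q ∈ π.ker, q ∈ R ∨ τ⁻¹ * q ∈ R) (hF : Phi π.ker = F) (hZF : Z ≤ F)
    (hFcard : Nat.card F = 2 * Nat.card Z) (hτZ : τ * τ ∉ Z)
    (hFZ : ∀ f ∈ F, f ∈ Z ∨ (τ * τ)⁻¹ * f ∈ Z) (hc : ∀ a ∈ π.ker, ∀ b ∈ π.ker, a * b * a⁻¹ * b⁻¹ ∈ Z)
    (hsqR : ∀ r ∈ R, r * r ∈ Z) (hFc : ∀ q ∈ π.ker, ∀ f ∈ F, q * f = f * q) : False := by
  classical
  have hRn : R.Normal := inferInstance
  have hQn : π.ker.Normal := inferInstance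
  have hττF : τ * τ ∈ F := hF ▸ sq_mem_phi hτ
  have hFQ : F ≤ π.ker := hν.le.trans hRQ
  set f := τ * τ with hfdef
  have hFfix : ∀ x : G, ∀ v ∈ F, x * v * x⁻¹ = v :=
    small_trivial hL π hS.surj F (fun x hx v hv => by rw [hFc x hx v hv, mul_inv_cancel_right]) (by omega)
  have hab := natural_trivial_comm hν hc2 hZc (fun n hn r hr => (hFc r (hRQ hr) n hn).symm)
    (fun r hr s hs => hc r (hRQ hr) s (hRQ hs))
  have hcm : ∀ r ∈ R, ∀ s ∈ R,
      τ * (r * s) * τ⁻¹ * (r * s)⁻¹ = τ * r * τ⁻¹ * r⁻¹ * (τ * s * τ⁻¹ * s⁻¹) := fun r hr s hs => by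
    have h := hZc _ (hc τ hτ s (hRQ hs)) r
    calc τ * (r * s) * τ⁻¹ * (r * s)⁻¹ = τ * r * τ⁻¹ * r⁻¹ * (r * (τ * s * τ⁻¹ * s⁻¹)) * r⁻¹ := by group
      _ = _ := by rw [h]; group
  choose s hs hs' using hν.surj
  have hwd : ∀ r ∈ R, τ * r * τ⁻¹ * r⁻¹ = τ * s (ν r) * τ⁻¹ * (s (ν r))⁻¹ := fun r hr => by
    have hn := (hν.eq_iff (hs _) hr).1 (hs' (ν r))
    conv_lhs => rw [show r = s (ν r) * ((s (ν r))⁻¹ * r) by group, hcm _ (hs _) _ (hν.le hn),
      hFc τ hτ _ hn, mul_inv_cancel_right, mul_inv_cancel, mul_one]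
  have hτc : ∀ r ∈ R, τ * r = r * τ := by
    have h0 := hom_trivial hν (fun v => sgn (τ * s v * τ⁻¹ * (s v)⁻¹)) (fun v w => by
      rw [← sgn_mul hc2 (hc τ hτ _ (hRQ (hs v))) (hc τ hτ _ (hRQ (hs w))), ← hcm _ (hs v) _ (hs w),
        hwd _ (mul_mem (hs v) (hs w)), hν.mul _ (hs v) _ (hs w), hs', hs']) fun x e he v => by
      have hxs := hRn.conj_mem _ (hs v) x
      conv_lhs => rw [← hs' v, ← he _ (hs v), ← hwd _ hxs]
      congr 1
      have hτ'Q : x⁻¹ * τ * x ∈ π.ker := hQn.conj_mem' τ hτ x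
      have hτ'R : x⁻¹ * τ * x ∉ R := fun h => hτR (by
        have := hRn.conj_mem _ h x
        rwa [show x * (x⁻¹ * τ * x) * x⁻¹ = τ by group] at this)
      have hu := (hidx _ hτ'Q).resolve_left hτ'R
      calc τ * (x * s v * x⁻¹) * τ⁻¹ * (x * s v * x⁻¹)⁻¹
          = x * ((x⁻¹ * τ * x) * s v * (x⁻¹ * τ * x)⁻¹ * (s v)⁻¹) * x⁻¹ := by group
        _ = x * (τ * ((τ⁻¹ * (x⁻¹ * τ * x)) * s v * (τ⁻¹ * (x⁻¹ * τ * x))⁻¹) * τ⁻¹ * (s v)⁻¹) * x⁻¹ := by group
        _ = x * (τ * s v * τ⁻¹ * (s v)⁻¹) * x⁻¹ := by rw [hab _ hu _ (hs v)]; group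
        _ = _ := by rw [hZc _ (hc τ hτ _ (hRQ (hs v))) x, mul_inv_cancel_right]
    intro r hr
    have := sgn_eq_zero.1 (h0 (ν r))
    rw [← hwd r hr, mul_inv_eq_one, mul_inv_eq_iff_eq_mul] at this
    exact this
  have hQab : ∀ a ∈ π.ker, ∀ b ∈ π.ker, a * b = b * a := by
    intro a ha b hb
    rcases hidx a ha with ha' | ha' <;> rcases hidx b hb with hb' | hb'
    · exact hab a ha' b hb'
    · calc a * b = (a * τ) * (τ⁻¹ * b) := by group
        _ = τ * (a * (τ⁻¹ * b)) := by rw [← hτc a ha']; group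
        _ = τ * ((τ⁻¹ * b) * a) := by rw [hab a ha' _ hb']
        _ = b * a := by group
    · calc a * b = τ * ((τ⁻¹ * a) * b) := by group
        _ = (τ * b) * (τ⁻¹ * a) := by rw [hab _ ha' b hb']; group
        _ = b * a := by rw [hτc b hb']; group
    · calc a * b = τ * ((τ⁻¹ * a) * τ) * (τ⁻¹ * b) := by group
        _ = τ * τ * ((τ⁻¹ * a) * (τ⁻¹ * b)) := by rw [← hτc _ ha']; group
        _ = τ * (τ * (τ⁻¹ * b)) * (τ⁻¹ * a) := by rw [hab _ ha' _ hb']; group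
        _ = τ * ((τ⁻¹ * b) * τ) * (τ⁻¹ * a) := by rw [hτc _ hb']
        _ = b * a := by group
  have hsqτ : ∀ a ∈ π.ker, a ∉ R → ∃ z ∈ Z, a * a = f * z := by
    intro a ha haR
    have h := (hidx a ha).resolve_left haR
    refine ⟨_, hsqR _ h, ?_⟩
    calc a * a = τ * ((τ⁻¹ * a) * τ) * (τ⁻¹ * a) := by group
      _ = _ := by rw [← hτc _ h, hfdef]; group
  have hZ2 : ∀ z ∈ Z, z * z = 1 := fun z hz => by
    by_cases h : z = 1
    · rw [h, one_mul]
    by_contra h'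
    exact h (mul_eq_left.1 (two_cases hc2 (mul_mem hz hz) hz h' h))
  have hfsq : f * f ∈ Z := hsqR f (hν.le hττF)
  have hff : f * f ≠ 1 := by
    intro h
    have hF2 : ∀ n ∈ F, n * n = 1 := by
      intro n hn
      rcases hFZ n hn with h' | h'
      · exact hZ2 n h'
      · calc n * n = f * ((f⁻¹ * n) * f) * (f⁻¹ * n) := by group
          _ = f * f * ((f⁻¹ * n) * (f⁻¹ * n)) := by rw [← hZc _ h' f]; group
          _ = 1 := by rw [h, hZ2 _ h', one_mul]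
    have helem := natural_trivial_sq hν hc2 hZc hF2 hab hsqR
    have hle : F ≤ Subgroup.zpowers f := by
      rw [← hF]
      refine (Subgroup.closure_le _).2 ?_
      rintro _ ⟨a, ha, rfl⟩
      by_cases haR : a ∈ R
      · rw [helem a haR]; exact one_mem _
      · have h' := (hidx a ha).resolve_left haR
        rw [show a * a = f * ((τ⁻¹ * a) * (τ⁻¹ * a)) by
          calc a * a = τ * ((τ⁻¹ * a) * τ) * (τ⁻¹ * a) := by group
            _ = _ := by rw [← hτc _ h', hfdef]; group, helem _ h', mul_one]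
        exact Subgroup.mem_zpowers f
    have hle2 := Subgroup.card_le_of_le hle
    rw [Nat.card_zpowers] at hle2
    have := orderOf_le_of_pow_eq_one (n := 2) (x := f) (by norm_num) (by rw [pow_two]; exact h)
    omega
  have hf4 : f * f * (f * f) = 1 := hZ2 _ hfsq
  have hFz : F = Subgroup.zpowers f := by
    refine le_antisymm (fun w hw => ?_) (Subgroup.zpowers_le.2 hττF)
    have hzc : ∀ z ∈ Z, z ∈ Subgroup.zpowers f := fun z hz => by
      by_cases h : z = 1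
      · rw [h]; exact one_mem _
      · rw [two_cases hc2 hz hfsq h hff]; exact mul_mem (Subgroup.mem_zpowers f) (Subgroup.mem_zpowers f)
    rcases hFZ w hw with h | h
    · exact hzc w h
    · have := mul_mem (Subgroup.mem_zpowers f) (hzc _ h)
      rwa [mul_inv_cancel_left] at this
  have h4R : ∀ a : G, a ∈ π.ker → a * a * (a * a) = 1 → a ∈ R := by
    intro a ha h
    by_contra haR
    obtain ⟨z, hz, e⟩ := hsqτ a ha haR
    refine hff ?_
    rw [e, show f * z * (f * z) = f * (z * f) * z by group, ← hZc z hz f,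
      show f * (f * z) * z = f * f * (z * z) by group, hZ2 z hz, mul_one] at h
    exact h
  -- the triple
  have hQtriv : ∀ x ∈ π.ker, ∀ r ∈ R, x * r * x⁻¹ * r⁻¹ ∈ F := fun x hx r hr =>
    hZF (hc x hx r (hRQ hr))
  obtain ⟨θ, g₀, hθ, hθν, hgν, hgg⟩ :=
    hν.exists_theta_g π hS.two hQtriv (hν.faith π hS.surj hQtriv)
  have hT : Triple π.ker θ (g₀⁻¹ * θ * g₀ * θ⁻¹) := Triple.mk' hQab hθ g₀ hgg
  let fQ : π.ker := ⟨f, hFQ hττF⟩
  refine false_of_eight hS.rank hT (f := fQ) (ψ := fun a => ν a) ⟨Subtype.ext hf4,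
    fun h => hff (congrArg Subtype.val h), Subtype.ext ?_, Subtype.ext ?_, fun a => ?_, ?_, ?_, ?_, ?_, ?_, ?_⟩
  · rw [Triple.coe_act]; exact hFfix _ f hττF
  · rw [Triple.coe_act]; exact hFfix _ f hττF
  · have hm : (a : G) * a ∈ F := hF ▸ sq_mem_phi a.2
    rw [hFz] at hm
    obtain ⟨n, hn⟩ := hm
    exact ⟨n, Subtype.ext (by rw [SubgroupClass.coe_zpow]; exact hn)⟩
  · intro a b ha hb
    exact hν.mul _ (h4R a a.2 (congrArg Subtype.val ha)) _ (h4R b b.2 (congrArg Subtype.val hb))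
  · intro a ha h
    have hm := (hν.ker _ (h4R a a.2 (congrArg Subtype.val ha))).1 h
    rw [hFz] at hm
    obtain ⟨n, hn⟩ := hm
    exact ⟨n, Subtype.ext (by rw [SubgroupClass.coe_zpow]; exact hn)⟩
  · exact (hν.ker _ (hν.le hττF)).2 hττF
  · intro v
    by_cases h : s v * s v = 1
    · exact ⟨⟨s v, hRQ (hs v)⟩, Subtype.ext h, hs' v⟩
    · refine ⟨⟨s v * f, mul_mem (hRQ (hs v)) (hFQ hττF)⟩, Subtype.ext ?_, ?_⟩
      · show s v * f * (s v * f) = 1
        rw [show s v * f * (s v * f) = s v * (f * s v) * f by group, ← hFc (s v) (hRQ (hs v)) f hττF,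
          show s v * (s v * f) * f = s v * s v * (f * f) by group,
          two_cases hc2 (hsqR _ (hs v)) hfsq h hff, hf4]
      · show ν (s v * f) = v
        rw [hν.mul _ (hs v) _ (hν.le hττF), hs', (hν.ker _ (hν.le hττF)).2 hττF, add_zero]
  · intro a ha
    show ν _ = Tt (ν (a : G))
    rw [Triple.coe_act, hθν _ (h4R a a.2 (congrArg Subtype.val ha))]
  · intro a ha
    show ν _ = Tg (ν (a : G))
    rw [Triple.coe_act, hgν _ (h4R a a.2 (congrArg Subtype.val ha))]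

/-- Two layers are impossible. -/
theorem two_layer_false (hL : Nat.card L = 168) (Z : Subgroup G) [Z.Normal] (hZne : Z ≠ ⊥)
    (hlt : Z < Phi π.ker) (hminZ : ∀ N : Subgroup G, N.Normal → N ≤ Z → N = ⊥ ∨ N = Z)
    (hmax : ∀ N : Subgroup G, N.Normal → Z ≤ N → N ≤ Phi π.ker → N = Z ∨ N = Phi π.ker) : False := by
  classical
  obtain ⟨hcen, hZ2⟩ := hS.minimal_facts Z (hlt.le.trans (phi_le _)) hZne hminZ
  obtain ⟨hS', hk'⟩ := hS.quot Z hlt.le
  set p := QuotientGroup.mk' Z with hp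
  set π' := QuotientGroup.lift Z π (hlt.le.trans (phi_le _)) with hπ'
  set F := Phi π.ker with hFdef
  have hone : ∀ x : G, p x = 1 ↔ x ∈ Z := fun x => QuotientGroup.eq_one_iff x
  have hk'' : Phi π'.ker = F.map p := by rw [hk', phi_map]
  have hback : ∀ {K : Subgroup G}, Z ≤ K → ∀ {x : G}, p x ∈ K.map p → x ∈ K := by
    rintro K hK x ⟨y, hy, e⟩
    have := mul_mem hy (hK (QuotientGroup.eq.1 e))
    rwa [mul_inv_cancel_left] at this
  have hne' : Phi π'.ker ≠ ⊥ := by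
    rw [hk'']
    intro h
    exact hlt.not_ge fun x hx => (hone x).1 (Subgroup.mem_bot.1 (h ▸ Subgroup.mem_map_of_mem p hx))
  have hmin' : ∀ N : Subgroup (G ⧸ Z), N.Normal → N ≤ Phi π'.ker → N = ⊥ ∨ N = Phi π'.ker := by
    intro N hN hle
    rw [hk''] at hle ⊢
    have h1 : Z ≤ N.comap p := fun z hz => by
      rw [Subgroup.mem_comap, (hone z).2 hz]; exact one_mem _
    have h2 : N.comap p ≤ F := fun x hx => hback hlt.le (hle hx)
    have e : (N.comap p).map p = N := Subgroup.map_comap_eq_self_of_surjective (QuotientGroup.mk'_surjective Z) N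
    rcases hmax _ (hN.comap p) h1 h2 with h | h
    · left
      rw [← e, h, eq_bot_iff]
      rintro _ ⟨z, hz, rfl⟩
      exact Subgroup.mem_bot.2 ((hone z).2 hz)
    · right; rw [← e, h]
  obtain ⟨hc2', hab', R', ν', τ', hR'n, hR'Q, hτ'Q, hτ'R, hν', hidx', helem', hττ'⟩ := hS'.layer hL hne' hmin'
  rw [hk''] at hν' hc2'
  rw [hk'] at hR'Q hτ'Q hab' hidx'
  haveI := hR'n
  obtain ⟨τ, hτ, rfl⟩ := hτ'Q
  set R := R'.comap p with hRdef
  haveI : R.Normal := hR'n.comap p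
  have hZQ : Z ≤ π.ker := hlt.le.trans (phi_le _)
  have hRQ : R ≤ π.ker := fun r hr => hback hZQ (hR'Q hr)
  have hFR : F ≤ R := fun x hx => hν'.le (Subgroup.mem_map_of_mem p hx)
  have hν : Coord R F (fun x => ν' (p x)) := ⟨hFR, fun r hr s hs => by
      show ν' (p (r * s)) = _
      rw [map_mul]; exact hν'.mul _ hr _ hs,
    fun r hr => (hν'.ker _ hr).trans ⟨hback hlt.le, fun h => Subgroup.mem_map_of_mem p h⟩,
    fun v => by
      obtain ⟨r', hr', hv⟩ := hν'.surj v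
      obtain ⟨r, rfl⟩ := QuotientGroup.mk'_surjective Z r'
      exact ⟨r, hr', hv⟩,
    fun e he hadd => by
      obtain ⟨x', hx⟩ := hν'.full e he hadd
      obtain ⟨x, rfl⟩ := QuotientGroup.mk'_surjective Z x'
      refine ⟨x, fun r hr => ?_⟩
      show ν' (p (x * r * x⁻¹)) = _
      rw [map_mul, map_mul, map_inv]
      exact hx _ hr⟩
  have hidx : ∀ q ∈ π.ker, q ∈ R ∨ τ⁻¹ * q ∈ R := fun q hq => by
    rcases hidx' _ (Subgroup.mem_map_of_mem p hq) with h | h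
    · exact Or.inl h
    · right; show p (τ⁻¹ * q) ∈ R'; rw [map_mul, map_inv]; exact h
  have hτR : τ ∉ R := hτ'R
  have hFcard : Nat.card F = 2 * Nat.card Z := by
    rw [show F = (F.map p).comap p from le_antisymm (Subgroup.le_comap_map p F) fun x hx => hback hlt.le hx,
      card_comap_mk, hc2']
  have hτZ : τ * τ ∉ Z := fun h => hττ' (by rw [← map_mul]; exact (hone _).2 h)
  have hττF : τ * τ ∈ F := sq_mem_phi hτ
  have hFZ : ∀ w ∈ F, w ∈ Z ∨ (τ * τ)⁻¹ * w ∈ Z := by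
    intro w hw
    by_cases h : w ∈ Z
    · exact Or.inl h
    right
    rw [← hone, map_mul, map_inv, inv_mul_eq_one]
    exact two_cases hc2' (Subgroup.mem_map_of_mem p hττF) (Subgroup.mem_map_of_mem p hw)
      (fun e => hτZ ((hone _).1 e)) (fun e => h ((hone w).1 e))
  have hc : ∀ a ∈ π.ker, ∀ b ∈ π.ker, a * b * a⁻¹ * b⁻¹ ∈ Z := fun a ha b hb => by
    rw [← hone, map_mul, map_mul, map_mul, map_inv, map_inv,
      hab' _ (Subgroup.mem_map_of_mem p ha) _ (Subgroup.mem_map_of_mem p hb)]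
    group
  have hsqR : ∀ r ∈ R, r * r ∈ Z := fun r hr => by
    rw [← hone, map_mul]; exact helem' _ hr
  -- the Frattini subgroup is central
  have hout : ∀ q ∈ π.ker, q ∉ R → ∀ w ∈ F, q * w = w * q := by
    intro q hq hqR
    have hu := (hidx q hq).resolve_left hqR
    have hq2 : q * q ∉ Z := fun h => hττ' (by
      have hcomm := hab' _ (Subgroup.mem_map_of_mem p hτ) _ (Subgroup.mem_map_of_mem p (hRQ hu))
      have h1 := (hone _).2 h
      have h2 : p (τ⁻¹ * q) * p (τ⁻¹ * q) = 1 := helem' _ hu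
      calc p τ * p τ = p τ * p τ * (p (τ⁻¹ * q) * p (τ⁻¹ * q)) := by rw [h2, mul_one]
        _ = p τ * (p τ * p (τ⁻¹ * q)) * p (τ⁻¹ * q) := by group
        _ = p τ * (p (τ⁻¹ * q) * p τ) * p (τ⁻¹ * q) := by rw [hcomm]
        _ = p (q * q) := by simp only [map_mul, map_inv]; group
        _ = 1 := h1)
    intro w hw
    by_cases hwZ : w ∈ Z
    · exact hcen q hq w hwZ
    have hz : (q * q)⁻¹ * w ∈ Z := by
      rw [← hone, map_mul, map_inv, inv_mul_eq_one]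
      exact two_cases hc2' (Subgroup.mem_map_of_mem p (sq_mem_phi hq)) (Subgroup.mem_map_of_mem p hw)
        (fun e => hq2 ((hone _).1 e)) (fun e => hwZ ((hone w).1 e))
    calc q * w = q * q * (q * ((q * q)⁻¹ * w)) := by group
      _ = q * q * (((q * q)⁻¹ * w) * q) := by rw [hcen q hq _ hz]
      _ = w * q := by group
  have hFc : ∀ q ∈ π.ker, ∀ w ∈ F, q * w = w * q := by
    intro q hq w hw
    by_cases hqR : q ∈ R
    · have h1 := hout τ hτ hτR w hw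
      have h2 := hout (τ * q) (mul_mem hτ hq) (fun h => hτR ((Subgroup.mul_mem_cancel_right R hqR).1 h)) w hw
      calc q * w = τ⁻¹ * (τ * q * w) := by group
        _ = τ⁻¹ * (w * τ) * q := by rw [h2]; group
        _ = w * q := by rw [← h1]; group
    · exact hout q hq hqR w hw
  rcases hS.minimal_cases hL Z hZQ hZne hminZ with ⟨hc2, hZc⟩ | ⟨ζ, hζ⟩
  · exact hS.second_trivial_false hL hc2 hZc hν hτ hτR hRQ hidx rfl hlt.le hFcard hτZ hFZ hc hsqR hFc
  · exact hS.second_natural_false hL hζ hν hτ hτR hRQ hidx rfl hlt.le hFcard hτZ hFZ hc hsqR hFc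

/-- The structure of the 2-radical. -/
theorem three_two (hL : Nat.card L = 168) : Phi π.ker = ⊥ ∨
    Nat.card (Phi π.ker) = 2 ∧ (∀ a ∈ π.ker, ∀ b ∈ π.ker, a * b = b * a) ∧
      ∃ (R : Subgroup G) (ν : G → V3) (τ : G), R.Normal ∧ R ≤ π.ker ∧ τ ∈ π.ker ∧ τ ∉ R ∧
        Coord R (Phi π.ker) ν ∧ (∀ q ∈ π.ker, q ∈ R ∨ τ⁻¹ * q ∈ R) ∧ (∀ r ∈ R, r * r = 1) ∧
        τ * τ ≠ 1 := by
  by_cases hne : Phi π.ker = ⊥
  · exact Or.inl hne
  obtain ⟨M, hMn, hMlt, hMmax⟩ := exists_max_below (Phi π.ker) hne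
  by_cases hM : M = ⊥
  · right
    subst hM
    exact hS.layer hL hne fun N hN hle => hMmax N hN bot_le hle
  exfalso
  obtain ⟨M₂, hM₂n, hM₂lt, hM₂max⟩ := exists_max_below M hM
  haveI := hMn
  haveI := hM₂n
  obtain ⟨hS', hk'⟩ := hS.quot M₂ (hM₂lt.le.trans hMlt.le)
  set p := QuotientGroup.mk' M₂ with hp
  have hone : ∀ x : G, p x = 1 ↔ x ∈ M₂ := fun x => QuotientGroup.eq_one_iff x
  have hback : ∀ {K : Subgroup G}, M₂ ≤ K → ∀ {x : G}, p x ∈ K.map p → x ∈ K := by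
    rintro K hK x ⟨y, hy, e⟩
    have := mul_mem hy (hK (QuotientGroup.eq.1 e))
    rwa [mul_inv_cancel_left] at this
  haveI : (M.map p).Normal := hMn.map p (QuotientGroup.mk'_surjective M₂)
  have hsurj := QuotientGroup.mk'_surjective M₂
  refine hS'.two_layer_false hL (M.map p) ?_ ?_ ?_ ?_
  · intro h
    exact hM₂lt.not_ge fun x hx => (hone x).1 (Subgroup.mem_bot.1 (h ▸ Subgroup.mem_map_of_mem p hx))
  · rw [hk', phi_map]
    refine lt_of_le_not_ge (Subgroup.map_mono hMlt.le) fun h => hMlt.not_ge fun x hx => ?_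
    exact hback hM₂lt.le (h (Subgroup.mem_map_of_mem p hx))
  · intro N hN hle
    have h1 : M₂ ≤ N.comap p := fun z hz => by rw [Subgroup.mem_comap, (hone z).2 hz]; exact one_mem _
    have e : (N.comap p).map p = N := Subgroup.map_comap_eq_self_of_surjective hsurj N
    rcases hM₂max _ (hN.comap p) h1 (fun x hx => hback hM₂lt.le (hle hx)) with h | h
    · left
      rw [← e, h, eq_bot_iff]
      rintro _ ⟨z, hz, rfl⟩
      exact Subgroup.mem_bot.2 ((hone z).2 hz)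
    · right; rw [← e, h]
  · intro N hN h1 h2
    rw [hk', phi_map] at h2 ⊢
    have h3 : M ≤ N.comap p := fun x hx => h1 (Subgroup.mem_map_of_mem p hx)
    have h4 : N.comap p ≤ Phi π.ker := fun x hx => hback (hM₂lt.le.trans hMlt.le) (h2 hx)
    have e : (N.comap p).map p = N := Subgroup.map_comap_eq_self_of_surjective hsurj N
    rcases hMmax _ (hN.comap p) h3 h4 with h | h
    · left; rw [← e, h]
    · right; rw [← e, h]

end Setting

end CfsgLib.RadicalRankFour
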